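import Cfsg.Agent.SE.Ind
import Cfsg.Agent.GT.Puig

/-! Strongly embedded subgroups: interface for the case that `O_p(G_a)` fixes a second point. -/

set_option autoImplicit false
set_option linter.unusedSectionVars false
set_option linter.unusedVariables false

namespace Cfsg.Agent.SE

open Cfsg Subgroup MulAction Cfsg.Agent.GT Cfsg.Agent.Cls Cfsg.Agent.GW Cfsg.Agent.WA

universe u

/-- `O_p(O(G_c))` -/
abbrev Mp (G : Type u) {Ω : Type u} [Group G] [MulAction G Ω] (p : ℕ) (c : Ω) : Subgroup G :=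
  piCoreOf {p} O[stabilizer G c]

def UM (G Ω : Type u) [Group G] [MulAction G Ω] (p : ℕ) : Prop := ∀ (N : Subgroup G) (c : Ω), N ≠ ⊤ →
  ¬ N ≤ stabilizer G c → (∀ s : G, orderOf s = 2 → s • c = c → s ∈ N) → N ⊓ Mp G p c ≠ ⊥ → False

def KP (G Ω : Type u) [Group G] [MulAction G Ω] (p : ℕ) : Prop := ∀ (Y : Subgroup G) (R : Ω → Ω → Prop),
  (∃ a b, R a b) → (∀ a b, R a b → a ≠ b ∧
    (∃ P : Subgroup G, IsPiHallOf {p} P (stabilizer G a ⊓ stabilizer G b) ∧ zPuigOf P = Y ∧ Mp G p b ≤ P) ∧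
    ∃ (t x : G) (m : Ω), t ∈ N[Y] ∧ orderOf t = 2 ∧ t • a = b ∧ t • m = m ∧ R a m ∧ x ≠ 1 ∧ IsPGroup p (zpowers x) ∧
      t * x * t = x⁻¹ ∧ x • a = a ∧ C1[x] ≤ stabilizer G m) → False

/-- `T` fixes exactly the points `a ≠ b` -/
def Ex2 {G Ω : Type u} [Group G] [MulAction G Ω] (T : Subgroup G) (a b : Ω) : Prop :=
  a ≠ b ∧ T ≤ stabilizer G a ∧ T ≤ stabilizer G b ∧ ∀ d : Ω, T ≤ stabilizer G d → d = a ∨ d = b

def Two (G Ω : Type u) [Group G] [MulAction G Ω] (p : ℕ) : Prop :=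
  (∀ T : Subgroup G, IsPGroup p T → ∃ a b : Ω, a ≠ b ∧ T ≤ stabilizer G a ∧ T ≤ stabilizer G b) ∧
    ∃ (T : Subgroup G) (a b : Ω), IsPGroup p T ∧ Ex2 T a b

/-- proper subgroup of rank at least two at `c` with a `p`-subgroup fixing exactly two points, both in the orbit -/
structure Fm {G Ω : Type u} [Group G] [MulAction G Ω] (p : ℕ) (M : Subgroup G) (c : Ω) : Prop where
  ne : M ≠ ⊤
  nle : ¬ M ≤ stabilizer G c
  four : ∃ s ∈ M, ∃ s' ∈ M, orderOf s = 2 ∧ orderOf s' = 2 ∧ s ≠ s' ∧ s * s' = s' * s ∧ s • c = c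
  ex : ∃ T : Subgroup G, ∃ g ∈ M, ∃ g' ∈ M, IsPGroup p T ∧ T ≤ M ∧ Ex2 T (g • c) (g' • c)

/-- stability -/
def STB (G Ω : Type u) [Group G] [MulAction G Ω] (p : ℕ) : Prop := ∀ (M : Subgroup G) (c : Ω), Fm p M c →
  ∀ P A : Subgroup G, IsPGroup p P → P ≤ M → M ≤ N[P] → Odd (Nat.card ↥(M ⊓ C[P])) → A ≤ M → IsPGroup p A →
    IsMulCommutative A → P ≤ N[A] → A ≤ O[M]

def PUMA : Prop := ∀ (G Ω : Type u) [Group G] [Finite G] [MulAction G Ω] (p : ℕ), Mc G Ω → ¬ Cl2 G Ω → p.Prime →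
  (∀ (a : Ω) (s : G), orderOf s = 2 → s • a = a → Mp G p a ≤ C1[s]) → UM G Ω p

def PUMB : Prop := ∀ (G Ω : Type u) [Group G] [Finite G] [MulAction G Ω] (p : ℕ), Mc G Ω → ¬ Cl2 G Ω → p.Prime →
  (∀ r : ℕ, r.Prime → ∀ (a : Ω) (s : G), orderOf s = 2 → s • a = a → Mp G r a ≤ C1[s] → Mp G r a = ⊥) → UM G Ω p

def PKP : Prop := ∀ (G Ω : Type u) [Group G] [Finite G] [MulAction G Ω] (p : ℕ), Mc G Ω → p.Prime → p ≠ 2 →
  (∀ c : Ω, Mp G p c ≠ ⊥) → UM G Ω p → KP G Ω p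

def PTwo : Prop := ∀ (G Ω : Type u) [Group G] [Finite G] [MulAction G Ω] (p : ℕ), Mc G Ω → p.Prime → p ≠ 2 →
  (∀ c : Ω, Mp G p c ≠ ⊥) → (∃ a b : Ω, a ≠ b ∧ Mp G p a ≤ stabilizer G b) → KP G Ω p → Two G Ω p

def PFm : Prop := ∀ (G Ω : Type u) [Group G] [Finite G] [MulAction G Ω] (p : ℕ), Mc G Ω → p.Prime → p ≠ 2 →
  (∀ c : Ω, Mp G p c ≠ ⊥) → (∃ a b : Ω, a ≠ b ∧ Mp G p a ≤ stabilizer G b) → Two G Ω p →
  ∃ (M : Subgroup G) (c : Ω), Fm p M c ∧ M ⊓ Mp G p c ≠ ⊥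

/-- (Q5) -/
def PQ5 : Prop := ∀ (X Λ : Type u) [Group X] [Finite X] [MulAction X Λ] (p : ℕ), Tw1 X Λ → Fa X Λ → T0 X Λ → p.Prime →
  p ≠ 2 → Two X Λ p → ∀ (Y : Subgroup X) (a b : Λ), a ≠ b → IsPGroup p Y → Y ≤ stabilizer X a ⊓ stabilizer X b →
  stabilizer X a ⊓ stabilizer X b ≤ N[Y] → (∀ s : X, orderOf s = 2 → s • a = a → s ∈ N[Y]) → Y = ⊥

def PST : Prop := ∀ (G Ω : Type u) [Group G] [Finite G] [MulAction G Ω] (p : ℕ), Mc G Ω → p.Prime → p ≠ 2 →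
  Two G Ω p → STB G Ω p

def PUp : Prop := ∀ (G Ω : Type u) [Group G] [Finite G] [MulAction G Ω] (p : ℕ), Mc G Ω → p.Prime → p ≠ 2 →
  (∀ c : Ω, Mp G p c ≠ ⊥) → Two G Ω p → (∃ (M : Subgroup G) (c : Ω), Fm p M c ∧ M ⊓ Mp G p c ≠ ⊥) → STB G Ω p →
  KP G Ω p → False

end Cfsg.Agent.SE
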