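import Cfsg.Agent.SE.UMB
import Cfsg.Agent.SE.Def2

/-! Strongly embedded subgroups: assembly of `PNI`. -/

set_option autoImplicit false
set_option linter.unusedSectionVars false
set_option linter.unusedVariables false

namespace Cfsg.Agent.SE

open Cfsg Subgroup MulAction Cfsg.Agent.GT Cfsg.Agent.Cls Cfsg.Agent.GW Cfsg.Agent.WA

universe u

theorem pUMA : PUMA.{u} := fun G Ω _ _ _ p m ncl hp JP N c nt n hJ h => TI.umA m hp (JP c) nt hJ n h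

theorem pUMB : PUMB.{u} := fun G Ω _ _ _ p m ncl hp B N c nt n hJ h =>
  TI.umB m ncl (fun r hr h1 k =>
    let ⟨s, _, o, _, _, _, e, _⟩ := PG.two_inv m.tw c; h1 (B r hr c s o e (k s o e))) nt hJ n

theorem pNI_of (kp : PKP.{u}) (tw : PTwo.{u}) (fm : PFm.{u}) (st : PST.{u}) (up : PUp.{u}) : PNI.{u} := by
  intro G Ω _ _ _ m ncl
  obtain ⟨p, hp, M1, um⟩ : ∃ p : ℕ, p.Prime ∧ (∀ c : Ω, Mp G p c ≠ ⊥) ∧ UM G Ω p := by
    by_cases B : ∀ r : ℕ, r.Prime → ∀ (a : Ω) (s : G), orderOf s = 2 → s • a = a → Mp G r a ≤ C1[s] → Mp G r a = ⊥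
    · obtain ⟨a, -⟩ := m.tw.ac.nt.exists_pair_ne
      obtain ⟨p, hp, M1⟩ := exists_piCoreOf_single_ne_bot (O_solv _) (m.R a)
      exact ⟨p, hp, TI.M_ne m.tw.ac M1, pUMB G Ω p m ncl hp B⟩
    · push Not at B
      obtain ⟨p, hp, a, s, o, e, le, M1⟩ := B
      refine ⟨p, hp, TI.M_ne m.tw.ac M1, pUMA G Ω p m ncl hp fun b v ov vb => ?_⟩
      obtain ⟨g, rfl⟩ := isConj_iff.1 (m.tw.cj s v o ov)
      rw [PB.uniq m.tw ov vb (PB.cj_fix e g), ← conj_cent1, Mp, ← NA.eqvP]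
      exact conj_mono g le
  obtain ⟨a, -⟩ := m.tw.ac.nt.exists_pair_ne
  by_cases I : ∀ a b : Ω, Mp G p a ≤ stabilizer G b → b = a
  · exact TI.typeI m hp (M1 a) I
  push Not at I
  obtain ⟨a, b, le, ne⟩ := I
  have p2 := LB.p_ne hp (M1 a)
  have k := kp G Ω p m hp p2 M1 um
  have t := tw G Ω p m hp p2 M1 ⟨a, b, ne.symm, le⟩ k
  exact (up G Ω p m hp p2 M1 t (fm G Ω p m hp p2 M1 ⟨a, b, ne.symm, le⟩ t) (st G Ω p m hp p2 t) k).elim

end Cfsg.Agent.SE
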