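import Cfsg.Agent.SE.TI
import Cfsg.Agent.SE.Def2

/-! Strongly embedded subgroups: the dihedral trick and the key lemma. -/

set_option autoImplicit false
set_option linter.unusedSectionVars false
set_option linter.unusedVariables false

namespace Cfsg.Agent.SE.KK

open Cfsg Subgroup MulAction Cfsg.Agent.GT Cfsg.Agent.Cls Cfsg.Agent.GW Cfsg.Agent.WA

universe u

variable {G Ω : Type u} [Group G] [Finite G] [MulAction G Ω] {a b c d m : Ω} {s t v x y g : G}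
  {P Q E H D D' X Y : Subgroup G} {p : ℕ}

/-- an involution without fixed points on `Q / X` inverts it -/
theorem inv_mod (o : Odd (Nat.card Q)) (tt : t * t = 1) (n : t ∈ N[Q]) (nX : Q ≤ N[X]) (c : Q ⊓ C1[t] ≤ X)
    (hg : g ∈ Q) : g * (t * g * t⁻¹) ∈ X := by
  obtain ⟨i, ⟨hi, e⟩, cm⟩ := B85.dec o tt n hg
  have hi' : i ∈ Q := hi
  have hq : i⁻¹ * g ∈ Q := mul_mem (inv_mem hi') hg
  have m : i⁻¹ * g ∈ X := c ⟨hq, mem_cent1.2 cm⟩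
  have e2 : t * g * t⁻¹ = i⁻¹ * (i⁻¹ * g) := by
    calc t * g * t⁻¹ = t * i * t⁻¹ * (t * (i⁻¹ * g) * t⁻¹) := by group
      _ = _ := by rw [e, TT.commute_iff_conj.1 cm.symm]
  rw [e2, show g * (i⁻¹ * (i⁻¹ * g)) = g * (i⁻¹ * g) * g⁻¹ * (g * (i⁻¹ * g)⁻¹ * (i⁻¹ * (i⁻¹ * g))) by group,
    show g * (i⁻¹ * g)⁻¹ * (i⁻¹ * (i⁻¹ * g)) = i⁻¹ * g by group]
  exact mul_mem (conj_mem_of_mem_norm (nX hg) m) m

/-- dihedral trick -/
theorem dt (oE : Odd (Nat.card E)) (cop : (Nat.card E).Coprime (orderOf x)) (ht : orderOf t = 2)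
    (ix : t * x * t⁻¹ = x⁻¹) (nx : x ∈ N[E]) (nt : t ∈ N[E]) (c1 : C1[x] ≤ H) (c2 : C1[t] ≤ H)
    (c3 : C1[t * x] ≤ H) : E ≤ H := by
  have xH : x ∈ H := c1 (mem_cent1.2 rfl)
  have tH : t ∈ H := c2 (mem_cent1.2 rfl)
  have nz : zpowers t ≤ N[zpowers x] := zp_norm (by
    rw [← conj_eq_self_iff, conj_zpowers, ix, zpowers_inv])
  have cA : (Nat.card E).Coprime (Nat.card ↥(zpowers x ⊔ zpowers t)) :=
    Nat.Coprime.coprime_dvd_right (card_sup_dvd (.inr nz))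
      (Nat.Coprime.mul_right (by rwa [Nat.card_zpowers]) (cop2 oE ht))
  refine le_of_forall_syl_le fun q hq _ => ?_
  obtain ⟨Q, hQ, nQ⟩ := coprime_exists_syl hq (.inl (solv_odd oE)) (sup_le (zp_norm nx) (zp_norm nt)) cA
  refine ⟨Q, hQ, ?_⟩
  by_contra ne
  have lt : Q ⊓ H < Q := inf_le_left.lt_of_ne fun e => ne (inf_eq_left.1 e)
  have lt' := lt_inf_norm_of_isPGroup hq (syl_isPGroup hq hQ) lt
  have AH : zpowers x ⊔ zpowers t ≤ N[H] := (sup_le (zpowers_le.2 xH) (zpowers_le.2 tH)).trans le_normalizer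
  have n0 : zpowers x ⊔ zpowers t ≤ N[Q ⊓ H] := le_norm_inf nQ AH
  have n1 : zpowers x ⊔ zpowers t ≤ N[Q ⊓ N[Q ⊓ H]] := le_norm_inf nQ (n0.trans le_normalizer)
  have mx : x ∈ zpowers x ⊔ zpowers t := mem_sup_left (mem_zpowers x)
  have mt : t ∈ zpowers x ⊔ zpowers t := mem_sup_right (mem_zpowers t)
  have o1 : Odd (Nat.card ↥(Q ⊓ N[Q ⊓ H])) := odd_card_of_le oE (inf_le_left.trans hQ.le)
  have c0 : (Nat.card ↥(Q ⊓ H)).Coprime (Nat.card (zpowers x)) := by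
    rw [Nat.card_zpowers]; exact cop.coprime_dvd_left (card_dvd_of_le (inf_le_left.trans hQ.le))
  have key : ⁅Q ⊓ N[Q ⊓ H], zpowers x⁆ ≤ Q ⊓ H := by
    refine commutator_le.2 fun g hg z hz => ?_
    have one : ∀ g ∈ Q ⊓ N[Q ⊓ H], g⁻¹ * (x * g * x⁻¹) ∈ Q ⊓ H := fun g hg => by
      have h1 := inv_mod o1 (sq1 ht) (n1 mt) inf_le_right (inf_le_inf inf_le_left c2) hg
      have h2 := inv_mod o1 (t := t * x) (by
        rw [show t * x * (t * x) = t * x * t⁻¹ * (t * t) * x by group, ix, sq1 ht]; group) (n1 (mul_mem mt mx))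
        inf_le_right (inf_le_inf inf_le_left c3) hg
      have h3 := conj_mem_of_mem_norm (n0 (inv_mem mt)) (mul_mem (inv_mem h1) h2)
      rwa [show t⁻¹ * ((g * (t * g * t⁻¹))⁻¹ * (g * (t * x * g * (t * x)⁻¹))) * t⁻¹⁻¹ = g⁻¹ * (x * g * x⁻¹) by
        group] at h3
    have all : ∀ n : ℕ, ∀ g ∈ Q ⊓ N[Q ⊓ H], g⁻¹ * (x ^ n * g * (x ^ n)⁻¹) ∈ Q ⊓ H := fun n => by
      induction n with
      | zero => intro g _; simpa using one_mem _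
      | succ n ih =>
        intro g hg
        have := mul_mem (one g hg) (conj_mem_of_mem_norm (n0 mx) (ih g hg))
        rwa [show g⁻¹ * (x * g * x⁻¹) * (x * (g⁻¹ * (x ^ n * g * (x ^ n)⁻¹)) * x⁻¹) =
          g⁻¹ * (x ^ (n + 1) * g * (x ^ (n + 1))⁻¹) by rw [pow_succ']; group] at this
    obtain ⟨n, rfl⟩ := (mem_powers_iff_mem_zpowers.2 hz : z ∈ Submonoid.powers x)
    have := all n g⁻¹ (inv_mem hg)
    rw [commutatorElement_def]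
    rwa [show g⁻¹⁻¹ * (x ^ n * g⁻¹ * (x ^ n)⁻¹) = g * x ^ n * g⁻¹ * (x ^ n)⁻¹ by group] at this
  have := coprime_sup_cent_of_commutator_le (.inl (solv_odd (odd_card_of_le o1 lt'.le))) (le_sup_left.trans n0) c0
    lt'.le key
  rw [cent_zpowers] at this
  exact lt'.not_ge (this.ge.trans (sup_le le_rfl (inf_le_inf inf_le_left c1)))

/-- normal closure of `Y` under `D` -/
def ncl (D Y : Subgroup G) : Subgroup G := ⨆ g : D, cj[(g : G)] Y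

theorem le_ncl (hg : g ∈ D) : cj[g] Y ≤ ncl D Y := le_iSup (fun g : D => cj[(g : G)] Y) ⟨g, hg⟩

theorem self_le_ncl : Y ≤ ncl D Y := by
  simpa using le_ncl (D := D) (Y := Y) (one_mem D)

theorem ncl_le (h : Y ≤ D) : ncl D Y ≤ D := iSup_le fun g => conj_le_of_mem g.2 h

theorem norm_ncl (h : ∀ g ∈ D, cj[t * g] Y ≤ ncl D Y) : t ∈ N[ncl D Y] := by
  refine mem_normalizer_of_conj_le (conj_le_iff.2 (iSup_le fun g => conj_le_iff.1 ?_))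
  rw [← mul_conj]
  exact h g g.2

theorem le_norm_ncl : D ≤ N[ncl D Y] := fun _ ht => norm_ncl fun _ hg => le_ncl (mul_mem ht hg)

theorem norm_ncl' (h1 : t ∈ N[D]) (h2 : t ∈ N[Y]) : t ∈ N[ncl D Y] := norm_ncl fun g hg => by
  rw [show t * g = t * g * t⁻¹ * t by group, mul_conj, conj_eq_self h2]
  exact le_ncl (conj_mem_of_mem_norm h1 hg)

theorem ncl_mono (e : E ⊔ (D ⊓ N[Y]) = D) (n : D ≤ N[E]) (le : E ≤ D') : ncl D Y ≤ ncl D' Y :=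
  iSup_le fun g => by
    have hg : (g : G) ∈ D ⊓ N[Y] ⊔ E := by rw [sup_comm, e]; exact g.2
    obtain ⟨k, hk, x, hx, e⟩ := (mem_sup_of_le_norm (inf_le_left.trans n)).1 hg
    rw [e, show k * x = k * x * k⁻¹ * k by group, mul_conj, conj_eq_self hk.2]
    exact le_ncl (le (conj_mem_of_mem_norm (n hk.1) hx))

local notation3 "𝐃[" a "," b "]" => stabilizer G a ⊓ stabilizer G b

/-- the dihedral trick for `O_{p'}(D)` -/
theorem ev (w : Tw1 G Ω) (hp : p.Prime) (ne : a ≠ b) (ht : orderOf t = 2) (ta : t • a = b) (tb : t • b = a)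
    (tm : t • m = m) (px : IsPGroup p (zpowers x)) (ix : t * x * t⁻¹ = x⁻¹) (xa : x • a = a)
    (cx : C1[x] ≤ stabilizer G m) : piCoreOf {p}ᶜ 𝐃[a,b] ≤ stabilizer G m := by
  have xb : x • b = b := by
    refine NA.fix_inv (x := x⁻¹) ?_ |> (inv_inv x ▸ ·)
    rw [← ix, mul_smul, mul_smul, inv2 ht, tb, xa, ta]
  have xD : x ∈ 𝐃[a,b] := ⟨xa, xb⟩
  have o := w.odd a b ne
  have xm : x • m = m := cx (mem_cent1.2 rfl)
  refine dt (odd_card_of_le o (piCoreOf_le _ _)) ?_ ht ix (self_le_norm_piCoreOf _ _ xD)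
    (le_norm_piCoreOf (zp_norm (sb_swap_norm ta tb)) (mem_zpowers t)) cx (w.ac.ac.cent_le ht tm)
    (w.ac.ac.cent_le (NA.ord_mul ht ix (odd_ord o xD)) (by rw [mul_smul, xm, tm]))
  rw [← Nat.card_zpowers]
  exact (piCoreOf_isPi _ _).coprime' (isPi_of_isPGroup hp px)

/-- the key lemma, factorised form -/
theorem key (w : Tw1 G Ω) (fa : Fa G Ω) (Y1 : Y ≠ ⊥) (S : Set (Ω × Ω)) (ne : S.Nonempty)
    (h : ∀ a b : Ω, (a, b) ∈ S → a ≠ b ∧ Y ≤ 𝐃[a,b] ∧ ∃ (E : Subgroup G) (t : G) (m : Ω),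
      E ⊔ (𝐃[a,b] ⊓ N[Y]) = 𝐃[a,b] ∧ 𝐃[a,b] ≤ N[E] ∧ E ≤ stabilizer G m ∧ orderOf t = 2 ∧ t ∈ N[Y] ∧ t • a = b ∧
        t • m = m ∧ (a, m) ∈ S) :
    ∃ (a m : Ω) (X : Subgroup G), (a, m) ∈ S ∧ Y ≤ X ∧ X ≤ 𝐃[a,m] ∧ 𝐃[a,m] ≤ N[X] ∧ N[X] ≠ ⊤ ∧
      (∀ s : G, orderOf s = 2 → s • m = m → s ∈ N[X]) ∧ ¬ N[X] ≤ stabilizer G m := by
  obtain ⟨⟨a, b⟩, hab, mx⟩ := Set.exists_max_image S (fun q => Nat.card (ncl 𝐃[q.1,q.2] Y))
    (Set.Finite.subset (by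
      have := w.ac.ac
      have : Finite Ω := by
        obtain ⟨⟨a, -⟩, -⟩ := ne
        exact Finite.of_surjective (fun g : G => g • a) (w.ac.tr a)
      exact Set.finite_univ) (Set.subset_univ _)) ne
  obtain ⟨n, le, E, t, m, e, nE, Em, ht, nY, ta, tm, ham⟩ := h a b hab
  obtain ⟨n', le', -⟩ := h a m ham
  have tb : t • b = a := by rw [← ta, ← mul_smul, sq1 ht, one_smul]
  have Ea : E ≤ stabilizer G a := (le_sup_left.trans e.le).trans inf_le_left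
  have eq : ncl 𝐃[a,b] Y = ncl 𝐃[a,m] Y := eq_of_le_of_card_ge (ncl_mono e nE (le_inf Ea Em)) (mx (a, m) ham)
  have n1 : 𝐃[a,m] ≤ N[ncl 𝐃[a,m] Y] := le_norm_ncl
  have n2 : t ∈ N[ncl 𝐃[a,m] Y] := eq ▸ norm_ncl' (sb_swap_norm ta tb) nY
  refine ⟨a, m, _, ham, self_le_ncl, ncl_le le', n1, TI.norm_ne w.ac fa (a := a)
    (fun e => Y1 (eq_bot_iff.2 (e ▸ self_le_ncl))) ((ncl_le le').trans inf_le_left), fun s os sm =>
      TI.all_inv w n'.symm (inf_comm (stabilizer G a) _ ▸ n1) n2 ht tm os sm, fun k => ?_⟩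
  exact NA.notle w n ht ta tb tm ((eq ▸ le_norm_ncl : 𝐃[a,b] ≤ N[ncl 𝐃[a,m] Y]).trans k)

/-- (K) -/
theorem kk (w : Tw1 G Ω) (fa : Fa G Ω) (hp : p.Prime)
    (um : ∀ (N : Subgroup G) (m : Ω), N ≠ ⊤ → (∀ s : G, orderOf s = 2 → s • m = m → s ∈ N) → ¬ N ≤ stabilizer G m →
      N ⊓ piCoreOf {p} O[stabilizer G m] ≠ ⊥ → False)
    (M1 : ∀ m : Ω, piCoreOf {p} O[stabilizer G m] ≠ ⊥) (Y1 : Y ≠ ⊥) (S : Set (Ω × Ω)) (ne : S.Nonempty)
    (h : ∀ a b : Ω, (a, b) ∈ S → a ≠ b ∧ ∃ (P : Subgroup G) (t x : G) (m : Ω), IsPiHallOf {p} P 𝐃[a,b] ∧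
      zPuigOf P = Y ∧ piCoreOf {p} O[stabilizer G b] ≤ stabilizer G a ∧ orderOf t = 2 ∧ t ∈ N[Y] ∧ t • a = b ∧
      t • m = m ∧ (a, m) ∈ S ∧ IsPGroup p (zpowers x) ∧ t * x * t⁻¹ = x⁻¹ ∧ x • a = a ∧ C1[x] ≤ stabilizer G m) :
    False := by
  obtain ⟨a, m, X, ham, -, -, n1, nt, all, nle⟩ := key w fa Y1 S ne fun a b hab => by
    obtain ⟨n, P, t, x, m, hP, e, -, ht, nY, ta, tm, ham, px, ix, xa, cx⟩ := h a b hab
    have tb : t • b = a := by rw [← ta, ← mul_smul, sq1 ht, one_smul]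
    exact ⟨n, e ▸ (zPuigOf_le P).trans hP.le, _, t, m,
      e ▸ Puig_factorisation hp (w.odd a b n) (solv_odd (w.odd a b n)) hP, self_le_norm_piCoreOf _ _,
      ev w hp n ht ta tb tm px ix xa cx, ht, nY, ta, tm, ham⟩
  obtain ⟨-, -, -, -, -, -, -, le, -⟩ := h a m ham
  exact um _ m nt all nle (by
    rw [inf_eq_right.2 ((le_inf le ((piCoreOf_le _ _).trans (O_le _))).trans n1)]; exact M1 m)

theorem _root_.Cfsg.Agent.SE.pKP : PKP.{u} := fun G Ω _ _ _ p m hp _ M1 um Y R ⟨a, b, hab⟩ h => by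
  obtain ⟨-, ⟨P, hP, e, le⟩, -⟩ := h a b hab
  refine kk (Y := Y) m.tw m.fa hp (fun N c h1 h2 h3 h4 => um N c h1 h3 h2 h4) M1
    (e ▸ zPuigOf_ne_bot hp (syl_isPGroup hp hP) fun k => M1 b (eq_bot_iff.2 (k ▸ le))) {q | R q.1 q.2}
    ⟨(a, b), hab⟩ fun a b hab => ?_
  obtain ⟨n, ⟨P, hP, e, le⟩, t, x, c, nY, ht, ta, tc, hac, -, px, ix, xa, cx⟩ := h a b hab
  exact ⟨n, P, t, x, c, hP, e, le.trans (hP.le.trans inf_le_left), ht, nY, ta, tc, hac, px,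
    (NA.tinv ht).1 ix, xa, cx⟩

end Cfsg.Agent.SE.KK
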