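import Cfsg.Agent.SE.PG
import Cfsg.Agent.SE.Free

/-! Strongly embedded subgroups: no inner elements implies Lemma A, hence `Cl2`. -/

set_option autoImplicit false
set_option linter.unusedSectionVars false
set_option linter.unusedVariables false

namespace Cfsg.Agent.SE.G2F

open Cfsg Subgroup MulAction Cfsg.Agent.GT Cfsg.Agent.GW
open Cfsg.Agent.WA (sb_fix sb_fixN sb_odd sb_dih TP smul_ne)

universe u

variable {G Ω : Type u} [Group G] [Finite G] [MulAction G Ω] {a b c d d' : Ω} {n n' u v : G}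
  {P Q S : Subgroup G} {l : ℕ}

/-- no involution fixing `a` centralises `P` -/
def Fr (a : Ω) (P : Subgroup G) : Prop := ∀ v : G, orderOf v = 2 → v • a = a → v ∉ C[P]

theorem Fr.mono (h : Fr a P) (le : P ≤ Q) : Fr a Q := fun v o e k => h v o e fun x hx => k x (le hx)

theorem ni_cent (ni : NI G Ω) (hv : orderOf v = 2) (e : v • c = c) (hn : v ∈ N[P]) (hc : P ≤ stabilizer G c)
    (hd : P ≤ stabilizer G d) (ne : d ≠ c) : v ∈ C[P] := fun x hx => by
  by_contra k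
  refine ne (ni c d v (x * v * x⁻¹) hv (ord2_conj hv x) e (mul_mem (mul_mem (hc hx) e) (inv_mem (hc hx)))
    (fun e => k (by nth_rw 2 [e]; group)) ?_)
  have := hd (mul_mem (conj_mem_of_mem_norm hn hx) (inv_mem hx))
  rwa [inv2 hv, mul_assoc v, mul_assoc v] at this

/-- a free `l`-group all of whose proper overgroups satisfy the free lemma -/
structure Bad (l : ℕ) (P : Subgroup G) (a : Ω) : Prop where
  tw : Tw1 G Ω
  ni : NI G Ω
  pr : l.Prime
  pg : IsPGroup l P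
  le : P ≤ stabilizer G a
  ex : ∃ b : Ω, b ≠ a ∧ P ≤ stabilizer G b
  fr : Fr a P
  ov : ∀ Q : Subgroup G, P < Q → ∀ a : Ω, IsPGroup l Q → Q ≤ stabilizer G a → Fr a Q →
    ∀ b c : Ω, b ≠ a → c ≠ a → Q ≤ stabilizer G b → Q ≤ stabilizer G c → b = c

namespace Bad

variable (h : Bad l P a)
include h

theorem ac : Ac G Ω := h.tw.ac.ac

theorem odd : Odd (Nat.card P) :=
  let ⟨b, ne, hb⟩ := h.ex; odd_card_of_le (h.ac.odd ne) (le_inf hb h.le)

theorem n0 (hn : v ∈ N[P]) (hv : orderOf v = 2) : v • a ≠ a := fun e =>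
  let ⟨b, ne, hb⟩ := h.ex; h.fr v hv e (ni_cent h.ni hv e hn h.le hb ne)

theorem st (ne : d ≠ a) (hd : P ≤ stabilizer G d) :
    IsPiHallOf {l} P (stabilizer G a ⊓ stabilizer G d) ∨ TP l P a d := by
  obtain ⟨Q, hQ, le⟩ := exists_syl_ge h.pr h.pg (M := stabilizer G a ⊓ stabilizer G d ⊓ N[P])
    (le_inf (le_inf h.le hd) le_normalizer)
  refine le.eq_or_lt.imp (fun e : P = Q => syl_of_syl_norm h.pr (e ▸ hQ)) fun lt => ?_
  have la := hQ.le.trans (inf_le_left.trans inf_le_left)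
  have ld := hQ.le.trans (inf_le_left.trans inf_le_right)
  have k : ∀ c, c ≠ a → Q ≤ stabilizer G c → c = d := fun c nc lc =>
    h.ov Q lt a (syl_isPGroup h.pr hQ) la (h.fr.mono le) c d nc ne lc ld
  exact ⟨Q, syl_of_norm_le h.pr hQ (le_inf (hQ.le.trans inf_le_right) la) fun y hy =>
    ⟨⟨hy.1.2, k _ (smul_ne hy.1.2 ne) (sb_fixN ld hy.2)⟩, hy.1.1⟩, ld, k⟩

theorem tt (ne : d ≠ a) (t1 : TP l P a d) (t2 : TP l P a d') : ∃ n ∈ N[P], n • a = a ∧ n • d = d' := by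
  obtain ⟨Q, hQ, le, -⟩ := t1
  obtain ⟨Q', hQ', -, k⟩ := t2
  obtain ⟨n, hn, rfl⟩ := syl_exists_conj h.pr hQ hQ'
  exact ⟨n, hn.1, hn.2, k _ (smul_ne hn.2 ne) (sb_fix le n)⟩

/-- case B does not occur -/
theorem nB (hn : v ∈ N[P]) (hv : orderOf v = 2) (hc : P ≤ stabilizer G c) : v • c ≠ c := fun e => by
  have k : ∀ n ∈ N[P], n • a ≠ c := fun n m k => h.n0 (v := n⁻¹ * v * n⁻¹⁻¹)
    (mul_mem (mul_mem (inv_mem m) hn) (inv_mem (inv_mem m))) (ord2_conj hv _) (by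
      rw [inv_inv, mul_smul, mul_smul, k, e, ← k, inv_smul_smul])
  have nc : c ≠ a := fun e => k 1 (one_mem _) (by rw [one_smul, e])
  have ns : ¬ IsPiHallOf {l} P (stabilizer G a ⊓ stabilizer G c) := fun s =>
    let ⟨u, hu, _, e⟩ := h.ac.swap_syl nc.symm h.pr s; k u hu e
  have tc := (h.st nc hc).resolve_left ns
  rcases h.st (h.n0 hn hv) (sb_fixN h.le hn) with s | t
  · have cv : P ≤ C1[v] := fun x hx => mem_cent1.2 (ni_cent h.ni hv e hn hc h.le nc.symm x hx)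
    rw [inf_comm] at ns
    refine ns (syl_trans h.pr (syl_of_le s (K := C1[v] ⊓ (stabilizer G c ⊓ stabilizer G a))
      (le_inf cv (le_inf hc h.le)) fun x hx => ⟨hx.2.2, show x • v • a = v • a by
        rw [← mul_smul, mem_cent1.1 hx.1, mul_smul, show x • a = a from hx.2.2]⟩) inf_le_right fun dv => ?_)
    rw [inf_relIndex_right, PG.idx' h.tw nc hv e hv e, ← h.ac.idx_swap (h.n0 hn hv).symm hv rfl
      (by rw [← mul_smul, sq1 hv, one_smul]) e] at dv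
    exact syl_not_dvd h.pr s (dv.trans (relIndex_dvd_of_le_left _ cv))
  · obtain ⟨n, m, -, e'⟩ := h.tt (h.n0 hn hv) t tc
    exact k _ (mul_mem m hn) (by rw [mul_smul, e'])

theorem uq (hu : u ∈ N[P]) (hv : v ∈ N[P]) (ou : orderOf u = 2) (ov : orderOf v = 2) (c : Commute u v) : u = v := by
  by_contra ne
  obtain ⟨x, e, -⟩ := h.ac.fix v ov
  have e' := h.ac.comm_fix ov e c
  exact h.nB hv ov (gen3 ov ou ne c h.odd hv hu (inf_le_right.trans (h.ac.cent_le ov e))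
    (inf_le_right.trans (h.ac.cent_le ou e')) (inf_le_right.trans (h.ac.cent_le (ord2_mul ov ou ne c)
      (by rw [mul_smul, e', e])))) e

theorem zs (hu : u ∈ N[P]) (hv : v ∈ N[P]) (ou : orderOf u = 2) (ov : orderOf v = 2) : u * v ∈ O[N[P]] := by
  rcases sb_dih ou ov with o | ⟨z, hz, o, c1, c2⟩
  · obtain ⟨n, e, -⟩ := B84.conj_of_inv (k := v * u) (by
      rwa [← orderOf_inv, mul_inv_rev, inv2 ou, inv2 ov]) (sq1 ou) (by rw [mul_assoc v, sq1 ou, mul_one, sq1 ov])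
    rw [mul_assoc v, sq1 ou, mul_one] at e
    exact e ▸ WA.zstar_rel (sq1 ou) hu (fun g hg c => (h.uq hu (mul_mem (mul_mem hg hu) (inv_mem hg)) ou
      (ord2_conj ou g) c).symm) (pow_mem (mul_mem hv hu) n)
  · have := zpowers_le.2 (mul_mem hu hv) hz
    rw [h.uq hu this ou o c1, h.uq hv this ov o c2, sq1 o]
    exact one_mem _

theorem sw (hn : n ∈ N[P]) (ne : n • a ≠ a) : ∃ v ∈ N[P], orderOf v = 2 ∧ v • a = n • a := by
  have ne' : n⁻¹ • a ≠ a := fun e => ne (inv_smul_eq_iff.1 e).symm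
  rcases h.st ne (sb_fixN h.le hn) with s | t
  · exact h.ac.swap_syl ne.symm h.pr s
  rcases h.st ne' (sb_fixN h.le (inv_mem hn)) with s | t'
  · obtain ⟨v, hv, o, e⟩ := h.ac.swap_syl ne'.symm h.pr s
    exact ⟨_, mul_mem (mul_mem hn hv) (inv_mem hn), ord2_conj o n, by
      rw [mul_smul, mul_smul, ← e, ← mul_smul v, sq1 o, one_smul]⟩
  obtain ⟨m, hm, e1, e2⟩ := h.tt ne t t'
  have x1 : (n * m) • a = n • a := by rw [mul_smul, e1]
  have x2 : (n * m) • n • a = a := by rw [mul_smul, e2, smul_inv_smul]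
  have hx := mul_mem hn hm
  generalize n * m = x at x1 x2 hx
  have m2 : x * x ∈ stabilizer G a ⊓ stabilizer G (n • a) :=
    ⟨show _ • _ = _ by rw [mul_smul, x1, x2], show _ • _ = _ by rw [mul_smul, x2, x1]⟩
  obtain ⟨j, o⟩ := odd_ord (h.ac.odd ne.symm) m2
  have e : x ^ (2 * j + 1) • a = n • a := by rw [pow_succ, pow_mul, sq, mul_smul, x1]; exact (pow_mem m2 j).2
  exact ⟨_, pow_mem hx _, ord2 (by rw [← (Commute.refl x).mul_pow, ← o, pow_orderOf_eq_one])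
    fun k => ne (by rw [← e, k, one_smul]), e⟩

theorem two (hn : n ∈ N[P]) (hn' : n' ∈ N[P]) (ne : n • a ≠ a) (ne' : n' • a ≠ a) : n • a = n' • a := by
  by_contra k
  obtain ⟨u, hu, ou, eu⟩ := h.sw hn ne
  obtain ⟨v, hv, ov, ev⟩ := h.sw hn' ne'
  rw [← eu, ← ev] at k
  obtain ⟨w, hw, ow, ew⟩ := h.sw (mul_mem hu hv) fun e => k (by
    nth_rw 1 [← e]; rw [← mul_smul, GW.tt (sq1 ou)])
  have m1 := h.zs hu hv ou ov
  have m2 : w * (u * v) ∈ O[N[P]] := PG.mem_of_sq_mem_of_odd (odd_ord (sb_odd (X := N[P] ⊓ stabilizer G a)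
    fun x hx o => h.n0 hx.1 o hx.2) ⟨mul_mem hw (mul_mem hu hv), show _ • _ = _ by
      rw [mul_smul, ← ew, ← mul_smul, sq1 ow, one_smul]⟩) (by
    have := mul_mem (conj_mem_of_mem_norm (O_norm _ hw) m1) m1
    rwa [inv2 ow, mul_assoc _ w] at this)
  exact ne1 ow (eq1_of_odd (odd_ord (O_odd _) ((mul_mem_cancel_right m1).1 m2)) (sq1 ow))

theorem nle (nb : b ≠ a) (nc : c ≠ a) (hb : P ≤ stabilizer G b) (hc : P ≤ stabilizer G c) (ne : b ≠ c) :
    N[P] ≤ stabilizer G a := fun n hn => by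
  by_contra k
  have key : ∀ d, d ≠ a → P ≤ stabilizer G d → n • a = d := fun d nd hd => by
    rcases h.st nd hd with s | ⟨Q, hQ, -, t⟩
    · obtain ⟨v, hv, -, rfl⟩ := h.ac.swap_syl nd.symm h.pr s
      exact h.two hn hv k nd
    · exact t _ k fun m hm => (mul_smul _ _ _).symm.trans (h.two (mul_mem (hQ.le hm).1 hn) hn
        (by rw [mul_smul]; exact smul_ne (hQ.le hm).2 k) k)
  exact ne ((key b nb hb).symm.trans (key c nc hc))

theorem allT (le : N[P] ≤ stabilizer G a) (nd : d ≠ a) (hd : P ≤ stabilizer G d) : TP l P a d :=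
  (h.st nd hd).resolve_left fun s => let ⟨_, hv, _, e⟩ := h.ac.swap_syl nd.symm h.pr s; nd (e.symm.trans (le hv))

theorem fin (nb : b ≠ a) (nc : c ≠ a) (hb : P ≤ stabilizer G b) (hc : P ≤ stabilizer G c) : b = c := by
  by_contra ne
  have le := h.nle nb nc hb hc ne
  obtain ⟨n, hn, -, e⟩ := h.tt nb (h.allT le nb hb) (h.allT le nc hc)
  exact ne ((Bad.nle ⟨h.tw, h.ni, h.pr, h.pg, hb, ⟨a, nb.symm, h.le⟩,
    fun v o e k => h.nB (cent_le_norm P k) o hb e, h.ov⟩ nb.symm (Ne.symm ne) h.le hc nc.symm hn).symm.trans e)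

end Bad

theorem free (w : Tw1 G Ω) (ni : NI G Ω) (hl : l.Prime) (P : Subgroup G) :
    ∀ a : Ω, IsPGroup l P → P ≤ stabilizer G a → Fr a P →
      ∀ b c : Ω, b ≠ a → c ≠ a → P ≤ stabilizer G b → P ≤ stabilizer G c → b = c := by
  induction P using WellFoundedGT.induction with
  | ind P ih => exact fun a p le fr b _ nb nc hb => Bad.fin ⟨w, ni, hl, p, le, ⟨b, nb, hb⟩, fr, ih⟩ nb nc hb

/-- Lemma A -/
theorem la (w : Tw1 G Ω) (ni : NI G Ω) (l : ℕ) (Y : Subgroup G) (a b c : Ω) (hl : l.Prime) (p : IsPGroup l Y)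
    (n1 : a ≠ b) (n2 : a ≠ c) (n3 : b ≠ c) (ha : Y ≤ stabilizer G a) (hb : Y ≤ stabilizer G b)
    (hc : Y ≤ stabilizer G c) : ∃ s ∈ C[Y], orderOf s = 2 ∧ s • a = a := by
  by_contra k
  exact n3 (free w ni hl Y a p ha (fun v o e m => k ⟨v, m, o, e⟩) b c n1.symm n2.symm hb hc)

theorem _root_.Cfsg.Agent.SE.pG2 : PG2.{u} := fun G Ω _ _ _ m ni =>
  let ⟨a, _⟩ := m.tw.ac.nt.exists_pair_ne
  PG.pG m.tw (la m.tw ni) m.fa m.ih (m.R a)

end Cfsg.Agent.SE.G2F
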