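import Cfsg.Agent.SE.Def

/-! Strongly embedded subgroups: the induction, subgroups and the faithful quotient. -/

set_option autoImplicit false
set_option linter.unusedSectionVars false
set_option linter.unusedVariables false

namespace Cfsg.Agent.SE

open Cfsg Subgroup MulAction Cfsg.Agent.GT Cfsg.Agent.Cls Cfsg.Agent.GW Cfsg.Agent.WA

universe u

section quo

variable {G Q Ω : Type u} [Group G] [Finite G] [Group Q] [Finite Q] [MulAction G Ω] [MulAction Q Ω] {f : G →* Q}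

theorem lift_inv (hf : Function.Surjective f) (ko : Odd (Nat.card f.ker)) {z : Q} (hz : orderOf z = 2) :
    ∃ y : G, orderOf y = 2 ∧ f y = z := by
  obtain ⟨y, rfl⟩ := hf z
  have m : y * y ∈ f.ker := by rw [MonoidHom.mem_ker, map_mul, sq1 hz]
  obtain ⟨k, hk⟩ := odd_ord ko m
  have e : f (y ^ (2 * k + 1)) = f y := by rw [map_pow, pow_succ, pow_mul, sq, sq1 hz, one_pow, one_mul]
  refine ⟨y ^ (2 * k + 1), ord2 (by rw [← (Commute.refl y).mul_pow, ← hk, pow_orderOf_eq_one]) fun n => ?_, e⟩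
  rw [n, map_one] at e
  exact ne1 hz e.symm

theorem map_inv2 (ko : Odd (Nat.card f.ker)) {z : G} (hz : orderOf z = 2) : orderOf (f z) = 2 :=
  ord2 (by rw [← map_mul, sq1 hz, map_one]) fun e => absurd (hz ▸ odd_ord ko e) (by decide)

theorem O_comap (hf : Function.Surjective f) (ko : Odd (Nat.card f.ker)) (X : Subgroup Q) :
    O[X.comap f] = O[X].comap f := by
  refine le_antisymm (map_le_iff_le_comap.1 (le_O (map_le_iff_le_comap.2 (O_le _)) (fun x hx => ?_)
    ((O_odd _).of_dvd_nat (card_map_dvd _ f)))) (le_O (comap_mono (O_le _)) (fun x hx => ?_) ?_)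
  · obtain ⟨y, rfl⟩ := hf x
    exact le_normalizer_map f (mem_map_of_mem f (O_norm _ hx))
  · exact le_normalizer_comap f (O_norm X hx)
  · have := (f.ker.subgroupOf (O[X].comap f)).index_mul_card
    rw [← this, card_subgroupOf (ker_le_comap f _)]
    refine Odd.mul ?_ ko
    change Odd (f.ker.relIndex _)
    rw [relIndex_ker, map_comap_eq_self_of_surjective hf]
    exact O_odd X

theorem stab_comap (e : ∀ (g : G) (a : Ω), f g • a = g • a) (a : Ω) : (stabilizer Q a).comap f = stabilizer G a := by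
  ext g; simp [e]

theorem Ac2.quo (h : Ac2 G Ω) (hf : Function.Surjective f) (ko : Odd (Nat.card f.ker))
    (e : ∀ (g : G) (a : Ω), f g • a = g • a) : Ac2 Q Ω := by
  refine ⟨fun a b => (h.tr a b).elim fun g k => ⟨f g, (e g a).trans k⟩, h.nt, fun z hz => ?_, ?_⟩
  · obtain ⟨y, hy, rfl⟩ := lift_inv hf ko hz
    simpa only [e] using h.fix y hy
  · obtain ⟨s, s', a, b, n, c⟩ := h.rk
    refine ⟨f s, f s', map_inv2 ko a, map_inv2 ko b, fun k => ?_, by rw [← map_mul, c, map_mul]⟩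
    have := map_inv2 ko (ord2_mul a b n.symm c.symm)
    rw [map_mul, k, sq1 (map_inv2 ko b), orderOf_one] at this
    omega

theorem Cl2.of_quo (h : Cl2 Q Ω) (hf : Function.Surjective f) (ko : Odd (Nat.card f.ker))
    (e : ∀ (g : G) (a : Ω), f g • a = g • a) : Cl2 G Ω := fun a s s' o o' x x' => by
  rw [← stab_comap e, O_comap hf ko, mem_comap, map_mul, map_mul, map_mul]
  exact h a _ _ (map_inv2 ko o) (map_inv2 ko o') ((e _ _).trans x) ((e _ _).trans x')

theorem T0.of_quo (h : T0 Q Ω) (hf : Function.Surjective f) (ko : Odd (Nat.card f.ker))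
    (e : ∀ (g : G) (a : Ω), f g • a = g • a) : T0 G Ω := fun a b => by
  rw [← stab_comap e, ← stab_comap e, O_comap hf ko]
  exact comap_mono (h a b)

theorem Cl2.quo (h : Cl2 G Ω) (hf : Function.Surjective f) (ko : Odd (Nat.card f.ker))
    (e : ∀ (g : G) (a : Ω), f g • a = g • a) : Cl2 Q Ω := fun a s s' o o' x x' => by
  obtain ⟨y, oy, rfl⟩ := lift_inv hf ko o
  obtain ⟨y', oy', rfl⟩ := lift_inv hf ko o'
  have := h a y y' oy oy' ((e _ _).symm.trans x) ((e _ _).symm.trans x')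
  rwa [← stab_comap e, O_comap hf ko, mem_comap, map_mul, map_mul, map_mul] at this

theorem Rg.of_quo (h : Rg Q Ω) (hf : Function.Surjective f) (ko : Odd (Nat.card f.ker))
    (e : ∀ (g : G) (a : Ω), f g • a = g • a) : Rg G Ω := by
  intro a S hS
  have m : (stabilizer G a).map f = stabilizer Q a := by rw [← stab_comap e, map_comap_eq_self_of_surjective hf]
  obtain ⟨h1, h2⟩ := h a (S.map f) (m ▸ isPiHallOf_mk (map_mono hS.le)
    (hS.isPi.map f) (hS.idx.of_dvd (relIndex_comap (S.map f) f _ ▸ relIndex_dvd_of_le_left _ (le_comap_map f S))))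
  refine ⟨fun b c nb nc => ?_, fun x hx s os sa d => ?_⟩
  · obtain ⟨_, ⟨g, hg, rfl⟩, k⟩ := h1 b c nb nc
    exact ⟨g, hg, (e g b).symm.trans k⟩
  · have := h2 _ (mem_map_of_mem f hx) _ (map_inv2 ko os) ((e _ _).trans sa) d
    rwa [← map_inv, ← map_mul, ← map_mul, e, e] at this

theorem Ac2.ker_odd (h : Ac2 G Ω) {X : Subgroup G} (k : ∀ g ∈ X, ∀ a : Ω, g • a = a) : Odd (Nat.card X) := by
  rw [← Nat.not_even_iff_odd]
  intro ev
  obtain ⟨x, hx, o⟩ := exists_inv ev
  have := h.nt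
  obtain ⟨a, b, n⟩ := exists_pair_ne Ω
  exact n ((h.fix x o).unique (k x hx a) (k x hx b))

/-- the faithful quotient -/
theorem Ac2.exists_quo (h : Ac2 G Ω) : ∃ (Q : Type u) (_ : Group Q) (_ : Finite Q) (_ : MulAction Q Ω) (f : G →* Q),
    Function.Surjective f ∧ Odd (Nat.card f.ker) ∧ (∀ (g : G) (a : Ω), f g • a = g • a) ∧ Fa Q Ω ∧
      (¬ Fa G Ω → Nat.card Q < Nat.card G) := by
  have sf := (toPermHom G Ω).rangeRestrict_surjective
  have : Finite (toPermHom G Ω).range := Finite.of_surjective _ sf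
  refine ⟨(toPermHom G Ω).range, inferInstance, this, inferInstance, _, sf,
    h.ker_odd fun g hg a => congrArg (fun q : (toPermHom G Ω).range => q • a) hg |>.trans (one_smul _ a), fun _ _ => rfl,
    fun q k => Subtype.ext (Equiv.ext k), fun n => lt_of_le_of_ne (Nat.card_le_card_of_surjective _ sf) fun e => n ?_⟩
  have := (sf.bijective_of_nat_card_le e.ge).1
  exact fun g k => this (Subtype.ext (Equiv.ext fun a => (k a).trans (one_smul G a).symm))

end quo

/-- induction for any property passing from the faithful quotient to the group -/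
theorem ind_gen (P : ∀ (G Ω : Type u) [Group G] [MulAction G Ω], Prop)
    (q : ∀ (G Q Ω : Type u) [Group G] [Finite G] [Group Q] [Finite Q] [MulAction G Ω] [MulAction Q Ω] (f : G →* Q),
      Function.Surjective f → Odd (Nat.card f.ker) → (∀ (g : G) (a : Ω), f g • a = g • a) → P Q Ω → P G Ω)
    (step : ∀ (G Ω : Type u) [Group G] [Finite G] [MulAction G Ω], Ac2 G Ω → Fa G Ω →
      (∀ (G' Ω' : Type u) [Group G'] [Finite G'] [MulAction G' Ω'], Nat.card G' < Nat.card G → Ac2 G' Ω' → P G' Ω') →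
      P G Ω) (G Ω : Type u) [Group G] [Finite G] [MulAction G Ω] (h : Ac2 G Ω) : P G Ω := by
  generalize hn : Nat.card G = n
  induction n using Nat.strong_induction_on generalizing G Ω with
  | _ n ih =>
    subst hn
    by_cases fa : Fa G Ω
    · exact step G Ω h fa fun G' Ω' _ _ _ l a => ih _ l G' Ω' a rfl
    · obtain ⟨Q, _, _, _, f, sf, ko, e, -, l⟩ := h.exists_quo
      exact q G Q Ω f sf ko e (ih _ (l fa) Q Ω (h.quo sf ko e) rfl)

section sub

variable {G Ω : Type u} [Group G] [Finite G] [MulAction G Ω] {N : Subgroup G} {c : Ω} {s s' v g : G}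

/-- the fixed point of an involution of `N` lies in the orbit -/
theorem Tw1.home (w : Tw1 G Ω) (hs : s ∈ N) (os : orderOf s = 2) (sc : s • c = c) (hv : v ∈ N) (ov : orderOf v = 2)
    {e : Ω} (ve : v • e = e) : e ∈ orbit N c := by
  by_cases n : c = e
  · exact n ▸ mem_orbit_self c
  · obtain ⟨-, t, ht, -, -, k, -⟩ := w.mid c e s v n os ov sc ve
    exact ⟨⟨t, V_le hs hv ht⟩, k⟩

theorem Tw1.sub (w : Tw1 G Ω) (n : ¬ N ≤ stabilizer G c) (hs : s ∈ N) (hs' : s' ∈ N) (os : orderOf s = 2)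
    (os' : orderOf s' = 2) (ne : s ≠ s') (cm : s * s' = s' * s) (sc : s • c = c) : Ac2 N (orbit N c) := by
  refine ⟨fun a b => exists_smul_eq N a b, ?_, fun z hz => ?_,
    ⟨s, hs⟩, ⟨s', hs'⟩, (orderOf_mk _ _).trans os, (orderOf_mk _ _).trans os', fun e => ne (congrArg Subtype.val e),
    Subtype.ext cm⟩
  · obtain ⟨g, hg, k⟩ := SetLike.not_le_iff_exists.1 n
    exact ⟨⟨_, mem_orbit c (⟨g, hg⟩ : N)⟩, ⟨c, mem_orbit_self c⟩, fun e => k (congrArg Subtype.val e)⟩
  · rw [← orderOf_coe] at hz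
    obtain ⟨e, he, un⟩ := w.ac.fix z hz
    exact ⟨⟨e, w.home hs os sc z.2 hz he⟩, Subtype.ext he, fun y hy => Subtype.ext (un _ (congrArg Subtype.val hy))⟩

theorem stab_orbit (d : orbit N c) : (stabilizer N d).map N.subtype = N ⊓ stabilizer G (d : Ω) := by
  ext x
  constructor
  · rintro ⟨y, hy, rfl⟩
    exact ⟨y.2, congrArg Subtype.val hy⟩
  · exact fun h => ⟨⟨x, h.1⟩, Subtype.ext h.2, rfl⟩

theorem O_orbit (d : orbit N c) : O[stabilizer N d].map N.subtype = O[N ⊓ stabilizer G (d : Ω)] := by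
  rw [← stab_orbit, piCoreOf_map N.subtype_injective]

theorem T0.le (h : T0 N (orbit N c)) (hg : g ∈ N) : O[N ⊓ stabilizer G c] ≤ stabilizer G (g • c) :=
  (O_orbit ⟨c, mem_orbit_self c⟩).ge.trans ((map_mono (h _ ⟨_, mem_orbit c (⟨g, hg⟩ : N)⟩)).trans
    ((stab_orbit _).le.trans inf_le_right))

theorem Tw1.O_le (w : Tw1 G Ω) (hs : s ∈ N) (hs' : s' ∈ N) (os : orderOf s = 2) (os' : orderOf s' = 2) (ne : s ≠ s')
    (cm : s * s' = s' * s) (sc : s • c = c) : O[N] ≤ O[N ⊓ stabilizer G c] :=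
  le_O (le_inf (GW.O_le N) (w.four c s s' _ os os' ne cm sc (O_odd N) (O_norm N hs) (O_norm N hs')))
    (inf_le_left.trans (O_norm N)) (O_odd N)

theorem T0.O_le (h : T0 N (orbit N c)) : O[N ⊓ stabilizer G c] ≤ O[N] := by
  let X : Subgroup G := O[N ⊓ stabilizer G c] ⊓ ⨅ g : N, stabilizer G ((g : G) • c)
  have e : ∀ g ∈ N, cj[g] O[N ⊓ stabilizer G c] ≤ O[N ⊓ stabilizer G c] := fun g hg => by
    let Y : Subgroup G := N ⊓ ⨅ g : N, stabilizer G ((g : G) • c)
    have YN : N ≤ N[Y] := fun x hx => mem_normalizer_fintype fun y hy => ⟨N.mul_mem (N.mul_mem hx hy.1) (N.inv_mem hx),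
      mem_iInf.2 fun k => by
        have := mem_iInf.1 hy.2 ⟨x⁻¹ * k, mul_mem (inv_mem hx) k.2⟩
        rw [mem_stabilizer_iff] at this ⊢
        rw [mul_smul, mul_smul, ← mul_smul x⁻¹, this, mul_smul, smul_inv_smul]⟩
    have Yc : Y ≤ N ⊓ stabilizer G c := fun y hy => ⟨hy.1, by simpa using mem_iInf.1 hy.2 1⟩
    have l : O[N ⊓ stabilizer G c] ≤ Y := le_inf ((GW.O_le _).trans inf_le_left) (le_iInf fun k => h.le k.2)
    rw [piCoreOf_eq_of_normal_of_le Yc (inf_le_left.trans YN) l |>.symm]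
    exact (conj_eq_self_iff.2 (le_norm_piCoreOf YN hg)).le
  exact le_O ((GW.O_le _).trans inf_le_left) (fun g hg => mem_normalizer_fintype fun y hy =>
    e g hg (conj_mem_conj.2 hy)) (O_odd _)

theorem Cl2.sub (h : Cl2 G Ω) : Cl2 N (orbit N c) := fun d v v' o o' x x' => by
  rw [← mem_map_iff_mem N.subtype_injective, O_orbit]
  have := h d v v' ((orderOf_coe v).trans o) ((orderOf_coe v').trans o') (congrArg Subtype.val x) (congrArg Subtype.val x')
  exact piCoreOf_inf_le inf_le_right ⟨this, (v * v' * v * v').2, GW.O_le _ this⟩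

theorem Rg.le (h : Rg N (orbit N c)) {S : Subgroup G} (hS : IsPiHallOf {2} S (N ⊓ stabilizer G c)) :
    (∀ g ∈ N, ∀ g' ∈ N, g • c ≠ c → g' • c ≠ c → ∃ x ∈ S, x • g • c = g' • c) ∧
      ∀ h ∈ S, ∀ v ∈ N, orderOf v = 2 → v • c = c → ∀ g ∈ N, (h * v * h⁻¹) • g • c = v • g • c := by
  obtain ⟨S, rfl⟩ := exists_map_subtype_eq (hS.le.trans inf_le_left)
  rw [← stab_orbit (⟨c, mem_orbit_self c⟩ : orbit N c), isPiHallOf_map_iff N.subtype_injective] at hS
  obtain ⟨h1, h2⟩ := h _ S hS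
  refine ⟨fun g hg g' hg' n n' => ?_, ?_⟩
  · obtain ⟨x, hx, k⟩ := h1 ⟨_, mem_orbit c (⟨g, hg⟩ : N)⟩ ⟨_, mem_orbit c (⟨g', hg'⟩ : N)⟩
      (fun e => n (congrArg Subtype.val e)) (fun e => n' (congrArg Subtype.val e))
    exact ⟨x, ⟨x, hx, rfl⟩, congrArg Subtype.val k⟩
  · rintro _ ⟨x, hx, rfl⟩ v hv o vc g hg
    exact congrArg Subtype.val (h2 x hx ⟨v, hv⟩ ((orderOf_mk _ _).trans o) (Subtype.ext vc) ⟨_, mem_orbit c (⟨g, hg⟩ : N)⟩)

end sub

theorem pSub (a1 : PA1.{u}) (a2 : PA2.{u}) : PSub.{u} := by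
  intro G Ω _ _ _ h hc ih N c s s' nt n hs hs' os os' ne cm sc
  have w := a1 G Ω h
  have a := w.sub n hs hs' os os' ne cm sc
  have cl : Cl2 N (orbit N c) := hc.sub
  obtain ⟨t0, rg⟩ := ih N _ (card_lt_of_ne_top nt) a cl
  have e := le_antisymm t0.O_le (w.O_le hs hs' os os' ne cm sc)
  refine ⟨a2 _ _ (a1 _ _ a) cl, t0, fun g hg => t0.le hg, e, fun v v' hv hv' o o' x x' => ?_,
    fun S hS => rg.le hS⟩
  rw [← e, ← O_orbit ⟨c, mem_orbit_self c⟩]
  exact ⟨_, cl ⟨c, mem_orbit_self c⟩ ⟨v, hv⟩ ⟨v', hv'⟩ ((orderOf_mk _ _).trans o) ((orderOf_mk _ _).trans o')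
    (Subtype.ext x) (Subtype.ext x'), rfl⟩

theorem pSub0 : PSub0.{u} := by
  intro G Ω _ _ _ w ih N c s s' nt n hs hs' os os' ne cm sc
  have t0 := ih N _ (card_lt_of_ne_top nt) (w.sub n hs hs' os os' ne cm sc)
  exact ⟨fun g hg => t0.le hg, le_antisymm t0.O_le (w.O_le hs hs' os os' ne cm sc)⟩

theorem Tw1.ex_swap {G Ω : Type u} [Group G] [Finite G] [MulAction G Ω] (w : Tw1 G Ω) {a b : Ω} (n : a ≠ b) :
    ∃ t : G, orderOf t = 2 ∧ t • a = b ∧ t • b = a := by
  obtain ⟨s, -, hs, -⟩ := w.ac.rk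
  obtain ⟨e, he, -⟩ := w.ac.fix s hs
  obtain ⟨g, rfl⟩ := w.ac.tr e a
  obtain ⟨g', rfl⟩ := w.ac.tr e b
  have k : ∀ g : G, (g * s * g⁻¹) • g • e = g • e := fun g => by rw [mul_smul, inv_smul_smul, mul_smul, he]
  obtain ⟨-, t, -, ot, -, ta, tb⟩ := w.mid _ _ _ _ n (ord2_conj hs g) (ord2_conj hs g') (k g) (k g')
  exact ⟨t, ot, ta, tb⟩

theorem t5_of (a1 : PA1.{u}) (a2 : PA2.{u}) (pb : PB.{u}) (pc : PC.{u}) : T5.{u} := fun G Ω _ _ _ h =>
  ind_gen (fun G Ω _ _ => Cl2 G Ω → T0 G Ω ∧ Rg G Ω) (fun _ _ _ _ _ _ _ _ _ _ sf ko e p c =>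
    ⟨(p (c.quo sf ko e)).1.of_quo sf ko e, (p (c.quo sf ko e)).2.of_quo sf ko e⟩) (fun G Ω _ _ _ h fa ih c => by
      have w := a1 G Ω h
      have := h.nt
      have k : ∀ a : Ω, O[stabilizer G a] = ⊥ ∧ Rg G Ω := fun a => by
        obtain ⟨d, hd⟩ := exists_ne a
        obtain ⟨t, ot, ta, tb⟩ := w.ex_swap hd.symm
        obtain ⟨A, K, S⟩ := pb G Ω (a2 G Ω w c) fa ih _ _ t hd.symm ot ta tb
        exact pc G Ω _ _ t A K S
      exact ⟨fun a b => (k a).1 ▸ bot_le, (k (Classical.arbitrary Ω)).2⟩) G Ω h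

theorem Tw1.quot {G Ω : Type u} [Group G] [Finite G] [MulAction G Ω] (w : Tw1 G Ω) {a : Ω} {M : Subgroup G}
    (l : stabilizer G a ≤ M) (n : M ≠ ⊤) : Ac2 G (G ⧸ M) := by
  have fx : ∀ z g : G, z • (g : G ⧸ M) = g ↔ g⁻¹ * z * g ∈ M := fun z g => by
    rw [MulAction.Quotient.smul_coe, eq_comm, QuotientGroup.eq, smul_eq_mul, mul_assoc]
  obtain ⟨s, s', o, o', ne, cm⟩ := w.ac.rk
  refine ⟨fun a b => exists_smul_eq G a b, ?_, fun z hz => ?_, s, s', o, o', ne, cm⟩
  · by_contra k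
    rw [not_nontrivial_iff_subsingleton] at k
    exact n (eq_top_iff.2 fun g _ => by simpa using QuotientGroup.eq.1 (Subsingleton.elim ((1 : G) : G ⧸ M) g))
  · obtain ⟨e, he, -⟩ := w.ac.fix z hz
    obtain ⟨g, rfl⟩ := w.ac.tr a e
    have m : g⁻¹ * z * g ∈ stabilizer G a := by rw [mem_stabilizer_iff, mul_smul, mul_smul, he, inv_smul_smul]
    refine ⟨g, (fx _ _).2 (l m), fun y hy => ?_⟩
    induction y using QuotientGroup.induction_on with
    | _ y =>
      have o1 : ∀ x : G, orderOf (x⁻¹ * z * x) = 2 := fun x => by simpa using ord2_conj hz x⁻¹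
      obtain ⟨k, hk⟩ := w.home (l m) (o1 g) m ((fx _ _).1 hy) (o1 y) (e := y⁻¹ • g • a)
        (by rw [mul_smul, mul_smul, smul_inv_smul, he])
      have : (k : G)⁻¹ * y⁻¹ * g ∈ stabilizer G a := by
        rw [mem_stabilizer_iff, mul_smul, mul_smul, ← hk]; exact inv_smul_smul _ _
      exact QuotientGroup.eq.2 (by simpa [mul_assoc] using M.mul_mem k.2 (l this))

theorem tz_of (a1 : PA1.{u}) (t5 : T5.{u}) (ni : PNI.{u}) (g2 : PG2.{u}) : TZ.{u} := fun G Ω _ _ _ h =>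
  ind_gen (fun G Ω _ _ => T0 G Ω) (fun _ _ _ _ _ _ _ _ _ _ sf ko e p => p.of_quo sf ko e) (fun G Ω _ _ _ h fa ih => by
    have mx : ∀ (Ω : Type u) [MulAction G Ω], Ac2 G Ω → Fa G Ω → (∀ a : Ω, IsCoatom (stabilizer G a)) → T0 G Ω := by
      intro Ω _ h fa m
      by_contra n
      have c : Mc G Ω := ⟨a1 G Ω h, fa, ih, m, fun a e => n fun a' b => by
        obtain ⟨g, rfl⟩ := h.tr a a'
        rw [stabilizer_smul_eq_stabilizer_map_conj, ← piCoreOf_map (conj_hom_injective g), e, Subgroup.map_bot]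
        exact bot_le⟩
      exact n (t5 G Ω h (by_contra fun k => k (g2 G Ω c (ni G Ω c k)))).1
    have w := a1 G Ω h
    obtain ⟨s, s', o, o', ne, cm⟩ := h.rk
    obtain ⟨a, sa, -⟩ := h.fix s o
    have s'a : s' • a = a := (h.fix s o).unique (by rw [← mul_smul, cm, mul_smul, sa]) sa
    have := h.nt
    have na : stabilizer G a ≠ ⊤ := fun e => by
      obtain ⟨b, hb⟩ := exists_ne a
      obtain ⟨g, rfl⟩ := h.tr a b
      exact hb (e.ge (mem_top g))
    obtain ⟨M, cM, l⟩ := (eq_top_or_exists_le_coatom (stabilizer G a)).resolve_left na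
    have q := w.quot l cM.1
    have O1 : ∀ X : Subgroup G, Odd (Nat.card X) → X.Normal → X = ⊥ := fun X oX nX => eq_bot_iff.2 fun x hx =>
      fa x fun b => by
        obtain ⟨g, rfl⟩ := h.tr a b
        have := w.four a s s' X o o' ne cm sa oX ((normalizer_eq_top_iff.2 nX).ge (mem_top s)) ((normalizer_eq_top_iff.2 nX).ge (mem_top s'))
          (nX.conj_mem' x hx g)
        rwa [mem_stabilizer_iff, mul_smul, mul_smul, inv_smul_eq_iff] at this
    have fq : Fa G (G ⧸ M) := fun g k => by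
      have := O1 (toPermHom G (G ⧸ M)).ker (q.ker_odd fun g hg a => congrFun (congrArg DFunLike.coe hg) a) inferInstance
      exact this.le (Equiv.ext k)
    have t := mx _ q fq fun b => by
      induction b using QuotientGroup.induction_on with
      | _ y =>
        rw [show (y : G ⧸ M) = y • ((1 : G) : G ⧸ M) by simp, stabilizer_smul_eq_stabilizer_map_conj, stabilizer_quotient]
        exact ((MulAut.conj y).mapSubgroup.isCoatom_iff M).2 cM
    have OM : O[M] = ⊥ := eq_bot_iff.2 fun x hx => fq x fun b => t ((1 : G) : G ⧸ M) b (by rwa [stabilizer_quotient])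
    have Oa : O[stabilizer G a] = ⊥ := by
      by_cases e : M ≤ stabilizer G a
      · rw [le_antisymm l e, OM]
      · rw [← inf_eq_right.2 l, (pSub0 G Ω w ih M a s s' cM.1 e (l sa) (l s'a) o o' ne cm sa).2, OM]
    intro a' b
    obtain ⟨g, rfl⟩ := h.tr a a'
    rw [stabilizer_smul_eq_stabilizer_map_conj, ← piCoreOf_map (conj_hom_injective g), Oa, Subgroup.map_bot]
    exact bot_le) G Ω h

end Cfsg.Agent.SE
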