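import Cfsg.Agent.WA.SDef

/-! Strongly embedded subgroups: interface between the pieces. -/

set_option autoImplicit false
set_option linter.unusedSectionVars false
set_option linter.unusedVariables false

namespace Cfsg.Agent.SE

open Cfsg Subgroup MulAction Cfsg.Agent.GT Cfsg.Agent.Cls Cfsg.Agent.GW Cfsg.Agent.WA

universe u

/-- transitive action, every involution fixes exactly one point, 2-rank at least two. -/
structure Ac2 (G Ω : Type u) [Group G] [MulAction G Ω] : Prop where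
  tr : ∀ a b : Ω, ∃ g : G, g • a = b
  nt : Nontrivial Ω
  fix : ∀ z : G, orderOf z = 2 → ∃! a : Ω, z • a = a
  rk : ∃ s s' : G, orderOf s = 2 ∧ orderOf s' = 2 ∧ s ≠ s' ∧ s * s' = s' * s

/-- the involutions of a point stabiliser commute modulo its odd core. -/
def Cl2 (G Ω : Type u) [Group G] [MulAction G Ω] : Prop :=
  ∀ (a : Ω) (s s' : G), orderOf s = 2 → orderOf s' = 2 → s • a = a → s' • a = a →
    s * s' * s * s' ∈ O[stabilizer G a]

/-- the odd core of a point stabiliser acts trivially. -/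
def T0 (G Ω : Type u) [Group G] [MulAction G Ω] : Prop := ∀ a b : Ω, O[stabilizer G a] ≤ stabilizer G b

/-- faithful action -/
def Fa (G Ω : Type u) [Group G] [MulAction G Ω] : Prop := ∀ g : G, (∀ a : Ω, g • a = a) → g = 1

/-- every Sylow 2-subgroup of a point stabiliser is transitive on the other points and centralises the involutions
modulo the kernel. -/
def Rg (G Ω : Type u) [Group G] [MulAction G Ω] : Prop := ∀ (a : Ω) (S : Subgroup G),
  IsPiHallOf {2} S (stabilizer G a) → (∀ b c : Ω, b ≠ a → c ≠ a → ∃ h ∈ S, h • b = c) ∧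
    ∀ h ∈ S, ∀ s : G, orderOf s = 2 → s • a = a → ∀ d : Ω, (h * s * h⁻¹) • d = s • d

/-- induction hypothesis inside the `Cl2` class -/
def IH2 (n : ℕ) : Prop := ∀ (G Ω : Type u) [Group G] [Finite G] [MulAction G Ω], Nat.card G < n → Ac2 G Ω →
  Cl2 G Ω → T0 G Ω ∧ Rg G Ω

/-- induction hypothesis for all actions -/
def IH0 (n : ℕ) : Prop := ∀ (G Ω : Type u) [Group G] [Finite G] [MulAction G Ω], Nat.card G < n → Ac2 G Ω → T0 G Ω

def T5 : Prop := ∀ (G Ω : Type u) [Group G] [Finite G] [MulAction G Ω], Ac2 G Ω → Cl2 G Ω → T0 G Ω ∧ Rg G Ω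

def TZ : Prop := ∀ (G Ω : Type u) [Group G] [Finite G] [MulAction G Ω], Ac2 G Ω → T0 G Ω

/-- the main theorem -/
def T1 : Prop := ∀ (G Ω : Type u) [Group G] [Finite G] [MulAction G Ω], Ac2 G Ω → Cl2 G Ω ∧ T0 G Ω

/-- elementary facts (no `Cl2`). -/
structure Tw1 (G Ω : Type u) [Group G] [MulAction G Ω] : Prop where
  ac : Ac2 G Ω
  cj : ∀ s s' : G, orderOf s = 2 → orderOf s' = 2 → IsConj s s'
  /-- two involutions with different fixed points are interchanged by an involution of the group they generate -/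
  mid : ∀ (a b : Ω) (s s' : G), a ≠ b → orderOf s = 2 → orderOf s' = 2 → s • a = a → s' • b = b →
    Odd (orderOf (s * s')) ∧ ∃ t ∈ zpowers s ⊔ zpowers s', orderOf t = 2 ∧ t * s * t = s' ∧ t • a = b ∧ t • b = a
  odd : ∀ a b : Ω, a ≠ b → Odd (Nat.card ↥(stabilizer G a ⊓ stabilizer G b))
  /-- `k ↦ k s k⁻¹` is a bijection from the elements of `D` inverted by `t` onto `I(G_a)` -/
  kk : ∀ (a b : Ω) (t s s' : G), a ≠ b → orderOf t = 2 → t • a = b → t • b = a →
    orderOf s = 2 → orderOf s' = 2 → s • a = a → s' • a = a →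
    ∃! k : G, k • a = a ∧ k • b = b ∧ t * k * t = k⁻¹ ∧ k * s * k⁻¹ = s'
  /-- every Sylow subgroup of a normal subgroup of `D⟨t⟩` inside `D` is normalised by a swapper -/
  sw : ∀ (a b : Ω) (t : G) (X P : Subgroup G) (l : ℕ), a ≠ b → orderOf t = 2 → t • a = b → t • b = a →
    X ≤ stabilizer G a ⊓ stabilizer G b → stabilizer G a ⊓ stabilizer G b ≤ N[X] → t ∈ N[X] → l.Prime →
    IsPiHallOf {l} P X → ∃ y ∈ N[P], orderOf y = 2 ∧ y • a = b ∧ y • b = a
  /-- an odd subgroup normalised by a four-group fixes its fixed point -/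
  four : ∀ (a : Ω) (s s' : G) (X : Subgroup G), orderOf s = 2 → orderOf s' = 2 → s ≠ s' → s * s' = s' * s →
    s • a = a → Odd (Nat.card X) → s ∈ N[X] → s' ∈ N[X] → X ≤ stabilizer G a

/-- free lemma and double transitivity (with `Cl2`). -/
structure Tw2 (G Ω : Type u) [Group G] [MulAction G Ω] : Prop extends Tw1 G Ω where
  cl : Cl2 G Ω
  free : ∀ (a : Ω) (S P : Subgroup G) (l : ℕ), IsPiHallOf {2} S ⊤ → l.Prime → l ∣ nI S →
    IsPGroup l P → P ≤ stabilizer G a → Free a P →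
    ∀ b c : Ω, b ≠ a → c ≠ a → P ≤ stabilizer G b → P ≤ stabilizer G c → b = c
  syl : ∀ (a b : Ω) (S P : Subgroup G) (l : ℕ), a ≠ b → IsPiHallOf {2} S ⊤ → l.Prime → l ∣ nI S →
    IsPiHallOf {l} P (stabilizer G a ⊓ stabilizer G b) → Free a P ∧ IsPiHallOf {l} P (stabilizer G a)
  two : ∀ a b c : Ω, b ≠ a → c ≠ a → ∃ h : G, h • a = a ∧ h • b = c

/-- the structure of the point stabiliser of a faithful group. -/
structure St {G Ω : Type u} [Group G] [MulAction G Ω] (a b : Ω) (t : G) (A K : Subgroup G) : Prop where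
  tw : Tw2 G Ω
  fa : Fa G Ω
  ih : IH2.{u} (Nat.card G)
  ne : a ≠ b
  ord : orderOf t = 2
  ta : t • a = b
  tb : t • b = a
  memA : ∀ x, x ∈ A ↔ x = 1 ∨ orderOf x = 2 ∧ x • a = a
  four : 4 ≤ Nat.card A
  RA : O[stabilizer G a] ≤ C[A]
  memK : ∀ k, k ∈ K ↔ k • a = a ∧ k • b = b ∧ t * k * t = k⁻¹
  cyc : IsCyclic K
  cardK : Nat.card K + 1 = Nat.card A
  DK : stabilizer G a ⊓ stabilizer G b ≤ N[K]
  fix2 : ∀ k ∈ K, k ≠ 1 → ∀ c : Ω, k • c = c → c = a ∨ c = b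
  W0 : stabilizer G a ⊓ stabilizer G b ⊓ C[A] ≤ C[K] ⊓ C1[t]
  /-- the Fitting subgroup of `O(G_a)` is semiregular on the other points -/
  semi : ∀ y ∈ fittingOf O[stabilizer G a], y ≠ 1 → ∀ c : Ω, y • c = c → c = a

/-- basics -/
def PA1 : Prop := ∀ (G Ω : Type u) [Group G] [Finite G] [MulAction G Ω], Ac2 G Ω → Tw1 G Ω

/-- free lemma -/
def PA2 : Prop := ∀ (G Ω : Type u) [Group G] [Finite G] [MulAction G Ω], Tw1 G Ω → Cl2 G Ω → Tw2 G Ω

/-- the induction hypothesis for a proper subgroup `N` acting on the orbit of `c`. -/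
def PSub : Prop := ∀ (G Ω : Type u) [Group G] [Finite G] [MulAction G Ω], Ac2 G Ω → Cl2 G Ω → IH2.{u} (Nat.card G) →
  ∀ (N : Subgroup G) (c : Ω) (s s' : G), N ≠ ⊤ → ¬ N ≤ stabilizer G c → s ∈ N → s' ∈ N → orderOf s = 2 →
    orderOf s' = 2 → s ≠ s' → s * s' = s' * s → s • c = c →
    Tw2 N (orbit N c) ∧ T0 N (orbit N c) ∧ (∀ g ∈ N, O[N ⊓ stabilizer G c] ≤ stabilizer G (g • c)) ∧
      O[N ⊓ stabilizer G c] = O[N] ∧
      (∀ v v' : G, v ∈ N → v' ∈ N → orderOf v = 2 → orderOf v' = 2 → v • c = c → v' • c = c → v * v' * v * v' ∈ O[N]) ∧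
      ∀ S : Subgroup G, IsPiHallOf {2} S (N ⊓ stabilizer G c) →
        (∀ g ∈ N, ∀ g' ∈ N, g • c ≠ c → g' • c ≠ c → ∃ x ∈ S, x • g • c = g' • c) ∧
        ∀ h ∈ S, ∀ v ∈ N, orderOf v = 2 → v • c = c → ∀ g ∈ N, (h * v * h⁻¹) • g • c = v • g • c

/-- `A`, `K`, `F(R)` -/
def PB : Prop := ∀ (G Ω : Type u) [Group G] [Finite G] [MulAction G Ω], Tw2 G Ω → Fa G Ω → IH2.{u} (Nat.card G) →
  ∀ (a b : Ω) (t : G), a ≠ b → orderOf t = 2 → t • a = b → t • b = a → ∃ A K, St a b t A K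

/-- (G1) and (Q) -/
def PC : Prop := ∀ (G Ω : Type u) [Group G] [Finite G] [MulAction G Ω] (a b : Ω) (t : G) (A K : Subgroup G),
  St a b t A K → O[stabilizer G a] = ⊥ ∧ Rg G Ω

/-- the induction hypothesis `IH0` for a proper subgroup `N` acting on the orbit of `c`. -/
def PSub0 : Prop := ∀ (G Ω : Type u) [Group G] [Finite G] [MulAction G Ω], Tw1 G Ω → IH0.{u} (Nat.card G) →
  ∀ (N : Subgroup G) (c : Ω) (s s' : G), N ≠ ⊤ → ¬ N ≤ stabilizer G c → s ∈ N → s' ∈ N → orderOf s = 2 →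
    orderOf s' = 2 → s ≠ s' → s * s' = s' * s → s • c = c →
    (∀ g ∈ N, O[N ⊓ stabilizer G c] ≤ stabilizer G (g • c)) ∧ O[N ⊓ stabilizer G c] = O[N]

/-- no inner elements: the product of two involutions fixing `c` fixes no further point. -/
def NI (G Ω : Type u) [Group G] [MulAction G Ω] : Prop := ∀ (c d : Ω) (s s' : G), orderOf s = 2 → orderOf s' = 2 →
  s • c = c → s' • c = c → s ≠ s' → (s * s') • d = d → d = c

/-- Lemma A -/
def LA (G Ω : Type u) [Group G] [MulAction G Ω] : Prop := ∀ (l : ℕ) (Y : Subgroup G) (a b c : Ω), l.Prime → IsPGroup l Y →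
  a ≠ b → a ≠ c → b ≠ c → Y ≤ stabilizer G a → Y ≤ stabilizer G b → Y ≤ stabilizer G c →
  ∃ s ∈ C[Y], orderOf s = 2 ∧ s • a = a

/-- a minimal counterexample to `TZ`. -/
structure Mc (G Ω : Type u) [Group G] [MulAction G Ω] : Prop where
  tw : Tw1 G Ω
  fa : Fa G Ω
  ih : IH0.{u} (Nat.card G)
  mx : ∀ a : Ω, IsCoatom (stabilizer G a)
  R : ∀ a : Ω, O[stabilizer G a] ≠ ⊥

/-- (G2a) -/
def PNI : Prop := ∀ (G Ω : Type u) [Group G] [Finite G] [MulAction G Ω], Mc G Ω → ¬ Cl2 G Ω → NI G Ω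

/-- free lemma -/
def PFL : Prop := ∀ (G Ω : Type u) [Group G] [Finite G] [MulAction G Ω], Tw1 G Ω → NI G Ω → LA G Ω

/-- (G2b) -/
def PG2 : Prop := ∀ (G Ω : Type u) [Group G] [Finite G] [MulAction G Ω], Mc G Ω → NI G Ω → Cl2 G Ω

end Cfsg.Agent.SE
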