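import Cfsg.Agent.SE.Free
import Cfsg.Agent.SE.Def

/-! The pieces PA1, PA2. -/

set_option autoImplicit false

namespace Cfsg.Agent.SE

open Cfsg Subgroup MulAction Cfsg.Agent.GT Cfsg.Agent.GW

universe u

variable {G Ω : Type u} [Group G] [Finite G] [MulAction G Ω]

omit [Finite G] in
theorem Ac2.ac (h : Ac2 G Ω) : Ac G Ω := ⟨h.tr, h.nt, h.fix, h.rk⟩

omit [Finite G] in
theorem Ac.ac2 (h : Ac G Ω) : Ac2 G Ω := ⟨h.tr, h.nt, h.fix, h.rk⟩

omit [Finite G] in
theorem cl2_iff : Cl2 G Ω ↔ Cl G Ω := by simp only [Cl2, Cl, mul_assoc]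

theorem pA1 : PA1.{u} := fun G Ω _ _ _ h2 => by
  have h := h2.ac
  refine ⟨h2, fun _ _ => h.cj, fun a b s s' ne hs hs' ha hb => ⟨h.odd_mul hs hs' ha hb ne, ?_⟩, fun _ _ => h.odd,
    fun _ _ _ _ _ => h.kk, fun a b t X P l ne ht ta tb le n nt hl hP => ?_,
    fun a s s' X hs hs' ne c sa o n n' => ?_⟩
  · obtain ⟨n, e1, e2⟩ := B84.conj_of_inv (k := s' * s) (h.odd_mul hs' hs hb ha ne.symm) (sq1 hs) (by
      rw [mul_assoc s', sq1 hs, mul_one, sq1 hs'])
    rw [mul_assoc s', sq1 hs, mul_one] at e1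
    have e3 : (s' * s) ^ n * s * ((s' * s) ^ n * s) = 1 := by
      rw [inv2 hs] at e2
      rw [mul_assoc, ← mul_assoc s, e2, mul_inv_cancel]
    have e4 : (s' * s) ^ n * s * s * ((s' * s) ^ n * s)⁻¹ = s' := by
      rw [mul_inv_rev, inv2 hs, mul_assoc _ s s, sq1 hs, mul_one, ← mul_assoc, e1]
    have e5 : ((s' * s) ^ n * s) • a = b := h.uniq hs' (by
      nth_rw 1 [← e4]; rw [mul_smul, inv_smul_smul, mul_smul _ s, ha]) hb
    have m := mem_sup_left (T := zpowers s') (mem_zpowers s)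
    exact ⟨_, mul_mem (pow_mem (mul_mem (mem_sup_right (mem_zpowers s')) m) n) m,
      ord2 e3 fun e => ne (by rw [← e5, e, one_smul]), by rwa [inv_eq_of_mul_eq_one_right e3] at e4, e5,
      by rw [← e5, ← mul_smul, e3, one_smul]⟩
  · have o := odd_card_of_le (h.odd ne) le
    obtain ⟨Q, hQ, n⟩ := coprime_exists_syl hl (.inl (solv_odd o)) (zp_norm nt) (cop2 o ht)
    obtain ⟨g, hg, rfl⟩ := syl_exists_conj hl hQ hP
    exact ⟨g * t * g⁻¹, by rw [← conj_normalizer]; exact conj_mem_conj.2 (n (mem_zpowers t)), ord2_conj ht g,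
      by rw [mul_smul, mul_smul, show g⁻¹ • a = a from (inv_mem (le hg)).1, ta, show g • b = b from (le hg).2],
      by rw [mul_smul, mul_smul, show g⁻¹ • b = b from (inv_mem (le hg)).2, tb, show g • a = a from (le hg).1]⟩
  · have e' := h.comm_fix hs sa (x := s') c.symm
    exact gen3 hs hs' ne.symm c.symm o n n' (inf_le_right.trans (h.cent_le hs sa))
      (inf_le_right.trans (h.cent_le hs' e')) (inf_le_right.trans (h.cent_le (ord2_mul hs hs' ne.symm c.symm)
        (by rw [mul_smul, e', sa])))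

theorem pA2 : PA2.{u} := fun _ _ _ _ _ h hc =>
  have w := p2 h.ac.ac (cl2_iff.1 hc)
  { h with cl := hc, free := w.free, syl := w.syl, two := w.two }

end Cfsg.Agent.SE
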