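import Cfsg.Agent.SE.PB2

/-! Strongly embedded subgroups, PB: `K` is a cyclic group. -/

set_option autoImplicit false
set_option linter.unusedSectionVars false
set_option linter.unusedVariables false

namespace Cfsg.Agent.SE.PB

open Cfsg Subgroup MulAction Cfsg.Agent.GT Cfsg.Agent.Cls Cfsg.Agent.GW Cfsg.Agent.WA
open scoped commutatorElement

universe u

variable {G Ω : Type u} [Group G] [Finite G] [MulAction G Ω] {a b c : Ω} {s t v x y z k : G} {Z : Subgroup G}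
variable (h : Tw2 G Ω) (fa : Fa G Ω) (ne : a ≠ b) (ht : orderOf t = 2) (ta : t • a = b) (tb : t • b = a)

local notation3 "𝐀" => A h fa
local notation3 "𝐃" => stabilizer G a ⊓ stabilizer G b

include h ne ht ta tb

theorem k_eq (hs : orderOf s = 2) (sa : s • a = a) (hk : k ∈ B85.Inv 𝐃 t) (hx : x ∈ B85.Inv 𝐃 t)
    (e : k * s * k⁻¹ = x * s * x⁻¹) : k = x :=
  (h.kk a b t s _ ne ht ta tb hs (ord2_conj hs x) sa (by
    have := cj_fix sa x; rwa [show x • a = a from hx.1.1] at this)).unique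
    ⟨hk.1.1, hk.1.2, by simpa only [inv2 ht] using hk.2, e⟩ ⟨hx.1.1, hx.1.2, by simpa only [inv2 ht] using hx.2, rfl⟩

omit h ne ta tb in
theorem inv_zp (hk : k ∈ B85.Inv 𝐃 t) (hx : x ∈ zpowers k) : x ∈ B85.Inv 𝐃 t := by
  obtain ⟨n, rfl⟩ := hx
  exact ⟨zpow_mem hk.1 n, by rw [← conj_zpow, hk.2, inv_zpow]⟩

include fa

/-- (D) -/
theorem fix2 (hk : k ∈ B85.Inv 𝐃 t) (k1 : k ≠ 1) (kc : k • c = c) : c = a ∨ c = b := by
  obtain ⟨l, hl, dv⟩ := Nat.exists_prime_and_dvd (n := Nat.card (zpowers k)) (by simpa using k1)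
  obtain ⟨x, hx, o⟩ := exists_mem_orderOf_eq hl dv
  have xi := inv_zp ht hk hx
  have := Fact.mk hl
  refine fixl h fa ne hl (isPGroup_of_card_eq_prime (by rw [Nat.card_zpowers, o])) (zpowers_le.2 xi.1)
    (eq_bot_iff.2 fun v hv => ?_) (zpowers_le.2 (zpowers_le.2 kc hx))
  by_contra v1
  have : x = 1 := k_eq h ne ht ta tb (ord2 hv.1.1 v1) hv.1.2 xi ⟨one_mem _, by group⟩
    (by rw [hv.2 x (mem_zpowers x)]; group)
  rw [this, orderOf_one] at o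
  exact hl.one_lt.ne o

variable (hZ : ZZ (A h fa a) (stabilizer G a ⊓ stabilizer G b) Z)
include hZ

theorem Z_t (hz : z ∈ Z) : t * z * t⁻¹ ∈ Z := by
  have nD := sb_swap_norm ta tb
  refine hZ.max (cj[t] Z) (conj_eq_self nD ▸ conj_mono t hZ.le) ?_ ?_ (conj_mem_conj.2 hz)
  · rw [← conj_normalizer, ← conj_eq_self nD]; exact conj_mono t hZ.nZ
  · rw [← conj_commutator, ← conj_eq_self (le_norm_of_cent (le_cent_symm ((W_t h fa ne ht ta tb).trans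
      (cent_zpowers t).ge)) (mem_zpowers t))]
    exact conj_mono t hZ.der

theorem fix1 (hz : z ∈ Z) (e : t * z * t⁻¹ * z⁻¹ ∈ 𝐃 ⊓ C[𝐀 a]) : z ∈ C[𝐀 a] := by
  have oD := h.odd a b ne
  obtain ⟨i, hi, c⟩ := B85.dec oD (sq1 ht) (sb_swap_norm ta tb) (hZ.le hz)
  have e1 : t * z * t⁻¹ * z⁻¹ = (i * i)⁻¹ := by
    calc _ = (t * i * t⁻¹) * (t * (i⁻¹ * z) * t⁻¹) * z⁻¹ := by group
      _ = _ := by rw [hi.2, ← c.eq]; group
  have i1 : i = 1 := eq1_of_odd (odd_ord oD hi.1) (eq1_of_inv_fix (odd_ord oD (mul_mem hi.1 hi.1))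
    (inv_zp ht hi (mul_mem (mem_zpowers i) (mem_zpowers i))).2
    (inv_mem_iff.1 (e1 ▸ W_t h fa ne ht ta tb e)))
  rw [i1, inv_one, one_mul] at c
  obtain ⟨e, he, -⟩ := h.ac.fix t ht
  refine zpowers_le.1 (le_of_forall_syl_le fun l hl _ => ?_)
  obtain ⟨P, hP⟩ := exists_syl hl (zpowers z)
  refine ⟨P, hP, ?_⟩
  by_contra n
  obtain ⟨y, hy, yn⟩ := SetLike.not_le_iff_exists.1 n
  have PZ := hP.le.trans (zpowers_le.2 hz)
  rcases fixl h fa ne hl (syl_isPGroup hl hP) (PZ.trans hZ.le) (eq_bot_iff.2 fun v hv =>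
    mem_bot.2 ((hZ.semi y (PZ hy) v hv.1 (hv.2 y hy)).resolve_left yn))
    (hP.le.trans (zpowers_le.2 (comm_fix h.toTw1 ht he c))) with rfl | rfl
  · exact ne (he.symm.trans ta)
  · exact ne (tb.symm.trans he)

theorem Z_inv (hz : z ∈ Z) : t * z * t⁻¹ * z ∈ 𝐃 ⊓ C[𝐀 a] := by
  have m := Z_t h fa ne ht ta tb hZ hz
  refine ⟨hZ.le (mul_mem m hz), fix1 h fa ne ht ta tb hZ (mul_mem m hz) ?_⟩
  have : t * (t * z * t⁻¹ * z) * t⁻¹ * (t * z * t⁻¹ * z)⁻¹ = ⁅z, t * z * t⁻¹⁆ := by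
    calc _ = (t * t) * z * (t * t)⁻¹ * (t * z * t⁻¹) * (t * z * t⁻¹ * z)⁻¹ := by group
      _ = _ := by rw [sq1 ht, commutatorElement_def]; group
  rw [this]
  exact hZ.der (commutator_mem_commutator hz m)

theorem K_le (hk : k ∈ B85.Inv 𝐃 t) : k ∈ Z := by
  have nW : 𝐃 ≤ N[𝐃 ⊓ C[𝐀 a]] := le_norm_inf le_normalizer (le_norm_cent (inf_le_left.trans (nA h fa)))
  refine root (odd_ord (h.odd a b ne) hk.1) (hZ.cent _ (mul_mem hk.1 hk.1) fun z hz => ?_)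
  have hy := conj_mem_of_le_norm hZ.nZ hk.1 hz
  obtain ⟨y, ey⟩ : ∃ y, y = k * z * k⁻¹ := ⟨_, rfl⟩
  rw [← ey] at hy
  have hy' := conj_mem_of_le_norm hZ.nZ hk.1 hy
  have h1 := Z_inv h fa ne ht ta tb hZ hy
  have h2 := Z_inv h fa ne ht ta tb hZ hy'
  have h3 := conj_mem_of_le_norm nW (hZ.le hy')
    (mul_mem (inv_mem (conj_mem_of_le_norm nW (inv_mem hk.1) h1)) h2)
  have e : t * (k * y * k⁻¹) * t⁻¹ = k⁻¹ * (t * y * t⁻¹) * k := by
    calc _ = (t * k * t⁻¹) * (t * y * t⁻¹) * (t * k * t⁻¹)⁻¹ := by group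
      _ = _ := by rw [hk.2, inv_inv]
  rw [e] at h3
  convert h3 using 1
  rw [ey]; group

omit hZ in
theorem exK : ∃ i : G, ∀ k, k ∈ zpowers i ↔ k ∈ B85.Inv 𝐃 t := by
  obtain ⟨s, -, o, -, -, -, sa, -⟩ := two_inv h a
  have oD := h.odd a b ne
  obtain ⟨Z, hZ⟩ := exZ (V := 𝐀 a) (fun v hv => hv.1) (ne_bot_of_mem (memA2 h fa o sa) (ne1 o))
    (inf_le_left.trans (nA h fa)) oD (trD h fa ne ht ta tb)
  obtain ⟨g, hg, e⟩ := hZ.gen
  obtain ⟨i, hi, c⟩ := B85.dec oD (sq1 ht) (sb_swap_norm ta tb) (hZ.le hg)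
  have m := mul_mem (inv_mem (K_le h fa ne ht ta tb hZ hi)) hg
  have cW : i⁻¹ * g ∈ 𝐃 ⊓ C[𝐀 a] := ⟨hZ.le m, fix1 h fa ne ht ta tb hZ m (by
    rw [← c.eq, mul_inv_cancel_right, mul_inv_cancel]; exact one_mem _)⟩
  have nW : 𝐃 ≤ N[𝐃 ⊓ C[𝐀 a]] := le_norm_inf le_normalizer (le_norm_cent (inf_le_left.trans (nA h fa)))
  have le : Z ≤ zpowers i ⊔ 𝐃 ⊓ C[𝐀 a] := e ▸ sup_le le_sup_right (zpowers_le.2 (by
    rw [← mul_inv_cancel_left i g]
    exact mul_mem (mem_sup_left (mem_zpowers i)) (mem_sup_right cW)))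
  refine ⟨i, fun k => ⟨inv_zp ht hi, fun hk => ?_⟩⟩
  obtain ⟨x, hx, w, hw, e⟩ := (mem_sup_of_le_norm (zp_norm (nW hi.1))).1 (le (K_le h fa ne ht ta tb hZ hk))
  rwa [k_eq h ne ht ta tb o sa hk (inv_zp ht hi hx) (by
    rw [e, mul_assoc x, ← hw.2 s (memA2 h fa o sa)]; group)]

end Cfsg.Agent.SE.PB

namespace Cfsg.Agent.SE

open Cfsg Subgroup MulAction Cfsg.Agent.GT Cfsg.Agent.Cls Cfsg.Agent.GW Cfsg.Agent.WA Cfsg.Agent.SE.PB

universe u

theorem pB (sub : PSub.{u}) : PB.{u} := by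
  classical
  intro G Ω _ _ _ h fa ih a b t ne ht ta tb
  obtain ⟨i, hi⟩ := exK h fa ne ht ta tb
  obtain ⟨s, s', o, o', ss, -, sa, sa'⟩ := two_inv h a
  have sA := memA2 h fa o sa
  refine ⟨A h fa a, zpowers i, h, fa, ih, ne, ht, ta, tb, fun x => ?_, ?_, RA h fa, fun k => ?_, inferInstance,
    ?_, fun d hd => ?_, fun k hk k1 c => fix2 h fa ne ht ta tb ((hi k).1 hk) k1, ?_,
    fun y hy y1 c => semi h fa sub ih hy y1⟩
  · refine ⟨fun hx => or_iff_not_imp_left.2 fun x1 => ⟨ord2 hx.1 x1, hx.2⟩, ?_⟩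
    rintro (rfl | ⟨o, e⟩)
    exacts [one_mem _, memA2 h fa o e]
  · have lt : zpowers s < A h fa a := lt_of_le_of_ne (zpowers_le.2 sA) fun e => by
      have := e ▸ memA2 h fa o' sa'
      rcases (TT.mem_zpowers_of_sq (sq1 o)).1 this with e | e
      exacts [ne1 o' e, ss e.symm]
    have h1 := card_lt_of_lt lt
    have h2 := card_dvd_of_le lt.le
    rw [Nat.card_zpowers, o] at h1 h2
    omega
  · rw [hi]
    exact ⟨fun e => ⟨e.1.1, e.1.2, by simpa only [inv2 ht] using e.2⟩,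
      fun e => ⟨⟨e.1, e.2.1⟩, by simpa only [inv2 ht] using e.2.2⟩⟩
  · rw [← Nat.card_congr (Equiv.optionSubtypeNe (1 : A h fa a)), Finite.card_option]
    congr 1
    refine Nat.card_eq_of_bijective (fun k => ⟨⟨k * s * (k : G)⁻¹,
      conj_mem_of_le_norm (nA h fa) ((hi k).1 k.2).1.1 sA⟩, fun e => ne1 (ord2_conj o k) (congrArg Subtype.val e)⟩)
      ⟨fun k k' e => Subtype.ext (k_eq h ne ht ta tb o sa ((hi k).1 k.2) ((hi k').1 k'.2)
        (congrArg (fun z => z.1.1) e)), fun v => ?_⟩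
    obtain ⟨k, ⟨k1, k2, k3, k4⟩, -⟩ := h.kk a b t s v.1.1 ne ht ta tb o
      (ord2 v.1.2.1 fun e => v.2 (Subtype.ext e)) sa v.1.2.2
    exact ⟨⟨k, (hi k).2 ⟨⟨k1, k2⟩, by rwa [inv2 ht]⟩⟩, Subtype.ext (Subtype.ext k4)⟩
  · obtain ⟨j, hj, c⟩ := B85.dec (h.odd a b ne) (sq1 ht) (sb_swap_norm ta tb) hd
    rw [← mul_inv_cancel_left j d]
    refine mul_mem (le_normalizer ((hi j).2 hj)) (mem_normalizer_of_conj_le (conj_le_iff_forall.2 fun x hx => ?_))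
    have hx := (hi x).1 hx
    have m := mul_mem (inv_mem hj.1) hd
    generalize j⁻¹ * d = e at c m
    refine (hi _).2 ⟨mul_mem (mul_mem m hx.1) (inv_mem m), ?_⟩
    calc t * (e * x * e⁻¹) * t⁻¹ = (t * e) * x * (t * e)⁻¹ := by group
      _ = e * (t * x * t⁻¹) * e⁻¹ := by rw [← c.eq]; group
      _ = _ := by rw [hx.2]; group
  · refine le_inf (fun w hw k hk => ?_) (W_t h fa ne ht ta tb)
    have hk := (hi k).1 hk
    exact (mem_cent1.1 (W_k h fa ne ht ta tb hk.1 (by simpa only [inv2 ht] using hk.2) hw)).symm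

end Cfsg.Agent.SE
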