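import Cfsg.Agent.SE.PK1
import Cfsg.Agent.B84C.A

/-! The character argument PK: exceptional characters. -/

set_option autoImplicit false
set_option linter.unusedSectionVars false
set_option linter.unusedVariables false

namespace Cfsg.Agent.SE.PK

open Cfsg Subgroup Cfsg.Agent.GT Cfsg.Agent.Char Cfsg.Agent.B84C
open scoped ComplexConjugate Classical

universe u

variable {G : Type u} [Group G] [Fintype G]

theorem common {a b a' b' : G → ℂ} (ha : IsIrrCharacter G a) (hb : IsIrrCharacter G b)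
    (ha' : IsIrrCharacter G a') (hb' : IsIrrCharacter G b') (h : ⟪a - b, a' - b'⟫ = 1) :
    (a = a' ∨ b = b') ∧ (a ≠ a' ∨ b ≠ b' ∨ a = b) := by
  rw [ci_sub_left, ci_sub_right, ci_sub_right, ha.ci_eq_ite ha', ha.ci_eq_ite hb', hb.ci_eq_ite ha',
    hb.ci_eq_ite hb'] at h
  refine ⟨by_contra fun n => ?_, by_contra fun n => ?_⟩
  · rw [not_or] at n
    rw [if_neg n.1, if_neg n.2] at h
    split_ifs at h <;> norm_num at h
  · push Not at n
    obtain ⟨rfl, rfl, n⟩ := n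
    rw [if_pos rfl, if_pos rfl, if_neg n, if_neg n.symm] at h
    norm_num at h

theorem exc {ι : Type*} {T : Finset ι} {i0 : ι} {Y : ι → G → ℂ} (h3 : 3 ≤ T.card)
    (v : ∀ i ∈ T, IsGeneralizedCharacter G (Y i)) (Y0 : Y i0 = 0) (Y1 : ∀ i ∈ T, Y i 1 = 0)
    (YY : ∀ i ∈ T, ∀ j ∈ T, i ≠ i0 → j ≠ i0 → ⟪Y i, Y j⟫ = if i = j then 2 else 1) :
    ∃ (ε : ℤ) (c : ι → G → ℂ), (ε = 1 ∨ ε = -1) ∧ (∀ i ∈ insert i0 T, IsIrrCharacter G (c i)) ∧
      Set.InjOn c (insert i0 T : Finset ι) ∧ ∀ i ∈ T, Y i = (ε : ℂ) • (c i - c i0) := by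
  choose! α β ha hb n e using fun i (h : i ∈ T.erase i0) =>
    (v i (Finset.mem_of_mem_erase h)).exists_sub_of_nsq_two (nsq_eq_of_ci (by
      rw [YY i (Finset.mem_of_mem_erase h) i (Finset.mem_of_mem_erase h) (Finset.ne_of_mem_erase h)
        (Finset.ne_of_mem_erase h), if_pos rfl]; norm_num)) (Y1 i (Finset.mem_of_mem_erase h))
  have cm : ∀ i ∈ T.erase i0, ∀ j ∈ T.erase i0, i ≠ j → (α i = α j ∨ β i = β j) ∧ (α i ≠ α j ∨ β i ≠ β j) :=
    fun i hi j hj ne => by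
      have := common (ha i hi) (hb i hi) (ha j hj) (hb j hj) (by
        rw [← e i hi, ← e j hj, YY i (Finset.mem_of_mem_erase hi) j (Finset.mem_of_mem_erase hj)
          (Finset.ne_of_mem_erase hi) (Finset.ne_of_mem_erase hj), if_neg ne])
      exact ⟨this.1, this.2.imp_right fun h => h.resolve_right (n i hi)⟩
  obtain ⟨i1, h1, i2, h2, n12⟩ := Finset.one_lt_card.1
    (show 1 < (T.erase i0).card by have := Finset.pred_card_le_card_erase (s := T) (a := i0); omega)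
  have key : ∀ (α β : ι → G → ℂ) (ε : ℤ), (ε = 1 ∨ ε = -1) → (∀ i ∈ T.erase i0, IsIrrCharacter G (α i)) →
      (∀ i ∈ T.erase i0, IsIrrCharacter G (β i)) → (∀ i ∈ T.erase i0, α i ≠ β i) →
      (∀ i ∈ T.erase i0, Y i = (ε : ℂ) • (α i - β i)) →
      (∀ i ∈ T.erase i0, ∀ j ∈ T.erase i0, i ≠ j → (α i = α j ∨ β i = β j) ∧ (α i ≠ α j ∨ β i ≠ β j)) →
      β i1 = β i2 → ∃ (ε : ℤ) (c : ι → G → ℂ), (ε = 1 ∨ ε = -1) ∧ (∀ i ∈ insert i0 T, IsIrrCharacter G (c i)) ∧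
      Set.InjOn c (insert i0 T : Finset ι) ∧ ∀ i ∈ T, Y i = (ε : ℂ) • (c i - c i0) := by
    intro α β ε hε ha hb n e cm b12
    have all : ∀ i ∈ T.erase i0, β i = β i1 := fun i hi => by
      by_contra ne
      have a1 := (cm i hi i1 h1 fun e => ne (e ▸ rfl)).1.resolve_right ne
      have a2 := (cm i hi i2 h2 fun e => ne (e ▸ b12.symm)).1.resolve_right (b12 ▸ ne)
      exact (cm i1 h1 i2 h2 n12).2.elim (fun h => h (a1.symm.trans a2)) fun h => h b12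
    have me : ∀ i ∈ insert i0 T, i ≠ i0 → i ∈ T.erase i0 := fun i hi ne =>
      Finset.mem_erase.2 ⟨ne, (Finset.mem_insert.1 hi).resolve_left ne⟩
    refine ⟨ε, fun i => if i = i0 then β i1 else α i, hε, fun i hi => ?_, fun i hi j hj h => ?_, fun i hi => ?_⟩
    · simp only
      split_ifs with c
      exacts [hb i1 h1, ha i (me i hi c)]
    · by_contra ne
      simp only at h
      split_ifs at h with c c' c'
      · exact ne (c.trans c'.symm)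
      · exact n j (me j hj c') (h.symm.trans (all j (me j hj c')).symm)
      · exact n i (me i hi c) (h.trans (all i (me i hi c)).symm)
      · exact (cm i (me i hi c) j (me j hj c') ne).2.elim (fun k => k h) fun k =>
          k ((all i (me i hi c)).trans (all j (me j hj c')).symm)
    · by_cases c : i = i0
      · simp [c, Y0]
      · have m := me i (Finset.mem_insert_of_mem hi) c
        simp only [c, if_false, if_true]
        rw [e i m, all i m]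
  rcases (cm i1 h1 i2 h2 n12).1 with h | h
  · exact key β α (-1) (.inr rfl) hb ha (fun i hi => (n i hi).symm) (fun i hi => by rw [e i hi]; simp)
      (fun i hi j hj ne => ⟨(cm i hi j hj ne).1.symm, (cm i hi j hj ne).2.symm⟩) h
  · exact key α β 1 (.inl rfl) ha hb n (fun i hi => by rw [e i hi]; simp) cm h

theorem zz {α β : G → ℂ} (ha : IsGeneralizedCharacter G α) (hb : IsGeneralizedCharacter G β) {n : ℤ}
    (h : ⟪α, β⟫ = n) : ∑ χ ∈ Irr G, zi α χ * zi β χ = n := by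
  rw [ha.isClassFunction.ci_eq_sum_irr, Finset.sum_congr rfl fun χ hχ => by
    rw [ha.ci_eq_zi (mem_Irr.1 hχ).virt, hb.ci_eq_zi (mem_Irr.1 hχ).virt, map_intCast]] at h
  exact_mod_cast h

theorem kill0 {ι : Type*} {T : Finset ι} {i0 : ι} {Y : ι → G → ℂ} {Θ Ψ : G → ℂ} {s : G} {e ν ω : ℕ}
    (i0T : i0 ∈ T) (cT : T.card = ν) (v : ∀ i ∈ T, IsGeneralizedCharacter G (Y i)) (Y0 : Y i0 = 0)
    (Y1 : ∀ i ∈ T, Y i 1 = 0) (YY : ∀ i ∈ T, ∀ j ∈ T, i ≠ i0 → j ≠ i0 → ⟪Y i, Y j⟫ = if i = j then 2 else 1)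
    (Yo : ∀ i ∈ T, ⟪Y i, fun _ => 1⟫ = 0) (vΘ : IsGeneralizedCharacter G Θ) (ΘΘ : ⟪Θ, Θ⟫ = 2 * e + 1)
    (Θo : ⟪Θ, fun _ => 1⟫ = 1) (ΘY : ∀ i ∈ T, i ≠ i0 → ⟪Y i, Θ⟫ = 1) (ΨΘ : ⟪Ψ, Θ⟫ = -2) (ΨY : ∀ i ∈ T, ⟪Y i, Ψ⟫ = 0)
    (dg : ∀ χ, IsIrrCharacter G χ → ∃ x : ℤ, χ 1 = (2 * e * ν + 1) * x + ⟪Θ, χ⟫ + 2 * e * ∑ i ∈ T, ⟪Y i, χ⟫)
    (num : Num e ν) (hΨ : IsCharacter G Ψ) (Ψ1 : ⟪Ψ, fun _ => 1⟫ = 0) (ss : s * s = 1) (Ψs : Ψ s = 2 * e * ν)
    (hω : ω ≡ 2 [MOD 2 * e * ν + 1]) (ω0 : 0 < ω) (deg : ∀ χ, IsIrrCharacter G χ → ⟪Ψ, χ⟫ ≠ 0 → χ 1 = ω * χ s)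
    (n1 : 2 * ν < nsq Ψ) (n2 : nsq Ψ < 4 * ν) : False := by
  choose! d hd using fun χ (h : IsIrrCharacter G χ) => int_inv h.virt ss
  have hm : ∀ χ, IsIrrCharacter G χ → ⟪Ψ, χ⟫ = zi Ψ χ := fun χ h => hΨ.virt.ci_eq_zi h.virt
  have m0 : ∀ χ, IsIrrCharacter G χ → 0 ≤ zi Ψ χ := fun χ h => by
    obtain ⟨n, hn⟩ := hΨ.ci_irr_nat h
    rw [zi_eq_of_ci (n := n) (by rw [hn]; simp)]; positivity
  obtain ⟨w, hw⟩ : ∃ w : ℤ, (ω : ℤ) = 2 + (2 * e * ν + 1) * w := by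
    obtain ⟨w, hw⟩ := (Nat.modEq_iff_dvd.1 hω.symm)
    exact ⟨w, by push_cast at hw; linarith⟩
  have J : ∀ χ, IsIrrCharacter G χ → zi Ψ χ ≠ 0 → ∀ y : ℤ, ∑ i ∈ T, ⟪Y i, χ⟫ = y → (ω : ℂ) * d χ = χ 1 ∧ 1 ≤ d χ ∧
      ∃ j : ℤ, 2 * d χ = zi Θ χ + 2 * e * y + (2 * e * ν + 1) * j := fun χ h m y hy => by
    have e1 := deg χ h (by rw [hm χ h]; exact_mod_cast m)
    obtain ⟨x, hx⟩ := dg χ h
    obtain ⟨k, k0, hk⟩ := h.exists_degree
    rw [hd χ h] at e1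
    rw [hy, vΘ.ci_eq_zi h.virt, e1] at hx
    have e2 : (k : ℤ) = ω * d χ := by exact_mod_cast hk.symm.trans e1
    have e3 : (ω : ℤ) * d χ = (2 * e * ν + 1) * x + zi Θ χ + 2 * e * y := by exact_mod_cast hx
    refine ⟨e1.symm, by_contra fun c => ?_, x - w * d χ, by linear_combination e3 - d χ * hw⟩
    have : (ω : ℤ) * d χ ≤ 0 := mul_nonpos_of_nonneg_of_nonpos (by positivity) (by omega)
    omega
  have mm : 2 * (ν : ℤ) < ∑ χ ∈ Irr G, zi Ψ χ ^ 2 ∧ ∑ χ ∈ Irr G, zi Ψ χ ^ 2 < 4 * ν := by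
    rw [hΨ.virt.nsq_eq_sum_zi] at n1 n2
    exact ⟨by exact_mod_cast n1, by exact_mod_cast n2⟩
  have ma := zz hΨ.virt vΘ (n := -2) (by rw [ΨΘ]; simp)
  have aa := zz vΘ vΘ (n := 2 * e + 1) (by rw [ΘΘ]; simp)
  have md : ∑ χ ∈ Irr G, zi Ψ χ * d χ = 2 * e * ν := by
    have := hΨ.isClassFunction.apply_eq_sum_irr s
    rw [Ψs, Finset.sum_congr rfl fun χ hχ => by rw [hm χ (mem_Irr.1 hχ), hd χ (mem_Irr.1 hχ)]] at this
    exact_mod_cast this.symm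
  have o1 : zi Θ (fun _ => 1) = 1 := zi_eq_of_ci (by rw [Θo]; simp)
  have o2 : zi Ψ (fun _ => 1) = 0 := zi_eq_of_ci (by rw [Ψ1]; simp)
  have gen : ∀ C : Finset (G → ℂ), C ⊆ Irr G → (fun _ => 1) ∉ C →
      (∀ χ, IsIrrCharacter G χ → zi Ψ χ ≠ 0 → χ ∉ C → ∑ i ∈ T, ⟪Y i, χ⟫ = 0) → ∃ (S : Finset (G → ℂ)) (j : (G → ℂ) → ℤ),
      (∀ χ ∈ S, 1 ≤ zi Ψ χ ∧ 1 ≤ d χ ∧ 2 * d χ = zi Θ χ + (2 * e * ν + 1) * j χ) ∧
      ∑ χ ∈ S, zi Θ χ ^ 2 + ∑ χ ∈ C, zi Θ χ ^ 2 ≤ 2 * e ∧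
      ∀ f : (G → ℂ) → ℤ, ∑ χ ∈ S, zi Ψ χ * f χ + ∑ χ ∈ C, zi Ψ χ * f χ = ∑ χ ∈ Irr G, zi Ψ χ * f χ := by
    intro C CI oC hC
    choose! j hj using fun χ (h : χ ∈ (Irr G \ C).filter fun χ => zi Ψ χ ≠ 0) =>
      (J χ (mem_Irr.1 (Finset.mem_sdiff.1 (Finset.mem_filter.1 h).1).1) (Finset.mem_filter.1 h).2 0 (by
        rw [hC χ (mem_Irr.1 (Finset.mem_sdiff.1 (Finset.mem_filter.1 h).1).1) (Finset.mem_filter.1 h).2
          (Finset.mem_sdiff.1 (Finset.mem_filter.1 h).1).2]; simp)).2.imp_right id |> fun k => (exists_and_left.2 k)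
    refine ⟨_, j, fun χ h => ⟨?_, (hj χ h).1, by simpa using (hj χ h).2⟩, ?_, fun f => ?_⟩
    · have := m0 χ (mem_Irr.1 (Finset.mem_sdiff.1 (Finset.mem_filter.1 h).1).1)
      have := (Finset.mem_filter.1 h).2
      omega
    · have h1 : (fun _ => 1) ∈ Irr G \ C := Finset.mem_sdiff.2 ⟨mem_Irr.2 isIrrCharacter_one, oC⟩
      have := Finset.sum_le_sum_of_subset_of_nonneg (f := fun χ => zi Θ χ ^ 2)
        (show (Irr G \ C).filter (fun χ => zi Ψ χ ≠ 0) ⊆ (Irr G \ C).erase fun _ => 1 from fun χ h =>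
          Finset.mem_erase.2 ⟨fun e => (Finset.mem_filter.1 h).2 (e ▸ o2), (Finset.mem_filter.1 h).1⟩)
        fun _ _ _ => sq_nonneg _
      have e1 := Finset.add_sum_erase _ (fun χ => zi Θ χ ^ 2) h1
      have e2 := Finset.sum_sdiff (f := fun χ => zi Θ χ ^ 2) CI
      simp only [← sq] at aa
      simp only [o1] at e1
      linarith
    · rw [Finset.sum_filter_of_ne fun χ _ h => left_ne_zero_of_mul h, Finset.sum_sdiff CI]
  have fin0 : ∀ C : Finset (G → ℂ), C ⊆ Irr G → (fun _ => 1) ∉ C →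
      (∀ χ, IsIrrCharacter G χ → zi Ψ χ ≠ 0 → χ ∉ C → ∑ i ∈ T, ⟪Y i, χ⟫ = 0) → (∀ χ ∈ C, zi Ψ χ = 0) → False := by
    intro C CI oC hC z
    obtain ⟨S, j, h, a, f⟩ := gen C CI oC hC
    have f' : ∀ g : (G → ℂ) → ℤ, ∑ χ ∈ S, zi Ψ χ * g χ = ∑ χ ∈ Irr G, zi Ψ χ * g χ := fun g => by
      rw [← f g, Finset.sum_eq_zero (s := C) fun χ h => by rw [z χ h, zero_mul], add_zero]
    have q := f' (zi Ψ)
    simp only [← sq] at q
    exact zero num h (by linarith [Finset.sum_nonneg fun χ (_ : χ ∈ C) => sq_nonneg (zi Θ χ)]) ((f' _).trans ma)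
      ((f' _).trans md) (q ▸ mm.1) (q ▸ mm.2)
  by_cases n1 : ν = 1
  · obtain ⟨i, rfl⟩ := Finset.card_eq_one.1 (cT.trans n1)
    obtain rfl := Finset.mem_singleton.1 i0T
    exact fin0 ∅ (by simp) (by simp) (fun χ _ _ _ => by simp [Y0]) (by simp)
  have n3 : 3 ≤ T.card := by obtain ⟨-, a, b, -⟩ := num; omega
  obtain ⟨ε, c, hε, ci, inj, hY⟩ := exc n3 v Y0 Y1 YY
  rw [Finset.insert_eq_of_mem i0T] at ci inj
  have ε0 : (ε : ℂ) ≠ 0 := by rcases hε with rfl | rfl <;> simp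
  have εε : (ε : ℂ) * ε = 1 := by rcases hε with rfl | rfl <;> simp
  have Yc : ∀ i ∈ T, ∀ φ, ⟪Y i, φ⟫ = ε * (⟪c i, φ⟫ - ⟪c i0, φ⟫) := fun i hi φ => by
    rw [hY i hi, ci_smul_left, ci_sub_left]
  have CI : T.image c ⊆ Irr G := fun χ h => by
    obtain ⟨i, hi, rfl⟩ := Finset.mem_image.1 h
    exact mem_Irr.2 (ci i hi)
  have oC : (fun _ => 1) ∉ T.image c := fun h => by
    obtain ⟨i, hi, e⟩ := Finset.mem_image.1 h
    obtain ⟨j, hj, ne⟩ := Finset.exists_mem_ne (show 1 < T.card by omega) i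
    have a := Yo i hi
    have b := Yo j hj
    rw [Yc _ ‹_›, mul_eq_zero, or_iff_right ε0, sub_eq_zero] at a b
    rw [← b, ← e, (ci i hi).ci_self, (ci j hj).ci_of_ne (ci i hi) fun k => ne (inj hj hi k)] at a
    exact one_ne_zero a
  have hC : ∀ χ, IsIrrCharacter G χ → zi Ψ χ ≠ 0 → χ ∉ T.image c → ∑ i ∈ T, ⟪Y i, χ⟫ = 0 := fun χ h _ n =>
    Finset.sum_eq_zero fun i hi => by
      rw [Yc i hi, (ci i hi).ci_of_ne h fun k => n (Finset.mem_image.2 ⟨i, hi, k⟩),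
        (ci i0 i0T).ci_of_ne h fun k => n (Finset.mem_image.2 ⟨i0, i0T, k⟩), sub_self, mul_zero]
  have mc : ∀ i ∈ T, zi Ψ (c i) = zi Ψ (c i0) := fun i hi => by
    have := ΨY i hi
    rw [Yc i hi, mul_eq_zero, or_iff_right ε0, sub_eq_zero, ci_symm_of_int (hm _ (ci i hi)),
      ci_symm_of_int (hm _ (ci i0 i0T))] at this
    exact_mod_cast this
  have ac : ∀ i ∈ T.erase i0, zi Θ (c i) = zi Θ (c i0) + ε := fun i hi => by
    obtain ⟨ne, hi⟩ := Finset.mem_erase.1 hi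
    have := ΘY i hi ne
    rw [Yc i hi, ci_symm_of_int (vΘ.ci_eq_zi (ci i hi).virt), ci_symm_of_int (vΘ.ci_eq_zi (ci i0 i0T).virt)] at this
    have : (zi Θ (c i) : ℂ) = zi Θ (c i0) + ε := by linear_combination ε * this - (zi Θ (c i) - zi Θ (c i0)) * εε
    exact_mod_cast this
  by_cases z : zi Ψ (c i0) = 0
  · refine fin0 _ CI oC hC fun χ h => ?_
    obtain ⟨i, hi, rfl⟩ := Finset.mem_image.1 h
    rw [mc i hi, z]
  obtain ⟨S, j, h, a, f⟩ := gen _ CI oC hC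
  have sC : ∀ g : (G → ℂ) → ℤ, ∑ χ ∈ T.image c, g χ = ∑ i ∈ T, g (c i) := fun g => Finset.sum_image inj
  have cE : ((T.erase i0).card : ℤ) = ν - 1 := by
    rw [Finset.card_erase_of_mem i0T, cT, Nat.cast_sub (by omega)]; simp
  have sa : ∀ g : ℤ → ℤ, ∑ i ∈ T, g (zi Θ (c i)) = g (zi Θ (c i0)) + (ν - 1) * g (zi Θ (c i0) + ε) := fun g => by
    rw [← Finset.add_sum_erase _ _ i0T, Finset.sum_congr rfl fun i hi => by rw [ac i hi], Finset.sum_const,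
      nsmul_eq_mul, cE]
  have q := f (zi Ψ)
  rw [sC, Finset.sum_congr (s₁ := T) rfl fun i hi => by rw [mc i hi], Finset.sum_const, cT, nsmul_eq_mul] at q
  simp only [← sq] at q
  have p := m0 _ (ci i0 i0T)
  have ν0 : (3 : ℤ) ≤ ν := by rw [← cT]; exact_mod_cast n3
  have m1 : zi Ψ (c i0) = 1 := by
    by_contra k
    have : 2 ≤ zi Ψ (c i0) := by omega
    have : 4 ≤ zi Ψ (c i0) ^ 2 := by nlinarith
    have := Finset.sum_nonneg fun χ (_ : χ ∈ S) => sq_nonneg (zi Ψ χ)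
    nlinarith [mm.2]
  have m1' : ∀ i ∈ T, zi Ψ (c i) = 1 := fun i hi => (mc i hi).trans m1
  obtain ⟨-, d1, j0, hj0⟩ := J (c i0) (ci i0 i0T) z (-(ν - 1) * ε) (by
    rw [← Finset.add_sum_erase _ _ i0T, Y0, Finset.sum_congr rfl (g := fun _ => -(ε : ℂ)) fun i hi => by
      rw [Yc i (Finset.mem_of_mem_erase hi), (ci i0 i0T).ci_self, (ci i (Finset.mem_of_mem_erase hi)).ci_of_ne
        (ci i0 i0T) fun k => Finset.ne_of_mem_erase hi (inj (Finset.mem_of_mem_erase hi) i0T k)]; ring,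
      Finset.sum_const, nsmul_eq_mul, ← Int.cast_natCast, cE, ci_zero_left]
    push_cast; ring)
  have dc : ∀ i ∈ T, d (c i) = d (c i0) := fun i hi => by
    have k : ∀ i ∈ T, c i 1 = ω * d (c i) := fun i hi => by
      rw [← hd _ (ci i hi)]; exact deg _ (ci i hi) (by rw [hm _ (ci i hi), m1' i hi]; simp)
    have := Y1 i hi
    rw [hY i hi, Pi.smul_apply, smul_eq_mul, mul_eq_zero, or_iff_right ε0, Pi.sub_apply, sub_eq_zero, k i hi,
      k i0 i0T] at this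
    exact_mod_cast mul_left_cancel₀ (Nat.cast_ne_zero.2 ω0.ne') this
  have q1 := f (zi Θ)
  have q2 := f d
  rw [sC, Finset.sum_congr (s₁ := T) rfl fun i hi => by rw [m1' i hi, one_mul]] at q1 q2
  rw [sa fun x => x, ma] at q1
  rw [Finset.sum_congr rfl dc, Finset.sum_const, cT, nsmul_eq_mul, md] at q2
  rw [sC, sa fun x => x ^ 2] at a
  rw [m1] at q
  refine one (b := zi Θ (c i0) + ε) (j0 := j0 - ε) num (by exact_mod_cast n1) hε h
    (by rw [add_sub_cancel_right]; linarith) d1 (by linear_combination hj0) (by linear_combination q1) q2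
    (by linarith [mm.1])

theorem ci_off {X : Type u} [Group X] [Fintype X] {α β β' : X → ℂ} (a : α 1 = 0) (h : ∀ k, k ≠ 1 → β k = β' k) :
    ⟪α, β⟫ = ⟪α, β'⟫ := by
  simp only [ci_def]
  congr 1
  refine Finset.sum_congr rfl fun k _ => ?_
  by_cases e : k = 1
  · rw [e, a, zero_mul, zero_mul]
  · rw [h k e]

theorem kill {K N : Subgroup G} {Ψ : G → ℂ} {s : G} {e ν ω : ℕ}
    (KN : K ≤ N) (nK : N ≤ N[K]) (ab : K ≤ C[K]) (cK : Nat.card K = 2 * e * ν + 1)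
    (cN : Nat.card N = Nat.card K * (2 * e))
    (ti : ∀ k ∈ K, k ≠ 1 → ∀ g, g⁻¹ * k * g ∈ K → g ∈ N) (fp : ∀ y ∈ N, y ∉ K → ∀ k ∈ K, Commute y k → k = 1)
    (num : Num e ν) (hΨ : IsCharacter G Ψ) (Ψ1 : ⟪Ψ, fun _ => 1⟫ = 0) (Ψk : ∀ k ∈ K, k ≠ 1 → Ψ k = -2)
    (ss : s * s = 1) (Ψs : Ψ s = 2 * e * ν) (hω : ω ≡ 2 [MOD Nat.card K]) (ω0 : 0 < ω)
    (deg : ∀ χ, IsIrrCharacter G χ → ⟪Ψ, χ⟫ ≠ 0 → χ 1 = ω * χ s)
    (n1 : 2 * ν < nsq Ψ) (n2 : nsq Ψ < 4 * ν) : False := by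
  have cF := isMulCommutative_iff_le_cent.2 ab
  have := Fintype.ofFinite K
  have := Fintype.ofFinite N
  let σ : N →* MulAut K := K.normalizerMonoidHom.comp (inclusion nK)
  have σv : ∀ d f, (σ d f : G) = d * f * (d : G)⁻¹ := fun _ _ => rfl
  let τ : (K → ℂ) → N → K → ℂ := fun θ y k => θ (σ y k)
  have τm : ∀ θ y y', τ (τ θ y) y' = τ θ (y * y') := fun θ y y' => funext fun k => by simp [τ]
  have τ1 : ∀ θ, τ θ 1 = θ := fun θ => funext fun k => by simp [τ]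
  have τi : ∀ θ y, IsIrrCharacter K θ → IsIrrCharacter K (τ θ y) := fun θ y h => h.comp_equiv (σ y)
  have K0 := card_ne_zero_complex K
  have res : ∀ (α β : K → ℂ), α 1 = 0 → Nat.card K * ⟪indFun K α, indFun K β⟫ = ∑ y, ⟪α, τ β y⟫ := fun α β a => by
    rw [ci_indFun_left K α (isClassFunction_indFun K β), ← ci_sum_right]
    refine Eq.trans (by rw [ci_smul_right, map_natCast])
      (ci_off (β := (Nat.card K : ℂ) • fun k : K => indFun K β k) a fun k k1 => ?_)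
    simp only [indFun, Pi.smul_apply, smul_eq_mul, mul_inv_cancel_left₀ K0, Finset.sum_apply]
    rw [← Equiv.sum_comp (Equiv.inv G), ← Finset.sum_filter_of_ne (p := (· ∈ N)) fun x _ h => by
      by_contra n
      exact h (extendByZero_of_not_mem _ _ fun m => n (inv_mem_iff.1 (ti k k.2 (fun e => k1 (Subtype.ext e)) _ m))),
      Finset.sum_subtype (p := (· ∈ N)) _ (by simp)]
    exact Finset.sum_congr rfl fun y _ => by
      rw [show τ β y k = extendByZero K β (σ y k) from (extendByZero_coe K β (σ y k)).symm, σv]; simp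
  have st : ∀ θ, IsIrrCharacter K θ → θ ≠ (fun _ => 1) → ∀ y, τ θ y = θ ↔ (y : G) ∈ K := fun θ h n y => by
    refine ⟨fun e => by_contra fun m => n (eq_one_of_brauer (σ y) (fun _ h => h.comp_equiv _) (fun g k => ?_) h e),
      fun m => funext fun k => congrArg θ (Subtype.ext ?_)⟩
    · obtain ⟨c, k⟩ := isConj_iff.1 k
      rw [cF.is_comm.comm c, mul_inv_cancel_right, Subtype.ext_iff, σv, mul_inv_eq_iff_eq_mul] at k
      exact Subtype.ext (fp _ y.2 m _ g.2 k)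
    · rw [σv, ← mem_centralizer_iff.1 (ab m) k k.2, mul_inv_cancel_right]
  let r : Setoid (K → ℂ) := ⟨fun θ θ' => ∃ y, τ θ' y = θ, fun θ => ⟨1, τ1 θ⟩, fun ⟨y, e⟩ => ⟨y⁻¹, by
    rw [← e, τm, mul_inv_cancel, τ1]⟩, fun ⟨y, e⟩ ⟨y', e'⟩ => ⟨y' * y, by rw [← τm, e', e]⟩⟩
  have cnt : ∀ θ θ', IsIrrCharacter K θ → IsIrrCharacter K θ' → θ' ≠ (fun _ => 1) →
      ∑ y, ⟪θ, τ θ' y⟫ = if r θ θ' then (Nat.card K : ℂ) else 0 := fun θ θ' h h' n => by
    simp only [fun y => h.ci_eq_ite (τi θ' y h')]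
    split_ifs with c
    · obtain ⟨y, rfl⟩ := c
      rw [← Nat.card_congr (subgroupOfEquivOfLe KN).toEquiv,
        show Nat.card (K.subgroupOf N) = Nat.card {y : N // (y : G) ∈ K} from rfl, natCard_subtype_eq_sum_ite _ ℂ,
        ← Equiv.sum_comp (Equiv.mulRight y)]
      refine Finset.sum_congr rfl fun x _ => if_congr ?_ rfl rfl
      rw [← st θ' h' n, Equiv.coe_mulRight]
      exact ⟨fun e => by simpa [τm, τ1] using (congrArg (τ · y⁻¹) e).symm, fun e => by rw [← τm, e]⟩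
    · exact Finset.sum_eq_zero fun y _ => if_neg fun e => c ⟨y, e.symm⟩
  have cnt1 : ∀ θ, IsIrrCharacter K θ →
      ∑ y, ⟪θ, τ (fun _ => 1) y⟫ = if θ = fun _ => 1 then (Nat.card K : ℂ) * (2 * e) else 0 := fun θ h => by
    simp only [τ, h.ci_eq_ite isIrrCharacter_one, Finset.sum_const, Finset.card_univ, ← Nat.card_eq_fintype_card, cN]
    split_ifs <;> simp
  have r1 : ∀ θ, r (fun _ => 1) θ → θ = fun _ => 1 := fun θ h => by obtain ⟨y, e⟩ := r.symm h; exact e.symm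
  let S := (Irr K).erase fun _ => 1
  have mS : ∀ θ, θ ∈ S ↔ θ ≠ (fun _ => 1) ∧ IsIrrCharacter K θ := fun θ => by simp [S]
  have rS : ∀ θ ∈ S, ∀ θ', r θ' θ → θ' ∈ S := fun θ h θ' k => (mS _).2 ⟨fun e => ((mS _).1 h).1 (r1 θ (e ▸ k)), by
    obtain ⟨y, rfl⟩ := k; exact τi θ y ((mS _).1 h).2⟩
  let T := S.image fun θ => (Quotient.mk r θ).out
  have TS : ∀ i ∈ T, i ∈ S := fun i hi => by
    obtain ⟨θ, h, rfl⟩ := Finset.mem_image.1 hi
    exact rS θ h _ (Quotient.mk_out θ)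
  have Tr : ∀ i ∈ T, ∀ j ∈ T, r i j ↔ i = j := fun i hi j hj => ⟨fun h => by
    obtain ⟨θ, -, rfl⟩ := Finset.mem_image.1 hi
    obtain ⟨θ', -, rfl⟩ := Finset.mem_image.1 hj
    rw [Quotient.out_equiv_out.1 h], fun e => e ▸ r.refl i⟩
  have sm : ∀ f : (K → ℂ) → ℂ, (∀ θ y, f (τ θ y) = f θ) → ∑ θ ∈ S, f θ = 2 * e * ∑ i ∈ T, f i := fun f hf => by
    apply mul_left_cancel₀ K0
    have a : ∀ θ ∈ S, (Nat.card K : ℂ) * f θ = ∑ i ∈ T, ∑ y, ⟪θ, τ i y⟫ * f θ := fun θ h => by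
      rw [Finset.sum_eq_single_of_mem _ (Finset.mem_image_of_mem (fun θ => (Quotient.mk r θ).out) h) fun j hj n => ?_,
        ← Finset.sum_mul, cnt _ _ ((mS _).1 h).2 ((mS _).1 (rS θ h _ (Quotient.mk_out θ))).2
          ((mS _).1 (rS θ h _ (Quotient.mk_out θ))).1, if_pos (r.symm (Quotient.mk_out θ))]
      rw [← Finset.sum_mul, cnt _ _ ((mS _).1 h).2 ((mS _).1 (TS j hj)).2 ((mS _).1 (TS j hj)).1, if_neg, zero_mul]
      exact fun k => n ((Tr _ (Finset.mem_image_of_mem _ h) j hj).1 (r.trans (Quotient.mk_out θ) k)).symm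
    rw [Finset.mul_sum, Finset.sum_congr rfl a, Finset.sum_comm, ← mul_assoc, Finset.mul_sum]
    refine Finset.sum_congr rfl fun i hi => ?_
    rw [Finset.sum_comm, Finset.sum_congr rfl (g := fun _ => f i) fun y _ => ?_, Finset.sum_const, Finset.card_univ,
      ← Nat.card_eq_fintype_card, cN, nsmul_eq_mul]
    · push_cast; ring
    have m := rS i (TS i hi) _ ⟨y, rfl⟩
    rw [Finset.sum_eq_single_of_mem _ m fun θ h n => by rw [((mS _).1 h).2.ci_of_ne ((mS _).1 m).2 n, zero_mul],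
      ((mS _).1 m).2.ci_self, one_mul, hf]
  have sI : ∀ f : (K → ℂ) → ℂ, (∀ θ y, f (τ θ y) = f θ) → ∑ θ ∈ Irr K, f θ = f (fun _ => 1) + 2 * e * ∑ i ∈ T, f i :=
    fun f hf => by rw [← sm f hf, Finset.add_sum_erase _ _ (mem_Irr.2 isIrrCharacter_one)]
  have e0 : 0 < e := by have := num.1; omega
  have cT : T.card = ν := by
    have a := sI (fun _ => 1) fun _ _ => rfl
    have b := sum_irr_degree_sq K
    rw [Finset.sum_congr rfl (g := fun _ => 1) fun θ h => by rw [(mem_Irr.1 h).degree_one_of_comm, one_pow], a, cK] at b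
    simp only [Finset.sum_const, nsmul_eq_mul, mul_one] at b
    have : 1 + 2 * e * T.card = 2 * e * ν + 1 := by exact_mod_cast b
    exact Nat.eq_of_mul_eq_mul_left (show 0 < 2 * e by omega) (by omega)
  obtain ⟨i0, h0⟩ := Finset.card_pos.1 (show 0 < T.card by have := num.2.1; omega)
  have iT : ∀ i ∈ T, IsIrrCharacter K i := fun i hi => ((mS _).1 (TS i hi)).2
  have nT : ∀ i ∈ T, i ≠ fun _ => 1 := fun i hi => ((mS _).1 (TS i hi)).1
  have one := isIrrCharacter_one (G := K)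
  have d0 : ∀ θ, IsIrrCharacter K θ → (θ - i0) 1 = 0 := fun θ h => by
    rw [Pi.sub_apply, h.degree_one_of_comm, (iT i0 h0).degree_one_of_comm, sub_self]
  have ex : ∀ θ θ', IsIrrCharacter K θ → Nat.card K * ⟪indFun K (θ - i0), indFun K (θ' - i0)⟫ =
      ∑ y, ⟪θ, τ θ' y⟫ - ∑ y, ⟪θ, τ i0 y⟫ - (∑ y, ⟪i0, τ θ' y⟫ - ∑ y, ⟪i0, τ i0 y⟫) := fun θ θ' h => by
    rw [res _ _ (d0 θ h)]
    simp only [← Finset.sum_sub_distrib, ← ci_sub_right, ← ci_sub_left]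
    rfl
  have c00 : ∑ y, ⟪i0, τ i0 y⟫ = Nat.card K := by rw [cnt _ _ (iT _ h0) (iT _ h0) (nT _ h0), if_pos (r.refl _)]
  have cij : ∀ i ∈ T, ∀ j ∈ T, ∑ y, ⟪i, τ j y⟫ = if i = j then (Nat.card K : ℂ) else 0 := fun i hi j hj => by
    rw [cnt _ _ (iT _ hi) (iT _ hj) (nT _ hj)]; exact if_congr (Tr i hi j hj) rfl rfl
  have ΨK : ∀ θ, IsIrrCharacter K θ → ⟪indFun K (θ - i0), Ψ⟫ = -2 * ⟪θ, fun _ => 1⟫ := fun θ h => by
    rw [ci_indFun_left K _ hΨ.isClassFunction, ci_off (β' := (-2 : ℂ) • fun _ => 1) (d0 θ h) fun k k1 => by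
      simpa using Ψk k k.2 fun e => k1 (Subtype.ext e), ci_smul_right, ci_sub_left,
      (iT i0 h0).ci_of_ne one (nT i0 h0), map_neg, map_ofNat, sub_zero]
  have oK : ∀ θ, ⟪indFun K (θ - i0), fun _ => 1⟫ = ⟪θ, fun _ => 1⟫ := fun θ => by
    rw [ci_indFun_left K _ (isClassFunction_const 1), ci_sub_left, (iT i0 h0).ci_of_ne one (nT i0 h0), sub_zero]
  refine kill0 (Y := fun i => indFun K (i - i0)) (Θ := indFun K ((fun _ => 1) - i0)) h0 cT
    (fun i hi => ((iT i hi).virt.sub (iT i0 h0).virt).indFun) (by simp only [sub_self, indFun_zero])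
    (fun i hi => by rw [indFun_apply_one, d0 i (iT i hi), mul_zero]) (fun i hi j hj a b => ?_)
    (fun i hi => by rw [oK, (iT i hi).ci_of_ne one (nT i hi)]) (one.virt.sub (iT i0 h0).virt).indFun ?_
    (by rw [oK, ci_one_one]) (fun i hi a => ?_) ?_ (fun i hi => by
      rw [ΨK i (iT i hi), (iT i hi).ci_of_ne one (nT i hi), mul_zero]) (fun χ h => ?_)
    num hΨ Ψ1 ss Ψs (cK ▸ hω) ω0 deg n1 n2
  · apply mul_left_cancel₀ K0
    rw [ex i j (iT i hi), c00, cij i hi j hj, cij i hi i0 h0, cij i0 h0 j hj, if_neg a, if_neg b.symm]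
    split_ifs <;> ring
  · apply mul_left_cancel₀ K0
    rw [ex _ _ one, c00, cnt1 _ one, cnt1 _ (iT i0 h0), if_pos rfl, if_neg (nT i0 h0), cnt _ _ one (iT i0 h0) (nT i0 h0),
      if_neg fun k => nT i0 h0 (r1 _ k)]
    ring
  · apply mul_left_cancel₀ K0
    rw [ex i _ (iT i hi), c00, cnt1 _ (iT i hi), cnt1 _ (iT i0 h0), if_neg (nT i hi), if_neg (nT i0 h0),
      cij i hi i0 h0, if_neg a]
    ring
  · rw [← ci_conj_symm, ΨK _ one, ci_one_one, mul_one, map_neg, map_ofNat]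
  · have hφ := h.isCharacter.restrict K
    obtain ⟨x, hx⟩ := (iT i0 h0).isCharacter.ci_nat hφ
    refine ⟨x, ?_⟩
    have a := sI (fun θ => ⟪θ, fun k : K => χ k⟫) fun θ y => by
      rw [← ci_comp_equiv (σ y).toEquiv θ]
      congr 1
      exact funext fun f => (h.isClassFunction f y).symm
    have b := hφ.isClassFunction.apply_eq_sum_irr 1
    rw [Finset.sum_congr rfl (g := fun θ => ⟪θ, fun k : K => χ k⟫) fun θ m => by
      rw [(mem_Irr.1 m).degree_one_of_comm, mul_one, hφ.ci_comm (mem_Irr.1 m).isCharacter], a] at b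
    simp only [ci_indFun_left K _ h.isClassFunction, ci_sub_left, hx, Finset.sum_sub_distrib, Finset.sum_const, cT,
      nsmul_eq_mul]
    rw [show χ 1 = χ (1 : K) from rfl, b]
    push_cast; ring

end Cfsg.Agent.SE.PK
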