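import Cfsg.Agent.SE.Def
import Cfsg.Agent.Cls.GThompson

/-! Strongly embedded subgroups: normal complements in the point stabiliser. -/

set_option autoImplicit false
set_option linter.unusedSectionVars false
set_option linter.unusedVariables false

namespace Cfsg.Agent.SE

open Cfsg Subgroup MulAction Cfsg.Agent.GT Cfsg.Agent.Cls Cfsg.Agent.GW Cfsg.Agent.WA

universe u

/-- `St` without the induction hypothesis. -/
structure Sd {G Ω : Type u} [Group G] [MulAction G Ω] (a b : Ω) (t : G) (A K : Subgroup G) : Prop where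
  tw : Tw2 G Ω
  fa : Fa G Ω
  ne : a ≠ b
  ord : orderOf t = 2
  ta : t • a = b
  tb : t • b = a
  memA : ∀ x, x ∈ A ↔ x = 1 ∨ orderOf x = 2 ∧ x • a = a
  four : 4 ≤ Nat.card A
  RA : O[stabilizer G a] ≤ C[A]
  memK : ∀ k, k ∈ K ↔ k • a = a ∧ k • b = b ∧ t * k * t = k⁻¹
  cyc : IsCyclic K
  cardK : Nat.card K + 1 = Nat.card A
  DK : stabilizer G a ⊓ stabilizer G b ≤ N[K]
  fix2 : ∀ k ∈ K, k ≠ 1 → ∀ c : Ω, k • c = c → c = a ∨ c = b
  W0 : stabilizer G a ⊓ stabilizer G b ⊓ C[A] ≤ C[K] ⊓ C1[t]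
  semi : ∀ y ∈ fittingOf O[stabilizer G a], y ≠ 1 → ∀ c : Ω, y • c = c → c = a

/-- a 2-subgroup of `C_N(X)` is transitive on `Fix X - a`. -/
def Good {G Ω : Type u} [Group G] [MulAction G Ω] (a b : Ω) (N X : Subgroup G) : Prop :=
  ∃ T : Subgroup G, IsPGroup 2 T ∧ T ≤ N ⊓ C[X] ∧ ∀ c : Ω, c ≠ a → X ≤ stabilizer G c → ∃ g ∈ T, g • b = c

variable {G Ω : Type u} [Group G] [Finite G] [MulAction G Ω] {a b : Ω} {t : G} {A K M N T X : Subgroup G}

theorem St.sd (S : St a b t A K) : Sd a b t A K :=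
  ⟨S.tw, S.fa, S.ne, S.ord, S.ta, S.tb, S.memA, S.four, S.RA, S.memK, S.cyc, S.cardK, S.DK, S.fix2, S.W0, S.semi⟩

theorem Good.mono (h : Good a b N X) (hN : N ≤ M) : Good a b M X :=
  let ⟨T, h1, h2, h3⟩ := h; ⟨T, h1, h2.trans (inf_le_inf_right _ hN), h3⟩

/-- a 2-group lies in every normal subgroup supplemented by an odd group -/
theorem two_le {D : Subgroup G} (o : Odd (Nat.card D)) (hn : M ≤ N[N]) (hM : M ≤ N ⊔ (M ⊓ D)) (hT : IsPGroup 2 T)
    (TM : T ≤ M) : T ≤ N := by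
  have d1 : N.relIndex T ∣ N.relIndex (N ⊔ (M ⊓ D)) :=
    relIndex_dvd_of_normal (TM.trans hM) (sup_le le_normalizer (inf_le_left.trans hn))
  rw [relIndex_sup_eq_of_norm_or (Or.inr (inf_le_left.trans hn))] at d1
  have d2 := (d1.trans (relIndex_dvd_card' _ _)).trans (card_dvd_of_le (inf_le_right : M ⊓ D ≤ D))
  obtain ⟨n, e⟩ := IsPGroup.iff_card.1 hT
  have d3 := relIndex_dvd_card' N T
  rw [e] at d3
  exact relIndex_eq_one.1 (Nat.eq_one_of_dvd_coprimes ((Nat.coprime_two_left.2 o).pow_left n) d3 d2)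

theorem Good.of_le {D : Subgroup G} (o : Odd (Nat.card D)) (hn : M ≤ N[N]) (hM : M ≤ N ⊔ (M ⊓ D))
    (h : Good a b M X) : Good a b N X :=
  let ⟨T, h1, h2, h3⟩ := h
  ⟨T, h1, le_inf (two_le o hn hM h1 (h2.trans inf_le_left)) (h2.trans inf_le_right), h3⟩

namespace Sd

variable (S : Sd a b t A K)
include S

theorem KD : K ≤ stabilizer G a ⊓ stabilizer G b := fun k hk => ⟨((S.memK k).1 hk).1, ((S.memK k).1 hk).2.1⟩

theorem K1 : K ≠ ⊥ := fun e => by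
  have := S.cardK; have := S.four; rw [e, card_bot] at *; omega

theorem oD : Odd (Nat.card ↥(stabilizer G a ⊓ stabilizer G b)) := S.tw.odd a b S.ne

theorem nil (NH : N ≤ stabilizer G a) (hn : K ≤ N[N]) (e : N ⊓ (stabilizer G a ⊓ stabilizer G b) = ⊥) :
    Group.IsNilpotent N := by
  refine semiregular_nil hn S.K1 (semiregular_iff.2 fun x hx x1 y hy c => ?_)
  have := S.fix2 x hx x1 (y • b) (by rw [← mul_smul, ← c, mul_smul, (S.KD hx).2])
  rcases this with h | h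
  · exact absurd (smul_left_cancel y (h.trans (NH hy).symm)) S.ne.symm
  · exact mem_bot.1 (e ▸ ⟨hy, NH hy, h⟩)

theorem nc (MH : M ≤ stabilizer G a) (nM : stabilizer G a ≤ N[M])
    (h : ∀ N, N ≤ M → stabilizer G a ≤ N[N] → M ≤ N ⊔ (M ⊓ (stabilizer G a ⊓ stabilizer G b)) →
      N ⊓ (stabilizer G a ⊓ stabilizer G b) ≠ ⊥ →
      ∃ N', N' < N ∧ stabilizer G a ≤ N[N'] ∧ N ≤ N' ⊔ (N ⊓ (stabilizer G a ⊓ stabilizer G b))) :
    ∃ N, N ≤ M ∧ stabilizer G a ≤ N[N] ∧ N ⊓ (stabilizer G a ⊓ stabilizer G b) = ⊥ ∧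
      M ≤ N ⊔ (M ⊓ (stabilizer G a ⊓ stabilizer G b)) ∧ Group.IsNilpotent N := by
  obtain ⟨N, ⟨h1, h2, h3⟩, -, mn⟩ := exists_minimal_le
    (S := {N | N ≤ M ∧ stabilizer G a ≤ N[N] ∧ M ≤ N ⊔ (M ⊓ (stabilizer G a ⊓ stabilizer G b))}) (H := M)
    ⟨le_rfl, nM, le_sup_left⟩
  have e : N ⊓ (stabilizer G a ⊓ stabilizer G b) = ⊥ := by
    by_contra e
    obtain ⟨N', lt, n', le⟩ := h N h1 h2 h3 e
    exact lt.ne (mn N' ⟨lt.le.trans h1, n', h3.trans (sup_le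
      (le.trans (sup_le_sup_left (inf_le_inf_right _ h1) _)) le_sup_right)⟩ lt.le)
  exact ⟨N, h1, h2, e, h3, S.nil (h1.trans MH) ((S.KD.trans inf_le_left).trans h2) e⟩

end Sd

end Cfsg.Agent.SE
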