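import Cfsg.Agent.SE.PK3c
import Cfsg.Agent.SE.PK2
import Cfsg.Agent.SE.Q3a

/-! The character argument PK: no element of `G_a` swaps two involutions. -/

set_option autoImplicit false
set_option linter.unusedSectionVars false
set_option linter.unusedVariables false

namespace Cfsg.Agent.SE

open Cfsg Subgroup MulAction Cfsg.Agent.GT Cfsg.Agent.Cls Cfsg.Agent.GW Cfsg.Agent.Char Cfsg.Agent.B84C Cfsg.Agent.WA
open scoped ComplexConjugate Classical

universe u

variable {G Ω : Type u} [Group G] [Finite G] [MulAction G Ω] {a b : Ω} {t : G} {A K : Subgroup G}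

theorem Sd.pK' (S : Sd a b t A K)
    (hV : ∀ d ∈ stabilizer G a ⊓ stabilizer G b, d ∉ K → ∀ k ∈ K, Commute d k → k = 1) {e : ℕ}
    (he : Nat.card ↥(stabilizer G a ⊓ stabilizer G b) = Nat.card K * e) (he' : e = 1 ∨ Nat.card A = 2 ^ e) :
    ∀ g ∈ stabilizer G a, ∀ s ∈ A, g * (g * s * g⁻¹) * g⁻¹ = s → g * s * g⁻¹ = s := by
  intro g hg s hs sw
  by_contra n
  have := Fintype.ofFinite G
  obtain ⟨os, sa⟩ := ((S.memA s).1 hs).resolve_left fun z => n (by rw [z]; group)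
  have h : PK.Dt a b t s A K :=
    ⟨S.tw.ac.ac, S.tw.two, S.ne, S.ord, S.ta, S.tb, S.memA, S.memK, S.DK, S.fix2, os, sa, hV⟩
  obtain ⟨f, hf⟩ := IsPGroup.iff_card.1 (show IsPGroup 2 A from fun x => ⟨1, Subtype.ext (by
    simpa [sq] using h.A2 x.2)⟩)
  have f2 : 2 ≤ f := by
    have := S.four
    rw [hf] at this
    by_contra c
    have : f = 0 ∨ f = 1 := by omega
    rcases this with rfl | rfl <;> omega
  have o : Odd e := (h.ac.odd h.ne).of_dvd_nat (he ▸ dvd_mul_left _ _)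
  obtain ⟨μ, hμ⟩ := (h.ps_char.restrict (Dab G a b)).ci_nat (h.ps_char.comp (cjt h.tt h.ta h.tb))
  have cK := S.cardK
  have e1 : e * μ + 1 = Nat.card K := by
    have := h.second
    rw [hμ, he, Nat.cast_mul, mul_assoc, mul_right_inj' (card_ne_zero_complex K), eq_sub_iff_add_eq] at this
    exact_mod_cast this
  obtain ⟨ν, rfl⟩ : ∃ ν, μ = 2 * ν := by
    obtain ⟨f, rfl⟩ := Nat.exists_eq_add_of_le' f2
    have : 2 ∣ e * μ := by rw [hf, pow_add] at cK; omega
    exact (Nat.coprime_two_left.2 o).dvd_of_dvd_mul_left this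
  have cK' : Nat.card K = 2 * e * ν + 1 := by rw [← e1]; ring
  obtain ⟨w, hw, w0, w1⟩ := h.bound he cK' hg sw n
  have e2 : nsq (indFun _ (PK.ps a s)) = (w + 2 * ν : ℕ) := nsq_eq_of_ci (by
    rw [h.t2.mackey h.ne h.tt h.ta h.tb h.ps_class h.ps_class, hw, hμ]; simp)
  refine PK.kill (N := PK.pr G a b) (e := e) (ν := ν) (fun k hk => .inl (h.KD hk)) h.nK
    (fun k hk j hj => h.Kc hj hk) cK' (by rw [h.card_N, he]; ring) (fun k hk k1 g c => h.ti hk k1 c)
    (fun y hy n k hk c => h.fp hy n hk c)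
    (PK.num_of (f := f) (by omega) f2 o (he'.imp_right fun z => Nat.pow_right_injective le_rfl (hf.symm.trans z)))
    h.ps_char.indFun h.Psi_one (fun k => h.Psi_k) h.ss (by rw [h.Psi_s, cK']; simp) h.om
    (Nat.pos_of_ne_zero index_ne_zero_of_finite) (fun χ => h.deg) ?_ ?_
  · rw [e2]; exact_mod_cast (by omega : 2 * ν < w + 2 * ν)
  · rw [e2]; exact_mod_cast (by omega : w + 2 * ν < 4 * ν)

theorem Sd.pK (S : Sd a b t A K)
    (hV : ∀ d ∈ stabilizer G a ⊓ stabilizer G b, d ∉ K → ∀ k ∈ K, Commute d k → k = 1)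
    (he : ∃ e, Nat.card ↥(stabilizer G a ⊓ stabilizer G b) = Nat.card K * e ∧ Nat.card A = 2 ^ e) :
    ∀ g ∈ stabilizer G a, ∀ s ∈ A, g * (g * s * g⁻¹) * g⁻¹ = s → g * s * g⁻¹ = s :=
  let ⟨_, h1, h2⟩ := he; S.pK' hV h1 (.inr h2)

end Cfsg.Agent.SE
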