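import Cfsg.Agent.SE.Q3a
import Cfsg.Agent.BG.S03c

/-! Strongly embedded subgroups: the case `W0 = 1`. -/

set_option autoImplicit false
set_option linter.unusedSectionVars false
set_option linter.unusedVariables false

namespace Cfsg.Agent.SE.Sd

open Cfsg Subgroup MulAction Cfsg.Agent.GT Cfsg.Agent.Cls Cfsg.Agent.GW Cfsg.Agent.WA
open scoped commutatorElement

universe u

variable {G Ω : Type u} [Group G] [Finite G] [MulAction G Ω] {a b : Ω} {t s s' k x d : G}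
  {A K N P X R A1 K1 : Subgroup G} {l : ℕ}

local notation3 "𝐇" => stabilizer G a
local notation3 "𝐃" => stabilizer G a ⊓ stabilizer G b

theorem idx_orbit (Y : Subgroup G) (b : Ω) : (stabilizer G b).relIndex Y = (orbit Y b).ncard := by
  rw [← index_stabilizer, relIndex]; rfl

variable (S : Sd a b t A K)
include S

theorem sq (hs : s ∈ A) : s * s = 1 := by
  rcases (S.memA s).1 hs with rfl | h
  exacts [mul_one _, sq1 h.1]

theorem inv (hs : s ∈ A) (s1 : s ≠ 1) : orderOf s = 2 ∧ s • a = a := ((S.memA s).1 hs).resolve_left s1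

theorem AH : A ≤ 𝐇 := fun s hs => by
  rcases (S.memA s).1 hs with rfl | h
  exacts [one_mem _, h.2]

theorem pA : IsPGroup 2 A := fun v => ⟨1, Subtype.ext (by simpa [pow_two] using S.sq v.2)⟩

theorem nA : 𝐇 ≤ N[A] := fun g hg => mem_normalizer_of_conj_le (conj_le_iff_forall.2 fun s hs => by
  rcases (S.memA s).1 hs with rfl | h
  · simp
  · refine (S.memA _).2 (Or.inr ⟨ord2_conj h.1 g, ?_⟩)
    rw [mul_smul, mul_smul, show g⁻¹ • a = a from inv_mem hg, h.2]; exact hg)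

theorem kk (hs : s ∈ A) (s1 : s ≠ 1) (hs' : s' ∈ A) (s1' : s' ≠ 1) : ∃! k, k ∈ K ∧ k * s * k⁻¹ = s' := by
  obtain ⟨k, h, u⟩ := S.tw.kk a b t s s' S.ne S.ord S.ta S.tb (S.inv hs s1).1 (S.inv hs' s1').1 (S.inv hs s1).2
    (S.inv hs' s1').2
  exact ⟨k, ⟨(S.memK k).2 ⟨h.1, h.2.1, h.2.2.1⟩, h.2.2.2⟩, fun y hy =>
    let e := (S.memK y).1 hy.1; u y ⟨e.1, e.2.1, e.2.2, hy.2⟩⟩

theorem k1 (hs : s ∈ A) (s1 : s ≠ 1) (hk : k ∈ K) (c : k * s = s * k) : k = 1 :=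
  (S.kk hs s1 hs s1).unique ⟨hk, by rw [c]; group⟩ ⟨one_mem _, by group⟩

theorem cK : K ≤ C[K] := comm_iff_le_cent.1 (isMulCommutative_of_isCyclic S.cyc)

theorem exA : ∃ s ∈ A, s ≠ 1 := by
  refine (bot_or_exists_ne_one A).resolve_left fun e => ?_
  have := S.four; rw [e, card_bot] at this; omega

theorem dec (hs : s ∈ A) (s1 : s ≠ 1) (hd : d ∈ 𝐇) : ∃ k ∈ K, k⁻¹ * d ∈ C1[s] := by
  obtain ⟨k, ⟨hk, e⟩, -⟩ := S.kk hs s1 (conj_mem_of_le_norm S.nA hd hs) (ne1 (ord2_conj (S.inv hs s1).1 d))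
  refine ⟨k, hk, mem_cent1.2 ?_⟩
  calc k⁻¹ * d * s = k⁻¹ * (d * s * d⁻¹) * d := by group
    _ = s * (k⁻¹ * d) := by rw [← e]; group

/-- a subgroup normalised by `K` centralising one involution of `A` centralises `A`. -/
theorem centA (hn : K ≤ N[X]) (hs : s ∈ A) (s1 : s ≠ 1) (c : s ∈ C[X]) : X ≤ C[A] := by
  refine le_cent_symm fun y hy => ?_
  by_cases y1 : y = 1
  · rw [y1]; exact one_mem _
  obtain ⟨k, ⟨hk, rfl⟩, -⟩ := S.kk hs s1 hy y1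
  exact conj_mem_of_le_norm (le_norm_cent hn) hk c

theorem cent1 (h2 : Nat.card ↥(A ⊓ C[X]) = 2) : K ⊓ C[X] = ⊥ := by
  refine eq_bot_iff.2 fun k hk => ?_
  obtain ⟨s, hs, s1⟩ := (bot_or_exists_ne_one (A ⊓ C[X])).resolve_left fun e => by
    rw [e, card_bot] at h2; omega
  have e : zpowers s = A ⊓ C[X] := eq_of_le_of_card_ge (zpowers_le.2 hs)
    (by rw [h2, Nat.card_zpowers, (S.inv hs.1 s1).1])
  have m : k * s * k⁻¹ ∈ zpowers s := e ▸ mem_inf.2 ⟨conj_mem_of_le_norm S.nA (S.KD hk.1).1 hs.1,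
    mul_mem (mul_mem hk.2 hs.2) (inv_mem hk.2)⟩
  rcases (TT.mem_zpowers_of_sq (S.sq hs.1)).1 m with e | e
  · exact absurd e (ne1 (ord2_conj (S.inv hs.1 s1).1 k))
  · exact S.k1 hs.1 s1 hk.1 (mul_inv_eq_iff_eq_mul.1 e)

theorem ne2 (hl : l.Prime) (dv : l ∣ Nat.card K) (hX : IsPGroup l X) (XD : X ≤ 𝐃) : Nat.card ↥(A ⊓ C[X]) ≠ 2 := by
  intro h2
  obtain ⟨P, hP⟩ := exists_syl hl K
  exact inf_cent_ne_bot_of_isPGroup hl (syl_isPGroup hl hP) hX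
    ((XD.trans S.DK).trans (norm_le_norm_syl hl hP (le_norm_of_cent (S.cK.trans (cent_anti hP.le)))))
    ((syl_ne_bot_iff hl hP).2 dv) (eq_bot_iff.2 ((inf_le_inf_right _ hP.le).trans (S.cent1 h2).le))

theorem wl (K1K : K1 ≤ K) (k0 : K1 ≠ ⊥) (RD : R ≤ 𝐃) (hn : R ≤ N[K1]) (sr : Semiregular K1 R) (A1A : A1 ≤ A)
    (nA1 : K1 ⊔ R ≤ N[A1]) (h2 : Nat.card ↥(A1 ⊓ C[R]) = 2) : Nat.card A1 = 2 ^ Nat.card R := by
  have p1 : IsPGroup 2 A1 := S.pA.to_le A1A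
  have w := BG.semiregular_Wielandt hn sr nA1 (by
    obtain ⟨n, e⟩ := IsPGroup.iff_card.1 p1
    rw [e]
    exact (Nat.coprime_two_left.2 (Odd.of_dvd_nat S.oD
      (card_dvd_of_le (sup_le (K1K.trans S.KD) RD)))).pow_left n) (solvable_of_isPGroup Nat.prime_two p1)
  have e : A1 ⊓ C[K1] = ⊥ := eq_bot_iff.2 fun s hs => by
    by_contra s1
    obtain ⟨k, hk, k1⟩ := (bot_or_exists_ne_one K1).resolve_left k0
    exact k1 (S.k1 (A1A hs.1) s1 (K1K hk) (hs.2 k hk))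
  have e' : A1 ⊓ C[K1 ⊔ R] = ⊥ := eq_bot_iff.2 ((inf_le_inf_left _ (cent_anti le_sup_left)).trans e.le)
  rw [e, e', h2, card_bot] at w
  simpa using w

variable (W : stabilizer G a ⊓ stabilizer G b ⊓ C[A] = ⊥)
include W

theorem der : ⁅𝐃, 𝐃⁆ ≤ K := by
  intro d hd
  have c := PG.commutator_le_cent_of_isCyclic S.cyc S.DK S.DK hd
  have hd := der1_le _ hd
  obtain ⟨s, hs, s1⟩ := S.exA
  obtain ⟨k, hk, e⟩ := S.dec hs s1 hd.1
  have m : k⁻¹ * d ∈ C[K] := mul_mem (inv_mem (S.cK hk)) c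
  have := S.centA (X := zpowers (k⁻¹ * d)) (le_norm_of_cent (le_cent_symm (zpowers_le.2 m))) hs s1
    ((cent_zpowers _).ge (mem_cent1_comm.1 e)) (mem_zpowers _)
  have : k⁻¹ * d = 1 := mem_bot.1 (W ▸ mem_inf.2 ⟨mul_mem (inv_mem (S.KD hk)) hd, this⟩)
  rwa [← inv_mul_eq_one.1 this]

theorem exc (hx : x ∈ 𝐃) (hp : (orderOf x).Prime) (h2 : Nat.card ↥(A ⊓ C[zpowers x]) = 2) :
    (∀ d ∈ 𝐃, d ∉ K → ∀ k ∈ K, Commute d k → k = 1) ∧
      ∃ e, Nat.card ↥𝐃 = Nat.card K * e ∧ Nat.card A = 2 ^ e := by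
  obtain ⟨s, hs, s1⟩ := (bot_or_exists_ne_one (A ⊓ C[zpowers x])).resolve_left fun e => by
    rw [e, card_bot] at h2; omega
  set V := 𝐃 ⊓ C1[s] with hV
  have KV : K ⊓ V = ⊥ := eq_bot_iff.2 fun k hk => S.k1 hs.1 s1 hk.1 (mem_cent1.1 hk.2.2)
  have cV : V ≤ C[V] := le_cent_iff_commutator_eq_bot.2 (eq_bot_iff.2 ((le_inf
    ((commutator_mono inf_le_left inf_le_left).trans (S.der W)) (der1_le _)).trans KV.le))
  have xV : x ∈ V := ⟨hx, mem_cent1_comm.1 ((cent_zpowers x).le hs.2)⟩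
  have two : ∀ A1 R : Subgroup G, A1 ≤ A → s ∈ A1 → x ∈ R → R ≤ V → Nat.card ↥(A1 ⊓ C[R]) = 2 := by
    intro A1 R h1 h3 h4 h5
    refine le_antisymm (h2 ▸ card_le_of_le (inf_le_inf h1 (cent_anti (zpowers_le.2 h4)))) ?_
    exact (Subgroup.one_lt_card_iff_ne_bot _).2 fun e => s1 (mem_bot.1 (e ▸
      ⟨h3, mem_cent_iff_le_cent1.2 (h5.trans inf_le_right)⟩))
  have w : ∀ v ∈ V, K ⊓ C1[v] ≠ ⊥ → Nat.card ↥(A ⊓ C1[v]) = 2 ^ Nat.card (zpowers x) := by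
    intro v hv k0
    have xv : zpowers x ≤ C1[v] := zpowers_le.2 (mem_cent1.2 (cV xV v hv).symm)
    have xD : zpowers x ≤ 𝐃 := zpowers_le.2 hx
    refine S.wl inf_le_left k0 xD (le_norm_inf (xD.trans S.DK) (le_norm_cent1 xv))
      ((semiregular_of_prime (by rwa [Nat.card_zpowers]) (S.cent1 h2)).mono inf_le_left le_rfl) inf_le_left
      (le_norm_inf ((sup_le (inf_le_left.trans S.KD) xD).trans (inf_le_left.trans S.nA))
        (le_norm_cent1 (sup_le inf_le_right xv)))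
      (two _ _ inf_le_left ⟨hs.1, mem_cent1_comm.1 hv.2⟩ (mem_zpowers x) (zpowers_le.2 xV))
  have t1 : C1[(1 : G)] = ⊤ := eq_top_iff.2 fun y _ => mem_cent1.2 (by group)
  have sr : ∀ v ∈ V, v ≠ 1 → K ⊓ C1[v] = ⊥ := by
    intro v hv v1
    by_contra k0
    have e1 := w 1 (one_mem _) (by rw [t1, inf_top_eq]; exact S.K1)
    rw [t1, inf_top_eq, ← w v hv k0] at e1
    have e2 : A ⊓ C1[v] = A := eq_of_le_of_card_ge inf_le_left e1.le
    exact v1 (mem_bot.1 (W ▸ ⟨hv.1, mem_cent_iff_le_cent1.2 (e2.ge.trans inf_le_right)⟩))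
  have dec : ∀ d ∈ 𝐃, ∃ k ∈ K, k⁻¹ * d ∈ V := fun d hd =>
    let ⟨k, hk, e⟩ := S.dec hs.1 s1 hd.1; ⟨k, hk, mem_inf.2 ⟨mul_mem (inv_mem (S.KD hk)) hd, e⟩⟩
  have VK : V ≤ N[K] := inf_le_left.trans S.DK
  refine ⟨fun d hd dK k hk c => ?_, Nat.card V, ?_, ?_⟩
  · obtain ⟨j, hj, e⟩ := dec d hd
    refine mem_bot.1 (sr _ e (fun h => dK (inv_mul_eq_one.1 h ▸ hj)) ▸ ⟨hk, mem_cent1_comm.1 ?_⟩)
    exact mul_mem (inv_mem (mem_cent1.2 (S.cK hk j hj))) (mem_cent1.2 c)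
  · rw [← card_sup_of_inf_eq_bot (Or.inr VK) KV]
    congr 2
    refine le_antisymm (fun d hd => ?_) (sup_le S.KD inf_le_left)
    obtain ⟨j, hj, e⟩ := dec d hd
    rw [← mul_inv_cancel_left j d]
    exact mul_mem (mem_sup_left hj) (mem_sup_right e)
  · refine S.wl le_rfl S.K1 inf_le_left VK (semiregular_iff.2 fun v hv v1 y hy c =>
      mem_bot.1 (sr v hv v1 ▸ ⟨hy, mem_cent1.2 c⟩)) le_rfl
      ((sup_le S.KD inf_le_left).trans (inf_le_left.trans S.nA)) (two _ _ le_rfl hs.1 xV le_rfl)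

/-- the Burnside case -/
theorem bur (NH : N ≤ 𝐇) (nN : 𝐇 ≤ N[N]) (hl : l.Prime) (dv : l ∣ Nat.card ↥(N ⊓ 𝐃)) (nd : ¬ l ∣ Nat.card K)
    (g : ∀ x ∈ 𝐃, (orderOf x).Prime → Good a b N (zpowers x)) :
    ∃ N', N' < N ∧ 𝐇 ≤ N[N'] ∧ N ≤ N' ⊔ (N ⊓ 𝐃) := by
  obtain ⟨P, hP⟩ := exists_syl hl (N ⊓ 𝐃)
  have pP := syl_isPGroup hl hP
  have PD : P ≤ 𝐃 := hP.le.trans inf_le_right
  have P0 := (syl_ne_bot_iff hl hP).2 dv
  have PK : P ⊓ K = ⊥ := by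
    by_contra e
    exact nd ((prime_dvd_card_of_isPGroup hl (pP.to_le inf_le_left) e).trans (card_dvd_of_le inf_le_right))
  have cP : P ≤ C[P] := le_cent_iff_commutator_eq_bot.2 (eq_bot_iff.2 ((le_inf (der1_le _)
    ((commutator_mono PD PD).trans (S.der W))).trans PK.le))
  have c1 : ∀ x ∈ P, (orderOf x).Prime → N ⊓ N[P] ≤ C1[x] := by
    intro x hx hp y hy
    obtain ⟨T, -, TN, tr⟩ := g x (PD hx) hp
    have m := conj_mem_of_le_norm' (A := N ⊓ N[P]) inf_le_right hy hx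
    obtain ⟨τ, hτ, e⟩ := tr (y • b) (fun e => S.ne.symm (smul_left_cancel y (e.trans (NH hy.1).symm)))
      (zpowers_le.2 (by
        have : (y⁻¹ * x * y) • b = b := (PD m).2
        rwa [mul_smul, mul_smul, inv_smul_eq_iff] at this))
    have dD : τ⁻¹ * y ∈ 𝐃 := mem_inf.2 ⟨mul_mem (inv_mem (NH (TN hτ).1)) (NH hy.1), by
      rw [mem_stabilizer_iff, mul_smul, ← e, inv_smul_smul]⟩
    have cx : x * τ = τ * x := (TN hτ).2 x (mem_zpowers x)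
    have e1 : x⁻¹ * (y⁻¹ * x * y) = ⁅x⁻¹, (τ⁻¹ * y)⁻¹⁆ := by
      rw [commutatorElement_def]
      calc x⁻¹ * (y⁻¹ * x * y) = x⁻¹ * y⁻¹ * (x * τ) * τ⁻¹ * y := by group
        _ = _ := by rw [cx]; group
    have : x⁻¹ * (y⁻¹ * x * y) = 1 := mem_bot.1 (PK ▸ mem_inf.2 ⟨mul_mem (inv_mem hx) m,
      e1 ▸ S.der W (commutator_mem_commutator (inv_mem (PD hx)) (inv_mem dD))⟩)
    refine mem_cent1.2 ?_
    calc y * x = y * (x * (x⁻¹ * (y⁻¹ * x * y))) := by rw [this, mul_one]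
      _ = x * y := by group
  obtain ⟨x, hx, o⟩ := exists_mem_orderOf_eq hl (prime_dvd_card_of_isPGroup hl pP P0)
  have PN : P ≤ N := hP.le.trans inf_le_left
  have sy : IsPiHallOf {l} P N := by
    obtain ⟨T, pT, TN, tr⟩ := g x (PD hx) (o ▸ hl)
    rw [cent_zpowers] at TN
    have PY : P ≤ N ⊓ C1[x] := le_inf PN fun y hy => mem_cent1.2 (cP hy x hx).symm
    have h1 : IsPiHallOf {l} P (stabilizer G b ⊓ (N ⊓ C1[x])) := hP.of_le (le_inf (PD.trans inf_le_right) PY)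
      (le_inf (inf_le_right.trans inf_le_left) (le_inf ((inf_le_right.trans inf_le_left).trans NH) inf_le_left))
    refine syl_of_norm_le hl (syl_trans hl h1 inf_le_right fun h => ?_) PN (le_inf inf_le_left (c1 x hx (o ▸ hl)))
    have e : orbit ↥(N ⊓ C1[x]) b = orbit T b := by
      ext c
      constructor
      · rintro ⟨y, rfl⟩
        obtain ⟨τ, hτ, e⟩ := tr ((y : G) • b)
          (fun e => S.ne.symm (smul_left_cancel (y : G) (e.trans (NH y.2.1).symm)))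
          (zpowers_le.2 (by
            rw [mem_stabilizer_iff, ← mul_smul, ← mem_cent1.1 y.2.2, mul_smul, show x • b = b from (PD hx).2]))
        exact ⟨⟨τ, hτ⟩, e⟩
      · rintro ⟨y, rfl⟩
        exact ⟨⟨y, TN y.2⟩, rfl⟩
    rw [inf_relIndex_right, idx_orbit, e, ← idx_orbit] at h
    obtain ⟨n, en⟩ := IsPGroup.iff_card.1 pT
    have h3 := (Nat.prime_dvd_prime_iff_eq hl Nat.prime_two).1
      (hl.dvd_of_dvd_pow (en ▸ h.trans (relIndex_dvd_card' _ _)))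
    have h4 := Odd.of_dvd_nat S.oD (dv.trans (card_dvd_of_le inf_le_right))
    rw [h3] at h4
    exact absurd h4 (by decide)
  have h5 : IsPiHallOf {l} P (N ⊓ N[P]) := sy.of_le (le_inf PN le_normalizer) inf_le_left
  obtain ⟨Z, hZ⟩ := h5.exists_sdprod inf_le_right
  have ZL : Z ≤ N ⊓ N[P] := hZ.right_le
  have cZ : Z ≤ C[P] := coprime_comm_le_cent_of_prime_order (comm_iff_le_cent.2 cP) (ZL.trans inf_le_right)
    (hZ.relIndex ▸ h5.coprime) fun x hx hp => mem_cent_iff_le_cent1.2 (ZL.trans (c1 x hx hp))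
  have B := Burnside_normal_complement hl sy (hZ.sup_eq ▸ sup_le cP cZ)
  refine ⟨piCoreOf {l}ᶜ N, lt_of_le_of_ne (piCoreOf_le _ _) fun e => ?_, le_norm_piCoreOf nN,
    B.sup_eq.ge.trans (sup_le_sup_left hP.le _)⟩
  have := B.inf_eq
  rw [e, inf_eq_right.2 PN] at this
  exact P0 this

theorem p3
    (s1 : ∀ (l : ℕ) (X : Subgroup G), l.Prime → IsPGroup l X → X ≠ ⊥ → X ≤ 𝐃 → Nat.card ↥(A ⊓ C[X]) ≠ 2 →
      Good a b 𝐇 X)
    (fu : ∀ N : Subgroup G, N ≤ 𝐇 → 𝐇 ≤ N[N] → N ⊓ 𝐃 ≠ ⊥ →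
      (∀ (l : ℕ) (X : Subgroup G), l.Prime → IsPGroup l X → X ≠ ⊥ → X ≤ N ⊓ 𝐃 → Good a b N X) →
      ∃ N', N' < N ∧ 𝐇 ≤ N[N'] ∧ N ≤ N' ⊔ (N ⊓ 𝐃)) :
    𝐇 ≤ (𝐇 ⊓ C[A]) ⊔ 𝐃 ∨ ((∀ d ∈ 𝐃, d ∉ K → ∀ k ∈ K, Commute d k → k = 1) ∧
      ∃ e, Nat.card ↥𝐃 = Nat.card K * e ∧ Nat.card A = 2 ^ e) := by
  by_cases ex : ∃ x ∈ 𝐃, (orderOf x).Prime ∧ Nat.card ↥(A ⊓ C[zpowers x]) = 2
  · obtain ⟨x, hx, hp, h2⟩ := ex
    exact Or.inr (S.exc W hx hp h2)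
  push Not at ex
  obtain ⟨N, NH, nN, e, le, nil⟩ := S.nc le_rfl le_normalizer fun N NH nN le e => by
    by_cases h : ∃ l, l.Prime ∧ l ∣ Nat.card ↥(N ⊓ 𝐃) ∧ ¬ l ∣ Nat.card K
    · obtain ⟨l, hl, dv, nd⟩ := h
      exact S.bur W NH nN hl dv nd fun x hx hp => (s1 _ _ hp
        (isPGroup_of_card_eq_prime (Nat.card_zpowers x)) (ne_bot_of_card_prime (by rwa [Nat.card_zpowers]))
        (zpowers_le.2 hx) (ex x hx hp)).of_le S.oD nN le
    · push Not at h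
      exact fu N NH nN e fun l X hl pX X0 XN => (s1 l X hl pX X0 (XN.trans inf_le_right) (S.ne2 hl
        (h l hl ((prime_dvd_card_of_isPGroup hl pX X0).trans (card_dvd_of_le XN))) pX
        (XN.trans inf_le_right))).of_le S.oD nN le
  have AN := two_le S.oD nN le S.pA S.AH
  obtain ⟨s, hs, s1⟩ := (bot_or_exists_ne_one _).resolve_left (inf_cent_ne_bot_of_nilpotent nil AN
    (NH.trans S.nA) fun e => by have := S.four; rw [e, card_bot] at this; omega)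
  exact Or.inl (le.trans (sup_le_sup (le_inf NH (S.centA ((S.KD.trans inf_le_left).trans nN) hs.1 s1 hs.2))
    inf_le_right))

end Cfsg.Agent.SE.Sd
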