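import Cfsg.Agent.SE.PC3
import Cfsg.Agent.SE.Q3b
import Cfsg.Agent.SE.PK3
import Cfsg.Agent.SE.PA
import Cfsg.Agent.SE.PB3
import Cfsg.Agent.SE.Ind
import Cfsg.Agent.SE.G2F

/-! Strongly embedded subgroups: the case with commuting involutions, assembled. -/

set_option autoImplicit false

namespace Cfsg.Agent.SE

universe u

theorem pC : PC.{u} := PC.pC_of
  (fun _ _ _ _ _ _ _ _ _ _ S W => S.sd.p3 W
    (fun l X hl hX X1 XD c2 => Good.mono (S.s1 l X hl hX X1 XD c2) inf_le_left)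
    fun _ => PB.fu S.tw.toTw1 S.ne)
  fun _ _ _ _ _ _ _ _ _ _ S _ hV he => S.sd.pK hV he

theorem t5 : T5.{u} := t5_of pA1 pA2 (pB (pSub pA1 pA2)) pC

theorem tz (ni : PNI.{u}) : TZ.{u} := tz_of pA1 t5 ni pG2

end Cfsg.Agent.SE
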