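import Cfsg.Agent.SE.ST1

/-! Involutions in a group generated by two quadratic elements. -/

set_option autoImplicit false
set_option linter.unusedVariables false

namespace Cfsg.Agent.SE.Q1b

open Cfsg Subgroup Cfsg.Agent.GT Cfsg.Agent.GW

universe u

theorem ring_q {R L : Type*} [Ring R] [Group L] [Finite L] (ρ : L →* R) {x y g : L} (ha : (ρ x - 1) * (ρ x - 1) = 0)
    (hb : (ρ y - 1) * (ρ y - 1) = 0) (hg : g ∈ closure ({x, y} : Set L)) : Commute (ρ g + ρ g⁻¹) (ρ x) := by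
  obtain ⟨a, ea⟩ : ∃ a, ρ x = 1 + a := ⟨ρ x - 1, by abel⟩
  obtain ⟨b, eb⟩ : ∃ b, ρ y = 1 + b := ⟨ρ y - 1, by abel⟩
  rw [ea, add_sub_cancel_left] at ha
  rw [eb, add_sub_cancel_left] at hb
  have iv : ∀ (z : L) (c : R), ρ z = 1 + c → c * c = 0 → ρ z⁻¹ = 1 - c := fun z c e h => by
    have : ρ z⁻¹ * (ρ z * (1 - c)) = 1 - c := by rw [← mul_assoc, ← map_mul, inv_mul_cancel, map_one, one_mul]
    rw [← this, e, show (1 + c) * (1 - c) = 1 by linear_combination (norm := noncomm_ring) -h, mul_one]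
  let Z := Subring.centralizer ({a, b} : Set R)
  have za : ∀ z ∈ Z, a * z = z * a := fun z hz => hz a (by simp)
  have zb : ∀ z ∈ Z, b * z = z * b := fun z hz => hz b (by simp)
  have τ : a * b + b * a ∈ Z := by
    rintro _ (rfl | rfl)
    · linear_combination (norm := noncomm_ring) ha * b - b * ha
    · linear_combination (norm := noncomm_ring) hb * a - a * hb
  let P : L → Prop := fun g => ∃ z0 ∈ Z, ∃ z1 ∈ Z, ∃ z2 ∈ Z, ∃ z3 ∈ Z,
    ρ g = z0 + z1 * a + z2 * b + z3 * (a * b) ∧ ρ g⁻¹ = z0 - z1 * a - z2 * b + z3 * (b * a)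
  have st : ∀ z ∈ ({x, y} : Set L), ∀ g, P g → P (g * z) := by
    rintro z (rfl | rfl) g ⟨z0, h0, z1, h1, z2, h2, z3, h3, e, e'⟩
    · refine ⟨_, add_mem h0 (mul_mem h2 τ), _, add_mem (add_mem h1 h0) (mul_mem h3 τ), _, h2, _, sub_mem h3 h2, ?_, ?_⟩
      · rw [map_mul, e, ea]
        linear_combination (norm := noncomm_ring) z1 * ha - z3 * b * ha
      · rw [mul_inv_rev, map_mul, e', iv _ _ ea ha]
        linear_combination (norm := noncomm_ring) -za _ h0 + za _ h1 * a + z1 * ha + za _ h2 * b - za _ h3 * (b * a) +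
          z3 * b * ha
    · refine ⟨_, h0, _, h1, _, add_mem h2 h0, _, add_mem h3 h1, ?_, ?_⟩
      · rw [map_mul, e, eb]
        linear_combination (norm := noncomm_ring) z2 * hb + z3 * a * hb
      · rw [mul_inv_rev, map_mul, e', iv _ _ eb hb]
        linear_combination (norm := noncomm_ring) -zb _ h0 + zb _ h1 * a + zb _ h2 * b + z2 * hb - zb _ h3 * (b * a) -
          z3 * hb * a
  have k : P g := by
    induction hg using closure_induction_right with
    | one => exact ⟨1, one_mem _, 0, zero_mem _, 0, zero_mem _, 0, zero_mem _, by simp, by simp⟩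
    | mul_right g _ z hz ih => exact st z hz g ih
    | mul_inv_cancel g _ z hz ih =>
      have : ∀ n : ℕ, P (g * z ^ n) := fun n => by
        induction n with
        | zero => simpa using ih
        | succ n h => rw [pow_succ, ← mul_assoc]; exact st z hz _ h
      rw [show z⁻¹ = z ^ (orderOf z - 1) from inv_eq_of_mul_eq_one_left (by
        rw [← pow_succ, Nat.sub_add_cancel (orderOf_pos z), pow_orderOf_eq_one])]
      exact this _
  obtain ⟨z0, h0, z1, h1, z2, h2, z3, h3, e, e'⟩ := k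
  rw [show ρ g + ρ g⁻¹ = z0 + z0 + z3 * (a * b + b * a) by rw [e, e']; noncomm_ring, ea]
  exact (Commute.one_right _).add_right (za _ (add_mem (add_mem h0 h0) (mul_mem h3 τ))).symm

theorem pQ1 : PQ1.{u} := by
  intro G _ _ p hp p2 E pE cE x y u hx hy qx qy hu u2
  have hq : ∀ z (hz : z ∈ N[E]), ⁅E, zpowers z⁆ ≤ C1[z] → (conjEnd E ⟨z, hz⟩ - 1) * (conjEnd E ⟨z, hz⟩ - 1) = 0 :=
    fun z hz hq => LinearMap.ext fun v => by
      rw [Module.End.mul_apply, LinearMap.sub_apply, LinearMap.zero_apply, sub_eq_zero]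
      refine (conjEnd_apply_eq_iff E ⟨z, hz⟩ _).2 (hq ?_)
      rw [commutator_comm, LinearMap.sub_apply, AbV.val_sub]
      exact commutator_mem_commutator (mem_zpowers z) v.val_mem
  have un : u ∈ N[E] := V_le hx hy hu
  have m : (⟨u, un⟩ : N[E]) ∈ closure ({⟨x, hx⟩, ⟨y, hy⟩} : Set N[E]) := by
    rw [← mem_map_iff_mem (N[E]).subtype_injective]
    have h1 : x ∈ (closure ({⟨x, hx⟩, ⟨y, hy⟩} : Set N[E])).map (N[E]).subtype :=
      ⟨⟨x, hx⟩, subset_closure (by simp), rfl⟩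
    have h2 : y ∈ (closure ({⟨x, hx⟩, ⟨y, hy⟩} : Set N[E])).map (N[E]).subtype :=
      ⟨⟨y, hy⟩, subset_closure (by simp), rfl⟩
    exact V_le h1 h2 hu
  have c := ring_q (conjEnd E) (hq x hx qx) (hq y hy qy) m
  have k1 : ∀ g : N[E], (g : G) ∈ C[E] → conjEnd E g = 1 := fun g hg => LinearMap.ext fun v =>
    (conjEnd_apply_eq_iff E g v).2 (mem_cent1.2 (hg _ v.val_mem))
  have e : conjEnd E (⟨u, un⟩ : N[E])⁻¹ = conjEnd E ⟨u, un⟩ := by
    rw [← mul_one (conjEnd E _), ← k1 (⟨u, un⟩ * ⟨u, un⟩) u2, ← map_mul, inv_mul_cancel_left]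
  rw [e] at c
  have c' : conjEnd E ⟨u, un⟩ * conjEnd E ⟨x, hx⟩ = conjEnd E ⟨x, hx⟩ * conjEnd E ⟨u, un⟩ := LinearMap.ext fun v => by
    have := LinearMap.congr_fun c.eq v
    rw [add_mul, mul_add, LinearMap.add_apply, LinearMap.add_apply, ← sub_eq_zero, add_sub_add_comm] at this
    rw [← sub_eq_zero]
    refine AbV.val_injective (eq1_of_odd (odd_ord (odd_p hp p2 pE) (AbV.val_mem _)) ?_)
    exact congrArg AbV.val this
  intro v hv
  have : conjEnd E (⟨u, un⟩ * ⟨x, hx⟩ * (⟨u, un⟩ : N[E])⁻¹ * (⟨x, hx⟩ : N[E])⁻¹) = 1 := by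
    rw [map_mul, map_mul, map_mul, c', ← map_mul, ← map_mul, ← map_mul, mul_inv_cancel_right, mul_inv_cancel, map_one]
  exact mem_cent1.1 ((conjEnd_apply_eq_iff E _ (AbV.mk v hv)).1 (by rw [this]; rfl))

end Cfsg.Agent.SE.Q1b
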