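import Cfsg.Agent.SE.Def
import Cfsg.Agent.WA.SB1
import Cfsg.Agent.WA.B1A

/-! Strongly embedded subgroups, PB (A): involutions of a point stabiliser centralise its odd core. -/

set_option autoImplicit false
set_option linter.unusedSectionVars false
set_option linter.unusedVariables false

namespace Cfsg.Agent.SE.PB

open Cfsg Subgroup MulAction Cfsg.Agent.GT Cfsg.Agent.Cls Cfsg.Agent.GW Cfsg.Agent.WA

universe u

variable {G Ω : Type u} [Group G] [Finite G] [MulAction G Ω] {a b c d : Ω} {s s' t v x y g : G}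
  {P Q S X Y M : Subgroup G} {l p : ℕ}

theorem root (o : Odd (orderOf x)) (h : x * x ∈ X) : x ∈ X := by
  obtain ⟨j, o⟩ := o
  rw [show x = (x * x) ^ (j + 1) by
    rw [← sq, ← pow_mul, show 2 * (j + 1) = 2 * j + 1 + 1 by ring, pow_succ, ← o, pow_orderOf_eq_one, one_mul]]
  exact pow_mem h _

theorem cj_fix (ha : s • a = a) (g : G) : (g * s * g⁻¹) • g • a = g • a := by
  rw [mul_smul, inv_smul_smul, mul_smul, ha]

section
variable (h : Tw1 G Ω)
include h

theorem uniq (hs : orderOf s = 2) (ha : s • a = a) (hb : s • b = b) : a = b := (h.ac.fix s hs).unique ha hb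

theorem comm_fix (hs : orderOf s = 2) (ha : s • a = a) (c : Commute x s) : x • a = a :=
  uniq h hs (by rw [← mul_smul, ← c.eq, mul_smul, ha]) ha

theorem cent_le (hs : orderOf s = 2) (ha : s • a = a) : C1[s] ≤ stabilizer G a :=
  fun x hx => comm_fix h hs ha (mem_cent1.1 hx)

theorem idx_swap (ne : a ≠ b) (ht : orderOf t = 2) (ta : t • a = b) (tb : t • b = a) (tc : t • c = c) :
    (C1[t]).relIndex (stabilizer G a ⊓ stabilizer G b) = (C1[t]).relIndex (stabilizer G c) := by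
  obtain ⟨g, rfl⟩ := h.ac.tr a c
  have o := ord2_conj ht g⁻¹
  have e : (g⁻¹ * t * g⁻¹⁻¹) • a = a := by rw [inv_inv, mul_smul, mul_smul, tc, inv_smul_smul]
  rw [← sb_inv (h.odd a b ne) ht (sb_swap_norm ta tb), ← relIndex_conj g⁻¹, conj_cent1, sb_conj_st, inv_smul_smul]
  generalize g⁻¹ * t * g⁻¹⁻¹ = z at o e
  refine sb_card (fun i => (i : G)) (fun i => i.2.1.1) (fun i j k => Subtype.ext ?_) fun x hx => ?_
  · have ja : (j : G) ∈ stabilizer G a := j.2.1.1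
    refine (h.kk a b t _ _ ne ht ta tb o (ord2_conj o j) e (mul_mem (mul_mem ja e) (inv_mem ja))).unique
      ⟨i.2.1.1, i.2.1.2, by simpa only [inv2 ht] using i.2.2, ?_⟩
      ⟨ja, j.2.1.2, by simpa only [inv2 ht] using j.2.2, rfl⟩
    nth_rw 1 [← TT.commute_iff_conj.1 (mem_cent1.1 k)]; group
  · obtain ⟨k, ⟨k1, k2, k3, k4⟩, -⟩ := h.kk a b t _ _ ne ht ta tb o (ord2_conj o x) e
      (mul_mem (mul_mem hx e) (inv_mem hx))
    refine ⟨⟨k, ⟨k1, k2⟩, by rwa [inv2 ht]⟩, mem_cent1.2 (TT.commute_iff_conj.2 ?_)⟩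
    rw [show k⁻¹ * x * z * (k⁻¹ * x)⁻¹ = k⁻¹ * (x * z * x⁻¹) * k by group, ← k4]; group

end

variable (h : Tw2 G Ω) (fa : Fa G Ω)
include h

/-- elements of odd order inverted by an involution of `G_c` lie in `O(G_c)` -/
theorem inv_mem_O (ht : orderOf t = 2) (tc : t • c = c) (hx : x ∈ stabilizer G c) (o : Odd (orderOf x))
    (e : t * x * t⁻¹ = x⁻¹) : x ∈ O[stabilizer G c] := by
  by_cases x1 : t * x = 1
  · have : x = t := by rw [← inv2 ht]; exact eq_inv_of_mul_eq_one_right x1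
    rw [this, ht] at o
    exact absurd o (by decide)
  have o2 : orderOf (t * x) = 2 := ord2 (by
    rw [inv2 ht] at e; rw [← mul_assoc, e, inv_mul_cancel]) x1
  have := h.cl c t (t * x) ht o2 tc (mul_mem tc hx)
  refine root o ?_
  rwa [← mul_assoc t t, sq1 ht, one_mul, mul_assoc x t, ← mul_assoc t t, sq1 ht, one_mul] at this

include fa

theorem only (n : stabilizer G c ≤ N[M]) (ne : M ≠ ⊥) (hc : M ≤ stabilizer G c) (hd : M ≤ stabilizer G d) :
    d = c := by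
  by_contra e
  refine ne (eq_bot_iff.2 fun x hx => mem_bot.2 (fa x fun a => ?_))
  by_cases ac : a = c
  · exact ac ▸ hc hx
  obtain ⟨g, gc, rfl⟩ := h.two c d a e ac
  exact sb_fixN hd (n gc) hx

theorem nM (c : Ω) (p : ℕ) : stabilizer G c ≤ N[piCoreOf {p} O[stabilizer G c]] := le_norm_piCoreOf (O_norm _)

theorem leM (c : Ω) (p : ℕ) : piCoreOf {p} O[stabilizer G c] ≤ stabilizer G c := (piCoreOf_le _ _).trans (O_le _)

theorem syl_fix (hp : p.Prime) (ne : piCoreOf {p} O[stabilizer G c] ≠ ⊥) (hY : IsPiHallOf {p} Y ⊤) :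
    ∃! d : Ω, Y ≤ stabilizer G d := by
  obtain ⟨P, hP, le⟩ := exists_syl_ge hp (piCoreOf_isPGroup hp _) (leM h fa c p)
  have u : ∀ d, P ≤ stabilizer G d → d = c := fun d hd => only h fa (nM h fa c p) ne (leM h fa c p) (le.trans hd)
  have hP' := syl_top_of_norm_le hp hP fun g hg => u _ (sb_fixN hP.le hg)
  obtain ⟨g, -, rfl⟩ := syl_exists_conj hp hP' hY
  refine ⟨g • c, sb_fix hP.le g, fun d hd => ?_⟩
  rw [← u (g⁻¹ • d) (by simpa using sb_fix hd g⁻¹), smul_inv_smul]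

theorem inv_le (hp : p.Prime) (ne : piCoreOf {p} O[stabilizer G c] ≠ ⊥) (ht : orderOf t = 2) (tc : t • c = c)
    (hP : IsPGroup p P) (n : t ∈ N[P]) : P ≤ stabilizer G c := by
  have p2 : p ≠ 2 := by
    rintro rfl
    exact ne (card_eq_one.1 ((Nat.coprime_self _).1
      (cop2' (odd_card_of_le (O_odd _) (piCoreOf_le _ _)) (piCoreOf_isPGroup hp _))))
  obtain ⟨Y, ⟨pY, nY⟩, le, mx⟩ := exists_maximal_ge (S := {Y | IsPGroup p Y ∧ t ∈ N[Y]}) ⟨hP, n⟩
  refine le.trans ?_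
  have oY := odd_p hp p2 pY
  by_cases e : ∃ s ∈ N[Y], orderOf s = 2 ∧ t ≠ s ∧ t * s = s * t
  · obtain ⟨s, hs, o, ne, cm⟩ := e
    exact h.four c t s Y ht o ne cm tc oY nY hs
  have z : ∀ g ∈ N[Y], t * (g * t * g⁻¹) ∈ O[N[Y]] := fun g hg => zstar_rel (sq1 ht) nY (fun g hg e' => by
    by_contra ne
    exact e ⟨_, mul_mem (mul_mem hg nY) (inv_mem hg), ord2_conj ht g, Ne.symm ne, e'⟩) hg
  obtain ⟨Y', hY', le'⟩ := exists_syl_ge hp pY (le_normalizer (H := Y))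
  have pY' := syl_isPGroup hp hY'
  have XN : O[N[Y]] ⊔ Y' ≤ N[Y] := sup_le (O_le _) hY'.le
  have oX : Odd (Nat.card ↥(O[N[Y]] ⊔ Y')) := odd_iff_pi.1 ((piCoreOf_isPi _ _).sup
    (odd_iff_pi.2 (odd_p hp p2 pY')) (Or.inr (hY'.le.trans (O_norm _))))
  have nX : t ∈ N[O[N[Y]] ⊔ Y'] := mem_normalizer_of_conj_le (conj_le_iff_forall.2 fun x hx => by
    rw [show t * x * t⁻¹ = t * (x * t * x⁻¹) * x by rw [inv2 ht]; group]
    exact mul_mem (mem_sup_left (z x (XN hx))) hx)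
  obtain ⟨Q, hQ, nQ, leQ⟩ := coprime_exists_syl_ge hp (.inl (solv_odd oX)) (zp_norm nX) (cop2 oX ht)
    (le'.trans le_sup_right) pY (zp_norm nY)
  obtain rfl := mx Q ⟨syl_isPGroup hp hQ, nQ (mem_zpowers t)⟩ leQ
  obtain rfl := syl_eq_of_le hp hQ pY' le_sup_right le'
  obtain ⟨d, hd, u⟩ := syl_fix h fa hp ne (syl_top_of_norm_le hp hY' le_rfl)
  rwa [uniq h.toTw1 ht tc (u _ (sb_fixN hd nY))]

theorem inv_eq1 (hp : p.Prime) (ht : orderOf t = 2) (tc : t • c = c)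
    (hx : x ∈ B85.Inv (piCoreOf {p} O[stabilizer G c]) t) : x = 1 := by
  by_cases ne0 : piCoreOf {p} O[stabilizer G c] = ⊥
  · exact mem_bot.1 (ne0 ▸ hx.1)
  refine fa x fun a => ?_
  by_cases ac : a = c
  · exact ac ▸ leM h fa c p hx.1
  have ne : a ≠ t • a := fun e => ac (uniq h.toTw1 ht e.symm tc)
  have tb : t • t • a = a := by rw [← mul_smul, sq1 ht, one_smul]
  have oD := h.odd _ _ ne
  obtain ⟨P, hP, n⟩ := coprime_exists_syl hp (.inl (solv_odd oD)) (zp_norm (sb_swap_norm rfl tb)) (cop2 oD ht)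
  have n := n (mem_zpowers t)
  have le := inv_le h fa hp ne0 ht tc (syl_isPGroup hp hP) n
  have oP := odd_card_of_le oD hP.le
  have nR : zpowers t ≤ N[O[stabilizer G c]] := zp_norm (O_norm _ tc)
  obtain ⟨Q, hQ, nQ, leQ⟩ := coprime_exists_syl_ge hp (.inl (O_solv _)) nR (cop2 (O_odd _) ht)
    (X := P ⊓ O[stabilizer G c]) inf_le_right ((syl_isPGroup hp hP).to_le inf_le_left) (le_norm_inf (zp_norm n) nR)
  have hC := coprime_syl_inf_cent hp (.inl (O_solv _)) nR (cop2 (O_odd _) ht) hQ nQ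
  rw [cent_zpowers] at hC
  have sub : B85.Inv P t ⊆ B85.Inv Q t := fun k hk =>
    ⟨leQ ⟨hk.1, inv_mem_O h ht tc (le hk.1) (odd_ord oP hk.1) hk.2⟩, hk.2⟩
  have pw : ∀ X : Subgroup G, IsPGroup p X → ∃ i, (C1[t]).relIndex X = p ^ i := fun X q => by
    have := Fact.mk hp
    obtain ⟨i, e⟩ := q.exists_card_eq
    exact ((Nat.dvd_prime_pow hp).1 (e ▸ relIndex_dvd_card' _ _)).imp fun _ k => k.2
  obtain ⟨j, ej⟩ := pw Q (syl_isPGroup hp hQ)
  have two : ∀ X Y : Subgroup G, X ≤ Y → (C1[t]).relIndex X * X.relIndex Y =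
      (X ⊓ C1[t]).relIndex (Y ⊓ C1[t]) * (C1[t]).relIndex Y := fun X Y le => by
    rw [← inf_relIndex_left X C1[t], ← inf_relIndex_left Y C1[t], relIndex_mul_relIndex _ _ _ inf_le_left le,
      relIndex_mul_relIndex _ _ _ (inf_le_inf_right _ le) inf_le_left]
  have d1 : p ^ j ∣ (C1[t]).relIndex O[stabilizer G c] := ((hp.coprime_iff_not_dvd.2 (syl_not_dvd hp hC)).pow_left
    j).dvd_of_dvd_mul_left ⟨_, by rw [← two _ _ hQ.le, ej]⟩
  have d2 : p ^ j ∣ (C1[t]).relIndex (stabilizer G c) := by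
    rw [← relIndex_mul_relIndex _ _ _ (le_sup_right (a := O[stabilizer G c]))
      (sup_le (O_le _) (cent_le h.toTw1 ht tc)), sup_comm,
      relIndex_sup_eq_of_norm_or (.inl ((cent_le h.toTw1 ht tc).trans (O_norm _)))]
    exact d1.mul_right _
  rw [← idx_swap h.toTw1 ne ht rfl tb tc] at d2
  have d3 := ((hp.coprime_iff_not_dvd.2 (syl_not_dvd hp hP)).pow_left j).dvd_of_dvd_mul_right
    (two _ _ hP.le ▸ d2.mul_left _)
  rw [← ej, ← sb_inv oP ht n, ← sb_inv (odd_card_of_le (O_odd _) hQ.le) ht (nQ (mem_zpowers t))] at d3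
  have e := Set.eq_of_subset_of_ncard_le sub (Nat.le_of_dvd (Set.ncard_pos (Set.toFinite _)|>.2
    ⟨1, one_mem _, by simp⟩) d3) (Set.toFinite _)
  have : x ∈ B85.Inv Q t := ⟨piCoreOf_le_hall hQ hx.1, hx.2⟩
  rw [← e] at this
  exact (hP.le this.1).1

/-- (A) -/
theorem R_le (ht : orderOf t = 2) (tc : t • c = c) : O[stabilizer G c] ≤ C1[t] := by
  have F : fittingOf O[stabilizer G c] ≤ C1[t] := fittingOf_le_of_forall_piCoreOf fun p hp y hy => by
    obtain ⟨i, hi, e⟩ := B85.dec (odd_card_of_le (O_odd _) (piCoreOf_le _ _)) (sq1 ht) (nM h fa c p tc) hy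
    rw [inv_eq1 h fa hp ht tc hi, inv_one, one_mul] at e
    exact mem_cent1.2 e
  rw [← cent_zpowers] at F ⊢
  exact le_cent_symm (coprime_le_cent_of_le_cent_fittingOf (O_solv _) (zp_norm (O_norm _ tc)) (cop2 (O_odd _) ht)
    (le_cent_symm F))

theorem comm (hs : orderOf s = 2) (hs' : orderOf s' = 2) (sc : s • c = c) (sc' : s' • c = c) :
    s * s' = s' * s := by
  have m := h.cl c s s' hs hs' sc sc'
  have := eq1_of_inv_fix (odd_ord (O_odd _) m) (t := s) (by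
    simp only [mul_inv_rev, inv2 hs, inv2 hs', ← mul_assoc, sq1 hs, one_mul]) (R_le h fa hs sc m)
  calc s * s' = (s * s' * s * s') * (s' * s) := by
        rw [mul_assoc _ s', ← mul_assoc s', sq1 hs', one_mul, mul_assoc _ s s, sq1 hs, mul_one]
    _ = _ := by rw [this, one_mul]

end Cfsg.Agent.SE.PB
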