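import Cfsg.Agent.SE.PA
import Cfsg.Agent.SE.Ind
import Cfsg.Agent.SE.PB1
import Cfsg.Agent.Cls.GThompson

/-! Strongly embedded subgroups: if `O(G_a) ≠ 1`, Lemma A implies `Cl2`. -/

set_option autoImplicit false
set_option linter.unusedSectionVars false
set_option linter.unusedVariables false

namespace Cfsg.Agent.SE.PG

open Cfsg Subgroup MulAction Cfsg.Agent.GT Cfsg.Agent.Cls Cfsg.Agent.GW Cfsg.Agent.WA

universe u

variable {G Ω : Type u} [Group G] [Finite G] [MulAction G Ω] {a b c d : Ω} {s s' t v x y k g : G}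
  {P Q S X Y M N : Subgroup G} {l p : ℕ}

variable (w : Tw1 G Ω)
include w

theorem two_inv (c : Ω) : ∃ s s' : G, orderOf s = 2 ∧ orderOf s' = 2 ∧ s ≠ s' ∧ s * s' = s' * s ∧
    s • c = c ∧ s' • c = c := by
  obtain ⟨s, s', o, o', ne, cm⟩ := w.ac.rk
  obtain ⟨e, he, -⟩ := w.ac.fix s o
  obtain ⟨g, rfl⟩ := w.ac.tr e c
  refine ⟨_, _, ord2_conj o g, ord2_conj o' g, fun e => ne (by simpa using e), ?_, PB.cj_fix he g,
    PB.cj_fix (PB.comm_fix w o he cm.symm) g⟩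
  calc _ = g * (s * s') * g⁻¹ := by group
    _ = _ := by rw [cm]; group

theorem swap (ne : a ≠ b) : ∃ t : G, orderOf t = 2 ∧ t • a = b ∧ t • b = a := w.ac.ac.swap ne

theorem idx (ne : a ≠ b) (ht : orderOf t = 2) (ta : t • a = b) (tb : t • b = a) (o : orderOf s = 2) (e : s • a = a)
    (le : stabilizer G a ⊓ stabilizer G b ≤ X) (le' : X ≤ stabilizer G a) :
    Nat.card (B85.Inv (stabilizer G a ⊓ stabilizer G b) t) = (C1[s]).relIndex X := by
  refine sb_card (fun i => (i : G)) (fun i => le i.2.1) (fun i j k => Subtype.ext ?_) fun x hx => ?_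
  · have ja : (j : G) ∈ stabilizer G a := j.2.1.1
    refine (w.kk a b t _ _ ne ht ta tb o (ord2_conj o j) e (mul_mem (mul_mem ja e) (inv_mem ja))).unique
      ⟨i.2.1.1, i.2.1.2, by simpa only [inv2 ht] using i.2.2, ?_⟩
      ⟨ja, j.2.1.2, by simpa only [inv2 ht] using j.2.2, rfl⟩
    nth_rw 1 [← TT.commute_iff_conj.1 (mem_cent1.1 k)]; group
  · have hx := le' hx
    obtain ⟨k, ⟨k1, k2, k3, k4⟩, -⟩ := w.kk a b t _ _ ne ht ta tb o (ord2_conj o x) e
      (mul_mem (mul_mem hx e) (inv_mem hx))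
    refine ⟨⟨k, ⟨k1, k2⟩, by rwa [inv2 ht]⟩, mem_cent1.2 (TT.commute_iff_conj.2 ?_)⟩
    rw [show k⁻¹ * x * s * (k⁻¹ * x)⁻¹ = k⁻¹ * (x * s * x⁻¹) * k by group, ← k4]; group

theorem idx' (ne : a ≠ b) (o : orderOf s = 2) (e : s • a = a) (o' : orderOf s' = 2) (e' : s' • a = a) :
    (C1[s']).relIndex (stabilizer G a ⊓ stabilizer G b) = (C1[s]).relIndex (stabilizer G a) := by
  obtain ⟨t, ht, ta, tb⟩ := swap w ne
  rw [← idx w ne ht ta tb o' e' le_rfl inf_le_left, idx w ne ht ta tb o e inf_le_left le_rfl]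

/-- a non-trivial element of `D` inverted by the swapper -/
theorem exK (ne : a ≠ b) (ht : orderOf t = 2) (ta : t • a = b) (tb : t • b = a) :
    ∃ k ∈ B85.Inv (stabilizer G a ⊓ stabilizer G b) t, k ≠ 1 := by
  obtain ⟨s, s', o, o', ss, -, sa, sa'⟩ := two_inv w a
  obtain ⟨k, ⟨k1, k2, k3, k4⟩, -⟩ := w.kk a b t _ _ ne ht ta tb o o' sa sa'
  exact ⟨k, ⟨⟨k1, k2⟩, by rwa [inv2 ht]⟩, fun e => ss (by simpa [e] using k4)⟩

/-- inverted elements centralise no involution of `G_a` -/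
theorem K_free (ne : a ≠ b) (ht : orderOf t = 2) (ta : t • a = b) (tb : t • b = a)
    (hk : k ∈ B85.Inv (stabilizer G a ⊓ stabilizer G b) t) (o : orderOf s = 2) (e : s • a = a)
    (cm : k * s = s * k) : k = 1 :=
  (w.kk a b t s s ne ht ta tb o o e e).unique
    ⟨hk.1.1, hk.1.2, by simpa only [inv2 ht] using hk.2, by rw [cm]; group⟩
    ⟨one_smul _ _, one_smul _ _, by simpa using sq1 ht, by group⟩

theorem idx_ne (o : orderOf s = 2) (e : s • a = a) : (C1[s]).relIndex (stabilizer G a) ≠ 1 := fun h => by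
  have := w.ac.nt
  obtain ⟨b, hb⟩ := exists_ne a
  obtain ⟨t, ht, ta, tb⟩ := swap w hb.symm
  obtain ⟨k, hk, k1⟩ := exK w hb.symm ht ta tb
  exact k1 (K_free w hb.symm ht ta tb hk o e (mem_cent1.1 (relIndex_eq_one.1 h hk.1.1)))

variable (la : ∀ (l : ℕ) (Y : Subgroup G) (a b c : Ω), l.Prime → IsPGroup l Y → a ≠ b → a ≠ c → b ≠ c →
  Y ≤ stabilizer G a → Y ≤ stabilizer G b → Y ≤ stabilizer G c → ∃ s ∈ C[Y], orderOf s = 2 ∧ s • a = a)
include la

theorem syl (ne : a ≠ b) (o : orderOf s = 2) (e : s • a = a) (hl : l.Prime)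
    (dv : l ∣ (C1[s]).relIndex (stabilizer G a)) (hP : IsPiHallOf {l} P (stabilizer G a ⊓ stabilizer G b)) :
    (∀ c : Ω, P ≤ stabilizer G c → c = a ∨ c = b) ∧ IsPiHallOf {l} P (stabilizer G a) := by
  have f : ∀ c : Ω, P ≤ stabilizer G c → c = a ∨ c = b := fun c hc => by
    by_contra n
    push Not at n
    obtain ⟨v, hv, ov, va⟩ := la l P a b c hl (syl_isPGroup hl hP) ne n.1.symm n.2.symm (hP.le.trans inf_le_left)
      (hP.le.trans inf_le_right) hc
    refine syl_not_dvd hl hP (dv.trans ?_)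
    rw [← idx' w ne o e ov va]
    exact relIndex_dvd_of_le_left _ fun x hx => mem_cent1.2 (hv x hx)
  refine ⟨f, syl_of_norm_le hl hP (hP.le.trans inf_le_left) fun g hg => ⟨hg.1, ?_⟩⟩
  rcases f _ (sb_fixN (hP.le.trans inf_le_right) hg.2) with h | h
  · exact absurd (smul_left_cancel g (h.trans (show g • a = a from hg.1).symm)) ne.symm
  · exact h

/-- double transitivity -/
theorem two (nb : b ≠ a) (nc : c ≠ a) : ∃ h : G, h • a = a ∧ h • b = c := by
  obtain ⟨s, -, o, -, -, -, e, -⟩ := two_inv w a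
  obtain ⟨l, hl, dv⟩ := Nat.exists_prime_and_dvd (idx_ne w o e)
  obtain ⟨P, hP⟩ := exists_syl hl (stabilizer G a ⊓ stabilizer G b)
  obtain ⟨Q, hQ⟩ := exists_syl hl (stabilizer G a ⊓ stabilizer G c)
  obtain ⟨f, hQ'⟩ := syl w la nc.symm o e hl dv hQ
  obtain ⟨g, hg, rfl⟩ := syl_exists_conj hl (syl w la nb.symm o e hl dv hP).2 hQ'
  rcases f _ (sb_fix (hP.le.trans inf_le_right) g) with h | h
  · exact absurd (smul_left_cancel g (h.trans (show g • a = a from hg).symm)) nb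
  · exact ⟨g, hg, h⟩

variable (fa : Fa G Ω)
include fa

theorem only (n : stabilizer G a ≤ N[M]) (ha : M ≤ stabilizer G a) (ne : a ≠ b) (hb : M ≤ stabilizer G b) :
    M = ⊥ := by
  refine eq_bot_iff.2 fun x hx => mem_bot.2 (fa x fun c => ?_)
  by_cases ac : c = a
  · exact ac ▸ ha hx
  obtain ⟨g, gc, rfl⟩ := two w la ne.symm ac
  exact sb_fixN hb (n gc) hx

variable (ih : ∀ (G' Ω' : Type u) [Group G'] [Finite G'] [MulAction G' Ω'], Nat.card G' < Nat.card G →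
  Ac2 G' Ω' → T0 G' Ω')
include ih

theorem key (hl : l.Prime) (hY : IsPGroup l Y) (Y1 : Y ≠ ⊥) (ne : a ≠ b) (na : a ≠ c) (nb : b ≠ c)
    (ha : Y ≤ stabilizer G a) (hb : Y ≤ stabilizer G b) (hc : Y ≤ stabilizer G c)
    (n : stabilizer G a ⊓ stabilizer G b ≤ N[Y]) : O[N[Y] ⊓ stabilizer G a] ≤ stabilizer G b := by
  obtain ⟨s1, h1, o1, e1⟩ := la l Y a b c hl hY ne na nb ha hb hc
  obtain ⟨s2, h2, o2, e2⟩ := la l Y b a c hl hY ne.symm nb na hb ha hc
  have h1 := cent_le_norm Y h1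
  obtain ⟨-, t, m, ht, -, ta, tb⟩ := w.mid a b s1 s2 ne o1 o2 e1 e2
  have m : t ∈ N[Y] := sup_le (zpowers_le.2 h1) (zpowers_le.2 (cent_le_norm Y h2)) m
  have all : ∀ s : G, orderOf s = 2 → s • a = a → s ∈ N[Y] := fun s o e => by
    obtain ⟨k, ⟨k1, k2, -, rfl⟩, -⟩ := w.kk a b t _ _ ne ht ta tb o1 o e1 e
    exact mul_mem (mul_mem (n ⟨k1, k2⟩) h1) (inv_mem (n ⟨k1, k2⟩))
  obtain ⟨s, s', o, o', ss, cm, sa, sa'⟩ := two_inv w a
  have nt : N[Y] ≠ ⊤ := fun e => Y1 (eq_bot_iff.2 fun x hx => mem_bot.2 (fa x fun d => by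
    obtain ⟨g, rfl⟩ := w.ac.tr a d
    exact sb_fixN ha (e ▸ mem_top g) hx))
  have := (ih _ _ (card_lt_of_ne_top nt) (w.sub (fun e => ne (ta ▸ (e m).symm)) (all s o sa) (all s' o' sa')
    o o' ss cm sa)).le m
  rwa [ta] at this

local notation3 "𝐌" => piCoreOf {p} O[stabilizer G a]

omit w la fa ih in
theorem nM : stabilizer G a ≤ N[𝐌] := le_norm_piCoreOf (O_norm _)

omit w la fa ih in
theorem leM : 𝐌 ≤ stabilizer G a := (piCoreOf_le _ _).trans (O_le _)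

omit w la fa ih in
theorem M_le : 𝐌 ⊓ N[Y] ≤ O[N[Y] ⊓ stabilizer G a] :=
  le_O (le_inf inf_le_right (inf_le_left.trans leM)) (le_norm_inf (inf_le_right.trans nM) (inf_le_left.trans le_normalizer))
    (odd_card_of_le (O_odd _) (inf_le_left.trans (piCoreOf_le _ _)))

theorem semi (hp : p.Prime) (ne : a ≠ b) : 𝐌 ⊓ stabilizer G b = ⊥ := by
  by_contra B1
  have lt : 𝐌 ⊓ stabilizer G b < 𝐌 := lt_of_le_of_ne inf_le_left fun e =>
    B1 (eq_bot_iff.2 (inf_le_left.trans (only w la fa nM leM ne (e ▸ inf_le_right)).le))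
  obtain ⟨x, hx, nx⟩ := SetLike.exists_of_lt (lt_inf_norm_of_isPGroup hp (piCoreOf_isPGroup hp _) lt)
  have xa : x • a = a := leM hx.1
  have nb : b ≠ x • b := fun e => nx ⟨hx.1, e.symm⟩
  exact nb (key w la fa ih hp ((piCoreOf_isPGroup hp _).to_le inf_le_left) B1 ne
    (fun e => ne (smul_left_cancel x (xa.trans e))) nb (inf_le_left.trans leM) inf_le_right
    (sb_fixN inf_le_right hx.2) (le_norm_inf (inf_le_left.trans nM) (inf_le_right.trans le_normalizer))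
    (M_le hx)).symm

theorem cent (hp : p.Prime) (o : orderOf s = 2) (e : s • a = a) : 𝐌 ≤ C1[s] := by
  have := w.ac.nt
  obtain ⟨b, hb⟩ := exists_ne a
  by_cases dv : p ∣ (C1[s]).relIndex (stabilizer G a)
  · obtain ⟨P, hP⟩ := exists_syl hp (stabilizer G a ⊓ stabilizer G b)
    have h := (syl w la hb.symm o e hp dv hP).2
    rw [only w la fa nM leM hb.symm ((le_syl_of_norm hp h (piCoreOf_isPGroup hp _) leM (h.le.trans nM)).trans
      (hP.le.trans inf_le_right))]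
    exact bot_le
  · obtain ⟨P, hP⟩ := exists_syl hp C1[s]
    have h := syl_trans hp hP (PB.cent_le w o e) dv
    exact (le_syl_of_norm hp h (piCoreOf_isPGroup hp _) leM (h.le.trans nM)).trans hP.le

theorem CD (hp : p.Prime) (M1 : 𝐌 ≠ ⊥) (ne : a ≠ b) : stabilizer G a ⊓ C[𝐌] ⊓ stabilizer G b = ⊥ := by
  by_contra X1
  have XD : stabilizer G a ⊓ C[𝐌] ⊓ stabilizer G b ≤ stabilizer G a ⊓ stabilizer G b := inf_le_inf_right _ inf_le_left
  obtain ⟨l, hl, Y1⟩ := exists_piCoreOf_single_ne_bot (solv_odd (odd_card_of_le (w.odd a b ne) XD)) X1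
  obtain ⟨Y, hY⟩ : ∃ Y, Y = piCoreOf {l} (stabilizer G a ⊓ C[𝐌] ⊓ stabilizer G b) := ⟨_, rfl⟩
  have YX : Y ≤ stabilizer G a ⊓ C[𝐌] ⊓ stabilizer G b := hY ▸ piCoreOf_le _ _
  have MN : 𝐌 ≤ N[Y] := le_norm_of_cent (le_cent_symm (YX.trans (inf_le_left.trans inf_le_right)))
  obtain ⟨x, hx, x1⟩ := exists_ne_one_of_ne_bot M1
  have xa : x • a = a := leM hx
  have nb : b ≠ x • b := fun e => x1 (mem_bot.1 (semi w la fa ih hp ne ▸ ⟨hx, e.symm⟩))
  exact nb (key w la fa ih hl (hY ▸ piCoreOf_isPGroup hl _) (hY ▸ Y1) ne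
    (fun e => ne (smul_left_cancel x (xa.trans e))) nb (YX.trans (XD.trans inf_le_left)) (YX.trans inf_le_right)
    (sb_fixN (YX.trans inf_le_right) (MN hx))
    (hY ▸ le_norm_piCoreOf (le_norm_inf (le_norm_inf (inf_le_left.trans le_normalizer)
      (inf_le_left.trans (le_norm_cent nM))) (inf_le_right.trans le_normalizer)))
    (M_le ⟨hx, MN hx⟩)).symm

theorem nil (hp : p.Prime) (M1 : 𝐌 ≠ ⊥) : Group.IsNilpotent ↥(stabilizer G a ⊓ C[𝐌]) := by
  have := w.ac.nt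
  obtain ⟨b, hb⟩ := exists_ne a
  have ne := hb.symm
  obtain ⟨t, ht, ta, tb⟩ := swap w ne
  obtain ⟨k, hk, k1⟩ := exK w ne ht ta tb
  have zp : ∀ x ∈ zpowers k, x ∈ B85.Inv (stabilizer G a ⊓ stabilizer G b) t := by
    rintro _ ⟨n, rfl⟩
    exact ⟨zpow_mem hk.1 n, by rw [← conj_zpow, hk.2, inv_zpow]⟩
  refine semiregular_nil (R := zpowers k) ((zpowers_le.2 hk.1.1).trans (le_norm_inf le_normalizer (le_norm_cent nM)))
    (by simpa using k1) fun x hx x1 => eq_bot_iff.2 fun y hy => ?_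
  obtain ⟨l, hl, dv⟩ := Nat.exists_prime_and_dvd (n := Nat.card (zpowers x)) (by simpa using x1)
  obtain ⟨z, hz, o⟩ := exists_mem_orderOf_eq hl dv
  have zi := zp z (zpowers_le.2 hx hz)
  have := Fact.mk hl
  have yz : y ∈ N[zpowers z] := le_norm_of_cent (A := C1[x]) (by
    rw [← cent_zpowers]; exact centralizer_le (by exact_mod_cast zpowers_le.2 hz)) hy.2
  have ya : y • a = a := hy.1.1
  rw [← CD w la fa ih hp M1 ne]
  refine ⟨hy.1, ?_⟩
  by_contra nb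
  obtain ⟨s, hs, os, sa⟩ := la l (zpowers z) a b (y • b) hl (isPGroup_of_card_eq_prime (by rw [Nat.card_zpowers, o])) ne
    (fun e => ne (smul_left_cancel y (ya.trans e))) (fun e => nb e.symm) (zpowers_le.2 zi.1.1) (zpowers_le.2 zi.1.2)
    (sb_fixN (zpowers_le.2 zi.1.2) yz)
  rw [K_free w ne ht ta tb zi os sa (hs z (mem_zpowers z)), orderOf_one] at o
  exact hl.one_lt.ne o

theorem pG (R : O[stabilizer G a] ≠ ⊥) : Cl2 G Ω := by
  obtain ⟨p, hp, M1⟩ := exists_piCoreOf_single_ne_bot (O_solv _) R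
  obtain ⟨s, -, o, -, -, -, e, -⟩ := two_inv w a
  have m : s ∈ stabilizer G a ⊓ C[piCoreOf {p} O[stabilizer G a]] :=
    ⟨e, fun x hx => mem_cent1.1 (cent w la fa ih hp o e hx)⟩
  refine cl2_iff.2 (w.ac.ac.cl_of (a := a) (X := piCoreOf {2} (stabilizer G a ⊓ C[piCoreOf {p} O[stabilizer G a]]))
    ((piCoreOf_le _ _).trans inf_le_left)
    (le_norm_sup (O_norm _) (le_norm_piCoreOf (le_norm_inf le_normalizer (le_norm_cent nM))))
    (piCoreOf_isPGroup Nat.prime_two _)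
    (piCoreOf_ne_bot_of_nil (nil w la fa ih hp M1) Nat.prime_two rfl (o.symm.dvd.trans (Subgroup.orderOf_dvd_natCard _ m))))

end Cfsg.Agent.SE.PG
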