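import Cfsg.Agent.SE.NA2
import Cfsg.Agent.SE.PG

/-! Strongly embedded subgroups: `O_p(G_a)` fixes a second point or is semiregular. -/

set_option autoImplicit false
set_option linter.unusedSectionVars false
set_option linter.unusedVariables false

namespace Cfsg.Agent.SE.TI

open Cfsg Subgroup MulAction Cfsg.Agent.GT Cfsg.Agent.Cls Cfsg.Agent.GW Cfsg.Agent.WA

universe u

variable {G Ω : Type u} [Group G] [Finite G] [MulAction G Ω] {a b c d : Ω} {s s' t v x y k g : G}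
  {P Q S X Y M N : Subgroup G} {l p : ℕ}

local notation3 "𝐌[" a "]" => piCoreOf {p} O[stabilizer G a]

theorem ex_norm (hp : p.Prime) (hM : IsPGroup p M) (hQ : IsPGroup p Q) (n : Q ≤ N[M]) (h : ¬ M ≤ Q) :
    ∃ x ∈ M, x ∈ N[Q] ∧ x ∉ Q := by
  obtain ⟨y, ⟨hy, ny⟩, yQ⟩ := SetLike.exists_of_lt (lt_inf_norm_of_isPGroup hp (hQ.to_sup_of_normal_right' hM n)
    (lt_of_le_of_ne le_sup_left fun e => h (e ▸ le_sup_right)))
  obtain ⟨q, hq, x, hx, rfl⟩ := (mem_sup_of_le_norm n).1 hy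
  exact ⟨x, hx, (mul_mem_cancel_left (le_normalizer hq)).1 ny, fun e => yQ (mul_mem hq e)⟩

theorem norm_ne (h : Ac2 G Ω) (fa : Fa G Ω) (Y1 : Y ≠ ⊥) (ha : Y ≤ stabilizer G a) : N[Y] ≠ ⊤ := fun e =>
  Y1 (eq_bot_iff.2 fun x hx => mem_bot.2 (fa x fun d => by
    obtain ⟨g, rfl⟩ := h.tr a d
    exact sb_fixN ha (e ▸ mem_top g) hx))

theorem all_inv (w : Tw1 G Ω) (ne : a ≠ b) (n : stabilizer G a ⊓ stabilizer G b ≤ N) (hv : v ∈ N)
    (ov : orderOf v = 2) (va : v • a = a) (o : orderOf s = 2) (e : s • a = a) : s ∈ N := by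
  obtain ⟨k, hk, rfl⟩ := w.ac.ac.tr_inv ne ov o va e
  exact mul_mem (mul_mem (n hk) hv) (inv_mem (n hk))

variable (m : Mc G Ω) (hp : p.Prime)
include m hp

/-- (P1) -/
theorem p1' (nt : IsCoatom N) (n : ¬ N ≤ stabilizer G c) (hs : s ∈ N) (hs' : s' ∈ N) (os : orderOf s = 2)
    (os' : orderOf s' = 2) (ne : s ≠ s') (cm : s * s' = s' * s) (sc : s • c = c) (h : N ⊓ 𝐌[c] ≠ ⊥) :
    𝐌[c] ≤ piCoreOf {p} O[N] := by
  obtain ⟨k, e⟩ := pSub0 G Ω m.tw m.ih N c s s' nt.1 n hs hs' os os' ne cm sc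
  have Oc : O[N] ≤ N ⊓ stabilizer G c := e ▸ O_le _
  have h1 : N ⊓ 𝐌[c] ≤ piCoreOf {p} O[N] := le_piCoreOf_single hp (by
    rw [← e, inf_comm N 𝐌[c]]
    exact le_O (le_inf inf_le_right (inf_le_left.trans PG.leM))
      (le_norm_inf (inf_le_right.trans PG.nM) (inf_le_left.trans le_normalizer))
      (odd_card_of_le (O_odd _) (inf_le_left.trans (piCoreOf_le _ _))))
    (Oc.trans (le_norm_inf (inf_le_left.trans le_normalizer) (inf_le_right.trans PG.nM)))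
    ((piCoreOf_isPGroup hp _).to_le inf_le_right)
  have Qc : piCoreOf {p} O[N] ≤ stabilizer G c := (piCoreOf_le _ _).trans (Oc.trans inf_le_right)
  have e2 : N[piCoreOf {p} O[N]] = N := ((nt.le_iff.1 (le_norm_piCoreOf (O_norm N))).resolve_left
    (norm_ne m.tw.ac m.fa (ne_bot_of_le h h1) Qc))
  by_contra nl
  obtain ⟨x, hx, nx, xQ⟩ := ex_norm hp (piCoreOf_isPGroup hp _) (piCoreOf_isPGroup hp _) (Qc.trans PG.nM) nl
  exact xQ (h1 ⟨e2 ▸ nx, hx⟩)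

theorem p1 (nt : N ≠ ⊤) (n : ¬ N ≤ stabilizer G c) (hs : s ∈ N) (hs' : s' ∈ N) (os : orderOf s = 2)
    (os' : orderOf s' = 2) (ne : s ≠ s') (cm : s * s' = s' * s) (sc : s • c = c) (h : N ⊓ 𝐌[c] ≠ ⊥) (hg : g ∈ N) :
    𝐌[c] ≤ stabilizer G (g • c) := by
  obtain ⟨N', co, le⟩ := exists_coatom_ge nt
  have n' : ¬ N' ≤ stabilizer G c := fun e => n (le.trans e)
  obtain ⟨k, e⟩ := pSub0 G Ω m.tw m.ih N' c s s' co.1 n' (le hs) (le hs') os os' ne cm sc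
  exact (p1' m hp co n' (le hs) (le hs') os os' ne cm sc (ne_bot_of_le h (inf_le_inf_right _ le))).trans
    ((piCoreOf_le _ _).trans (e ▸ k g (le hg)))

/-- (D) -/
theorem semi (I : ∀ a b : Ω, 𝐌[a] ≤ stabilizer G b → b = a) (ne : a ≠ b) : 𝐌[a] ⊓ stabilizer G b = ⊥ := by
  by_contra B1
  have w := m.tw
  have ne0 := ne
  obtain ⟨⟨B, a, b, ne, hB⟩, mx⟩ := @Finite.exists_max {X : Subgroup G // ∃ a b : Ω, a ≠ b ∧
    X = 𝐌[a] ⊓ stabilizer G b} ℕ _ ⟨⟨_, a, b, ne, rfl⟩⟩ _ fun X => Nat.card X.1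
  replace B1 : B ≠ ⊥ := fun e => B1 ((card_le_one_iff_eq_bot _).1 (by simpa [e] using mx ⟨_, _, _, ne0, rfl⟩))
  replace mx : ∀ d, d ≠ a → B ≤ stabilizer G d → 𝐌[a] ⊓ stabilizer G d = B := fun d nd hd =>
    (eq_of_le_of_card_ge (le_inf (hB ▸ inf_le_left) hd) (mx ⟨_, _, _, nd.symm, rfl⟩)).symm
  obtain ⟨t, ht, ta, tb⟩ := PG.swap w ne
  have pM : ∀ a : Ω, IsPGroup p 𝐌[a] := fun a => piCoreOf_isPGroup hp _
  have BD : B ≤ stabilizer G a ⊓ stabilizer G b := hB ▸ inf_le_inf_right _ PG.leM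
  have nB : stabilizer G a ⊓ stabilizer G b ≤ N[B] :=
    hB ▸ le_norm_inf (inf_le_left.trans PG.nM) (inf_le_right.trans le_normalizer)
  have nD := sb_swap_norm ta tb
  have BD' : cj[t] B ≤ stabilizer G a ⊓ stabilizer G b := conj_eq_self nD ▸ conj_mono t BD
  have nB' : stabilizer G a ⊓ stabilizer G b ≤ N[cj[t] B] := by
    rw [← conj_normalizer, ← conj_eq_self nD]; exact conj_mono t nB
  have pB : IsPGroup p B := hB ▸ (pM a).to_le inf_le_left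
  obtain ⟨X, hX⟩ : ∃ X, X = B ⊔ cj[t] B := ⟨_, rfl⟩
  have pX : IsPGroup p X := hX ▸ pB.to_sup_of_normal_right' (pB.map _) (BD.trans nB')
  have XD : X ≤ stabilizer G a ⊓ stabilizer G b := hX ▸ sup_le BD BD'
  have nX : stabilizer G a ⊓ stabilizer G b ≤ N[X] := hX ▸ le_norm_sup nB nB'
  have tX : t ∈ N[X] := conj_eq_self_iff.1 (by
    have := conj_inv_conj t B
    rw [inv2 ht] at this
    rw [hX, conj_sup, this, sup_comm])
  have BX : B ≤ X := hX ▸ le_sup_left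
  have nt := norm_ne w.ac m.fa (ne_bot_of_le B1 BX) (XD.trans inf_le_left)
  obtain ⟨x, hx, nx, xX⟩ := ex_norm hp (pM a) pX (XD.trans (inf_le_left.trans PG.nM)) fun e =>
    ne (I a b (e.trans (XD.trans inf_le_right))).symm
  have xf : ∀ g ∈ N[X], x • g • a = g • a → g • a = a := fun g hg e => by
    by_contra nd
    exact xX (BX (mx _ nd (BX.trans (sb_fixN (XD.trans inf_le_left) hg)) ▸ ⟨hx, e⟩))
  have od : ∀ v ∈ N[X], orderOf v = 2 → v • a ≠ a := fun v hv ov va => by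
    obtain ⟨s, s', o, o', ss, cm, sa, sa'⟩ := PG.two_inv w a
    have := p1 m hp nt (fun e => ne (ta ▸ (e tX).symm)) (all_inv w ne nX hv ov va o sa) (all_inv w ne nX hv ov va o' sa')
      o o' ss cm sa (ne_bot_of_le B1 (le_inf (BX.trans le_normalizer) (hB ▸ inf_le_left))) tX
    exact ne (I a b (ta ▸ this)).symm
  obtain ⟨c, tc, -⟩ := w.ac.fix t ht
  have oX := odd_card_of_le (w.odd a b ne) XD
  by_cases e : ∃ s ∈ N[X], orderOf s = 2 ∧ t ≠ s ∧ t * s = s * t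
  · obtain ⟨s, hs, o, ts, cm⟩ := e
    have Xc := w.four c t s X ht o ts cm tc oX tX hs
    have nl : ¬ N[X] ≤ stabilizer G c := fun e => NA.notle w ne ht ta tb tc (nX.trans e)
    have M1 : 𝐌[c] ≠ ⊥ := by
      obtain ⟨g, rfl⟩ := w.ac.tr a c
      rw [← NA.eqvP, Ne, conj_eq_bot_iff]
      exact ne_bot_of_le B1 (hB ▸ inf_le_left)
    obtain ⟨g, hg, gc⟩ := SetLike.not_le_iff_exists.1 nl
    exact gc (I _ _ (p1 m hp nt nl tX hs ht o ts cm tc (ne_bot_of_le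
      (inf_cent_ne_bot_of_isPGroup hp (pM c) pX (Xc.trans PG.nM) M1)
      (le_inf (inf_le_right.trans (cent_le_norm X)) inf_le_left)) hg))
  have z : ∀ g ∈ N[X], t * (g * t * g⁻¹) ∈ O[N[X]] := fun g hg => zstar_rel (sq1 ht) tX (fun g hg e' => by
    by_contra ne
    exact e ⟨_, mul_mem (mul_mem hg tX) (inv_mem hg), ord2_conj ht g, Ne.symm ne, e'⟩) hg
  obtain ⟨Y, hY⟩ : ∃ Y, Y = O[N[X]] ⊔ zpowers x := ⟨_, rfl⟩
  have px : IsPGroup p (zpowers x) := (pM a).to_le (zpowers_le.2 hx)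
  have YN : Y ≤ N[X] := hY ▸ sup_le (O_le _) (zpowers_le.2 nx)
  have oY : Odd (Nat.card Y) := hY ▸ odd_iff_pi.1 ((piCoreOf_isPi _ _).sup
    (odd_iff_pi.2 (odd_card_of_le (O_odd _) ((zpowers_le.2 hx).trans (piCoreOf_le _ _))))
    (Or.inr (zpowers_le.2 (O_norm _ nx))))
  have nY : t ∈ N[Y] := mem_normalizer_of_conj_le (conj_le_iff_forall.2 fun y hy => by
    rw [show t * y * t⁻¹ = t * (y * t * y⁻¹) * y by rw [inv2 ht]; group]
    exact mul_mem (hY ▸ mem_sup_left (z y (YN hy))) hy)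
  obtain ⟨T, hT, xT⟩ := exists_syl_ge hp px (M := Y ⊓ stabilizer G a)
    (zpowers_le.2 ⟨hY ▸ mem_sup_right (mem_zpowers x), PG.leM hx⟩)
  have Ta := hT.le.trans inf_le_right
  have hT' : IsPiHallOf {p} T Y := syl_of_norm_le hp hT (hT.le.trans inf_le_left) fun g hg =>
    ⟨hg.1, xf g (YN hg.1) (sb_fixN Ta hg.2 (xT (mem_zpowers x)))⟩
  obtain ⟨y, hy, e1⟩ := syl_exists_conj hp (syl_conj_mem hT' nY) hT'
  have : T ≤ stabilizer G ((y * t) • a) := by rw [e1, mul_smul]; exact sb_fix (sb_fix Ta t) y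
  obtain ⟨y', hy', o, e2⟩ := NA.coset_inv ht oY nY hy (xf _ (mul_mem (YN hy) tX) (this (xT (mem_zpowers x))))
  exact od _ (mul_mem (YN hy') tX) o e2

end Cfsg.Agent.SE.TI
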