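import Cfsg.Agent.SE.NA2
import Cfsg.Agent.SE.TI

/-! Strongly embedded subgroups, no inner elements: a cyclic semiregular normal `p`-subgroup. -/

set_option autoImplicit false
set_option linter.unusedSectionVars false
set_option linter.unusedVariables false

namespace Cfsg.Agent.SE

namespace Cy

open Cfsg Subgroup MulAction Cfsg.Agent.GT Cfsg.Agent.Cls Cfsg.Agent.GW Cfsg.Agent.WA Cfsg.Agent.SE.NA
open scoped commutatorElement

universe u

variable {G Ω : Type u} [Group G] [Finite G] [MulAction G Ω] {a b c d : Ω} {s s' t u k x y g : G}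
  {P X Y : Subgroup G} {p : ℕ} {E : Ω → Subgroup G}

/-- the general trick -/
theorem trick (w : Tw1 G Ω) (ne : a ≠ b) (ht : orderOf t = 2) (o : Odd (Nat.card Y)) (nt : t ∈ N[Y])
    (nD : stabilizer G a ⊓ stabilizer G b ≤ N[Y]) (hg : g ∈ Y) (e : (g * t) • a = a) : Y ≤ stabilizer G a := by
  obtain ⟨z, hz, oz, za⟩ := coset_inv ht o nt hg e
  obtain ⟨s, s', os, os', n, cm, sa, sa'⟩ := PG.two_inv w a
  have k := fun {s : G} => TI.all_inv (s := s) w ne nD (mul_mem (le_normalizer hz) nt) oz za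
  exact w.four a s s' Y os os' n cm sa o (k os sa) (k os' sa')

/-- an equivariant family of semiregular subgroups of order `p` centralised by the involutions. -/
structure Fc (G : Type u) {Ω : Type u} [Group G] [MulAction G Ω] (p : ℕ) (E : Ω → Subgroup G) : Prop where
  tw : Tw1 G Ω
  pp : p.Prime
  cd : ∀ a, Nat.card (E a) = p
  eqv : ∀ (g : G) a, cj[g] (E a) = E (g • a)
  le : ∀ a, E a ≤ stabilizer G a
  cen : ∀ a s, orderOf s = 2 → s • a = a → E a ≤ C1[s]
  semi : ∀ a, ∀ y ∈ E a, y ≠ 1 → ∀ b, y • b = b → b = a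

namespace Fc
variable (f : Fc G p E)
include f

theorem pg (a : Ω) : IsPGroup p (E a) := IsPGroup.of_card (n := 1) (by rw [f.cd, pow_one])

theorem ex (a : Ω) : ∃ y ∈ E a, y ≠ 1 := (E a).bot_or_exists_ne_one.resolve_left fun e => by
  have := f.cd a
  rw [e, card_bot] at this
  exact f.pp.ne_one this.symm

theorem norm (a : Ω) : stabilizer G a ≤ N[E a] := fun g hg => by
  rw [← conj_eq_self_iff, f.eqv, show g • a = a from hg]

theorem cmem (hy : y ∈ E a) (g : G) : g * y * g⁻¹ ∈ E (g • a) := f.eqv g a ▸ ⟨y, hy, rfl⟩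

theorem ti (hy : y ∈ E a) (y1 : y ≠ 1) (e : g * y * g⁻¹ ∈ stabilizer G a) : g • a = a :=
  (f.semi _ _ (f.cmem hy g) (fun h => y1 (by simpa using h)) a e).symm

theorem pfix (hP : IsPGroup p P) (hy : y ∈ E a) (y1 : y ≠ 1) (yP : y ∈ P) : P ≤ stabilizer G a := by
  by_contra h
  have lt : P ⊓ stabilizer G a < P := lt_of_le_of_ne inf_le_left fun e => h (inf_eq_left.1 e)
  obtain ⟨g, ⟨gP, gn⟩, ng⟩ := SetLike.exists_of_lt (lt_inf_norm_of_isPGroup f.pp hP lt)
  exact ng ⟨gP, f.ti hy y1 (conj_mem_of_mem_norm gn ⟨yP, f.le a hy⟩).2⟩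

theorem kfp (ne : a ≠ b) (ht : orderOf t = 2) (ta : t • a = b) (tb : t • b = a)
    (hk : k ∈ stabilizer G a ⊓ stabilizer G b) (ik : t * k * t⁻¹ = k⁻¹) (h : E a ≤ C1[k]) : k = 1 := by
  by_contra k1
  obtain ⟨y, hy, y1⟩ := f.ex a
  have ok := odd_ord (f.tw.odd a b ne) hk
  by_cases o : Odd (Nat.card C1[k])
  swap
  · obtain ⟨c, tc, -⟩ := f.tw.ac.fix t ht
    have := f.semi a y hy y1 c (even_cent f.tw ht tc ik ok k1 o (h hy))
    subst this
    exact ne (tc.symm.trans ta)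
  have hb : E b ≤ C1[k] := by
    rw [← ta, ← f.eqv, ← conj_eq_self_iff.2 (norm_c1 ik)]; exact conj_mono t h
  have nt : t ∈ N[E a ⊔ E b] := by rw [← conj_eq_self_iff, conj_sup, f.eqv, f.eqv, ta, tb, sup_comm]
  obtain ⟨P, hP, yP⟩ := exists_syl_ge f.pp (f.pg a) (le_sup_left (b := E b))
  have Pa := f.pfix (syl_isPGroup f.pp hP) hy y1 (yP hy)
  obtain ⟨g, hg, le⟩ := syl_exists_conj_le f.pp hP (f.pg b) le_sup_right
  have hy' := ta ▸ f.cmem hy t
  have := trick f.tw ne ht (odd_card_of_le o (sup_le h hb)) nt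
    (le_norm_sup (inf_le_left.trans (f.norm a)) (inf_le_right.trans (f.norm b))) hg
    (f.ti hy y1 (Pa (le ⟨_, hy', by simp [mul_assoc]⟩)))
  exact ne (f.semi b _ hy' (fun h => y1 (by simpa using h)) a (this (mem_sup_right hy')))

theorem comm (ne : a ≠ b) (ht : orderOf t = 2) (ta : t • a = b) (tb : t • b = a)
    (hk : k ∈ stabilizer G a ⊓ stabilizer G b) (ik : t * k * t⁻¹ = k⁻¹)
    (hx : x ∈ stabilizer G a ⊓ stabilizer G b) (ix : t * x * t⁻¹ = x⁻¹) : k * x = x * k := by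
  have oD := f.tw.odd a b ne
  have tD := sb_swap_norm ta tb
  have := isCyclic_of_card_prime (H := E a) (f.cd a ▸ f.pp)
  have cy : IsCyclic (MulAut (E a)) := by
    have := ZMod.isCyclic_units_prime (f.cd a ▸ f.pp : (Nat.card (E a)).Prime)
    exact isCyclic_of_surjective _ (IsCyclic.mulAutMulEquiv (E a)).symm.surjective
  let D := stabilizer G a ⊓ stabilizer G b
  let φ : D →* MulAut (E a) := (E a).normalizerMonoidHom.comp (inclusion (inf_le_left.trans (f.norm a)))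
  have φv : ∀ d y, (φ d y : G) = d * y * (d : G)⁻¹ := fun _ _ => rfl
  have φ1 : ∀ d : D, φ d = 1 ↔ E a ≤ C1[(d : G)] := fun d => ⟨fun e y hy => mem_cent1_comm.1 (mem_cent1.2 (by
      have := φv d ⟨y, hy⟩
      rw [e] at this
      exact mul_inv_eq_iff_eq_mul.1 this.symm)),
    fun h => MulEquiv.ext fun y => Subtype.ext (by rw [φv, ← mem_cent1.1 (h y.2), mul_inv_cancel_right]; rfl)⟩
  let τ : MulAut D := D.normalizerMonoidHom ⟨t, tD⟩
  have τv : ∀ d, (τ d : G) = t * d * t⁻¹ := fun _ => rfl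
  have cm := (IsCyclic.isMulCommutative : IsMulCommutative (MulAut (E a))).is_comm.comm
  let L : Subgroup D :=
    { carrier := {d | φ (τ d) = (φ d)⁻¹ ∧ ∀ c : D, φ c = 1 → φ (τ c) = 1 → d * c = c * d}
      mul_mem' := fun {d d'} h h' => ⟨by rw [map_mul, map_mul, h.1, h'.1, map_mul, mul_inv_rev, cm], fun c c1 c2 => by
        rw [mul_assoc, h'.2 c c1 c2, ← mul_assoc, h.2 c c1 c2, mul_assoc]⟩
      one_mem' := ⟨by simp, fun c _ _ => by simp⟩
      inv_mem' := fun {d} h => ⟨by rw [map_inv, map_inv, h.1, map_inv], fun c c1 c2 =>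
        (show Commute d c from h.2 c c1 c2).inv_left⟩ }
  have ττ : ∀ d, τ (τ d) = d := fun d => Subtype.ext (by
    rw [τv, τv, inv2 ht, show t * (t * d * t) * t = t * t * d * (t * t) by group, sq1 ht]; group)
  have c0 : ∀ c : D, φ c = 1 → φ (τ c) = 1 → τ c = c := fun c c1 c2 => by
    have e : τ (c⁻¹ * τ c) = (c⁻¹ * τ c)⁻¹ := by simp [ττ]
    have := f.kfp ne ht ta tb (c⁻¹ * τ c).2 (congrArg Subtype.val e) ((φ1 _).1 (by simp [c1, c2]))
    exact (inv_mul_eq_one.1 (Subtype.ext this)).symm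
  have mL : ∀ k : D, τ k = k⁻¹ → k ∈ L := fun k ik => ⟨by rw [ik, map_inv], fun c c1 c2 => by
    have e := c0 (k * c * k⁻¹) (by simp [c1]) (by simp [c2])
    rw [map_mul, map_mul, map_inv, ik, c0 c c1 c2, inv_inv] at e
    have h2 : Commute (k * k) c := by
      rw [Commute, SemiconjBy, show k * k * c = k * (k * c * k⁻¹) * k by group, ← e]; group
    obtain ⟨j, hj⟩ := odd_ord oD k.2
    have : k = (k * k) ^ (j + 1) := Subtype.ext (by
      push_cast
      rw [← sq, ← pow_mul, show 2 * (j + 1) = 2 * j + 1 + 1 by ring, ← hj, pow_succ, pow_orderOf_eq_one, one_mul])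
    rw [this]; exact h2.pow_left _⟩
  have := (φ.comp L.subtype).isMulCommutative_of_isCyclic_of_ker_le_center fun z hz => mem_center_iff.2 fun l =>
    Subtype.ext (l.2.2 z hz (by rw [z.2.1, show φ z = 1 from hz, inv_one]))
  exact congrArg (fun l : L => ((l : D) : G))
    (this.is_comm.comm ⟨⟨k, hk⟩, mL _ (Subtype.ext ik)⟩ ⟨⟨x, hx⟩, mL _ (Subtype.ext ix)⟩)

theorem ni' (ne : a ≠ b) (ht : orderOf t = 2) (ta : t • a = b) (tb : t • b = a) (tc : t • c = c)
    (hx : x ∈ stabilizer G a ⊓ stabilizer G b) (ix : t * x * t⁻¹ = x⁻¹) (xc : x • c = c) : x = 1 := by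
  by_contra x1
  have oD := f.tw.odd a b ne
  refine notle f.tw ne ht ta tb tc fun y hy => ?_
  obtain ⟨v, hv, k, hk, ik, rfl⟩ := dec2 (sq1 ht) (sb_swap_norm ta tb) oD hy
  refine mul_mem (PB.cent_le f.tw ht tc hv.2) (by_contra fun n => x1 ?_)
  have cm := f.comm ne ht ta tb (commutator_le_of_le_norm_left (zp_norm (sb_swap_norm ta tb)) hk) ik hx ix
  have h : E c ≤ C1[x] := fun y hy => by
    have := c1_mul (f.cen c t ht tc hy) (f.cen c _ (ord_mul ht ix (odd_ord oD hx)) (by rw [mul_smul, xc, tc]) hy)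
    rwa [tt (sq1 ht)] at this
  have e : ∀ k : G, k * x = x * k → x • k • c = k • c := fun k h => by rw [← mul_smul, ← h, mul_smul, xc]
  have tk : t • k • c = k⁻¹ • c := by rw [← ik, mul_smul, mul_smul, fix_inv tc]
  refine f.kfp (a := k • c) (b := t • k • c) (fun e => n (PB.uniq f.tw ht e.symm tc)) ht rfl
    (by rw [← mul_smul, sq1 ht, one_smul]) ⟨e k cm, by rw [tk]; exact e _ (show Commute k x from cm).inv_left⟩ ix ?_
  rw [← f.eqv, ← show k * x * k⁻¹ = x by rw [cm, mul_inv_cancel_right], ← conj_cent1]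
  exact conj_mono k h

theorem ni : NI G Ω := fun c d s s' os os' sc sc' ne e => by
  by_contra dc
  have ix : s * (s * s') * s⁻¹ = (s * s')⁻¹ := by rw [tt (sq1 os), mul_inv_rev, inv2 os']
  refine ne ?_
  have := f.ni' (a := d) (b := s • d) (fun e => dc (PB.uniq f.tw os e.symm sc)) os rfl
    (by rw [← mul_smul, sq1 os, one_smul]) sc ⟨e, show (s * s') • s • d = s • d by
      rw [mul_smul, ← mul_smul s', show s' * s = (s * s')⁻¹ by rw [mul_inv_rev, inv2 os, inv2 os'], fix_inv e]⟩ ix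
    (by rw [mul_smul, sc', sc])
  rw [← inv2 os', eq_inv_iff_mul_eq_one, this]

end Fc

end Cy

open Cfsg Subgroup MulAction Cfsg.Agent.GT Cfsg.Agent.Cls Cfsg.Agent.GW Cfsg.Agent.WA Cfsg.Agent.SE.NA

universe u

theorem cyc {G Ω : Type u} [Group G] [Finite G] [MulAction G Ω] (w : Tw1 G Ω) {p : ℕ} (hp : p.Prime)
    (JR : ∀ (a : Ω) (s : G), orderOf s = 2 → s • a = a → piCoreOf {p} O[stabilizer G a] ≤ C1[s])
    (cy : ∀ a : Ω, IsCyclic ↥(piCoreOf {p} O[stabilizer G a])) (n1 : ∀ a : Ω, piCoreOf {p} O[stabilizer G a] ≠ ⊥)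
    (semi : ∀ a b : Ω, a ≠ b → piCoreOf {p} O[stabilizer G a] ⊓ stabilizer G b = ⊥) : NI G Ω := by
  let E : Ω → Subgroup G := fun a =>
    { carrier := {y | y ∈ piCoreOf {p} O[stabilizer G a] ∧ y ^ p = 1}
      mul_mem' := fun {x y} h h' => ⟨mul_mem h.1 h'.1, by
        rw [(show Commute x y from congrArg Subtype.val ((isMulCommutative_of_isCyclic (cy a)).is_comm.comm
          ⟨x, h.1⟩ ⟨y, h'.1⟩)).mul_pow, h.2, h'.2, one_mul]⟩
      one_mem' := ⟨one_mem _, one_pow _⟩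
      inv_mem' := fun h => ⟨inv_mem h.1, by rw [inv_pow, h.2, inv_one]⟩ }
  have le : ∀ a, E a ≤ piCoreOf {p} O[stabilizer G a] := fun a y h => h.1
  refine Cy.Fc.ni (p := p) (E := E) ⟨w, hp, fun a => ?_, fun g a => ?_,
    fun a => (le a).trans ((piCoreOf_le _ _).trans (O_le _)), fun a s os sa => (le a).trans (JR a s os sa),
    fun a y hy y1 b e => ?_⟩
  · have := isCyclic_of_le (cy a) (le a)
    obtain ⟨g, hg⟩ := IsCyclic.exists_generator (α := E a)
    rw [← orderOf_eq_card_of_forall_mem_zpowers hg]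
    have := Fact.mk hp
    refine orderOf_eq_prime (Subtype.ext g.2.2) ?_
    rintro rfl
    obtain ⟨y, hy, o⟩ := exists_mem_orderOf_eq_prime hp
      (prime_dvd_card_of_isPGroup hp ((isPiSubgroup_single_iff hp).1 (piCoreOf_isPi _ _)) (n1 a))
    have := hg ⟨y, hy, o ▸ pow_orderOf_eq_one y⟩
    rw [zpowers_one_eq_bot, mem_bot, Subtype.ext_iff] at this
    rw [show y = 1 from this, orderOf_one] at o
    exact hp.ne_one o.symm
  · ext y
    rw [mem_conj]
    show _ ∧ _ ↔ _ ∧ _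
    rw [← eqvP, mem_conj, show g⁻¹ * y * g = g⁻¹ * y * g⁻¹⁻¹ by group, conj_pow, conj_eq_one_iff]
  · by_contra ne
    exact y1 (mem_bot.1 (semi a b (Ne.symm ne) ▸ (⟨hy.1, e⟩ : y ∈ _ ⊓ stabilizer G b)))

end Cfsg.Agent.SE
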