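import Cfsg.Agent.SE.NA2

/-! Strongly embedded subgroups, case A: uniqueness results. -/

set_option autoImplicit false
set_option linter.unusedSectionVars false
set_option linter.unusedVariables false

namespace Cfsg.Agent.SE.NA

open Cfsg Subgroup MulAction Cfsg.Agent.GT Cfsg.Agent.Cls Cfsg.Agent.GW Cfsg.Agent.WA
open scoped commutatorElement

universe u

variable {G Ω : Type u} [Group G] [Finite G] [MulAction G Ω] {a b c d : Ω} {s s' t u k x y z g : G}
  {P X Y : Subgroup G} {p : ℕ}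

theorem eqvO (g : G) (a : Ω) : cj[g] O[stabilizer G a] = O[stabilizer G (g • a)] := by
  rw [conj_piCoreOf, sb_conj_st]

/-- a nontrivial subgroup of a point stabiliser is not normal -/
theorem nt_norm (m : Mc G Ω) (le : X ≤ stabilizer G a) (ne : X ≠ ⊥) : N[X] ≠ ⊤ := fun e => ne (eq_bot_iff.2 fun x hx =>
  m.fa x fun b => by
    obtain ⟨g, rfl⟩ := m.tw.ac.tr a b
    exact sb_fixN le (e ▸ mem_top g) hx)

theorem nt_c1 (m : Mc G Ω) (hx : x • a = a) (ne : x ≠ 1) : C1[x] ≠ ⊤ := fun e =>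
  nt_norm m (zpowers_le.2 hx) (by rwa [Ne, zpowers_eq_bot]) (top_le_iff.1 (by
    rw [← e, ← cent_zpowers]; exact cent_le_norm _))

/-- an even overgroup of `D` contains all involutions -/
theorem all_inv (w : Tw1 G Ω) (ne : a ≠ b) (le : stabilizer G a ⊓ stabilizer G b ≤ Y) (hs : s ∈ Y) (os : orderOf s = 2)
    (sa : s • a = a) : ∀ v : G, orderOf v = 2 → v • a = a → v ∈ Y := fun v ov va => by
  obtain ⟨k, hk, rfl⟩ := w.ac.ac.tr_inv ne os ov sa va
  exact mul_mem (mul_mem (le hk) hs) (inv_mem (le hk))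

/-- (A2) with the centralising hypothesis for the `p`-core only -/
theorem a2p (w : Tw1 G Ω) (a : Ω) (hp : p.Prime)
    (JP : ∀ (a : Ω) (s : G), orderOf s = 2 → s • a = a → piCoreOf {p} O[stabilizer G a] ≤ C1[s])
    (nc : ¬ IsCyclic (piCoreOf {p} O[stabilizer G a]))
    (semi : ∀ a b : Ω, a ≠ b → piCoreOf {p} O[stabilizer G a] ⊓ stabilizer G b = ⊥) : NI G Ω := by
  have pg : ∀ a : Ω, IsPGroup p (piCoreOf {p} O[stabilizer G a]) := fun a =>
    (isPiSubgroup_single_iff hp).1 (piCoreOf_isPi _ _)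
  refine Fam.ni (p := p) (E := fun a => piCoreOf {p} O[stabilizer G a]) ⟨w, hp, ?_, pg, eqvP p,
    fun a => (piCoreOf_le _ _).trans (O_le _), JP, fun a y hy y1 b e => ?_, fun b => ?_⟩
  · rintro rfl
    have := prime_dvd_card_of_isPGroup hp (pg a) fun e => nc (by rw [e]; infer_instance)
    exact absurd ((odd_card_of_le (O_odd _) (piCoreOf_le _ _)).of_dvd_nat this) (by decide)
  · by_contra ne
    exact y1 (mem_bot.1 (semi a b (Ne.symm ne) ▸ (⟨hy, e⟩ : y ∈ _ ⊓ stabilizer G b)))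
  · obtain ⟨g, rfl⟩ := w.ac.tr a b
    rwa [← eqvP, isCyclic_conj_iff]

/-- case A -/
structure CA (G Ω : Type u) [Group G] [MulAction G Ω] : Prop where
  m : Mc G Ω
  ncl : ¬ Cl2 G Ω
  JR : ∀ (a : Ω) (s : G), orderOf s = 2 → s • a = a → O[stabilizer G a] ≤ C1[s]

namespace CA
variable (h : CA G Ω)
include h

theorem nc (o : Odd (Nat.card X)) (le : X ≤ stabilizer G a) (n : ∀ s : G, orderOf s = 2 → s • a = a → s ∈ N[X]) :
    X ≤ O[stabilizer G a] := by
  let J := closure {s : G | orderOf s = 2 ∧ s • a = a}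
  have Ja : J ≤ stabilizer G a := (closure_le _).2 fun s hs => hs.2
  have nJ : stabilizer G a ≤ N[J] := fun g hg => mem_normalizer_of_conj_le (by
    rw [MonoidHom.map_closure, closure_le]
    rintro _ ⟨s, hs, rfl⟩
    exact subset_closure ⟨ord2_conj hs.1 g, mul_mem (mul_mem hg hs.2) (inv_mem hg)⟩)
  have JX : J ≤ N[X] := (closure_le _).2 fun s hs => n s hs.1 hs.2
  have h1 : ⁅X, J⁆ ≤ O[stabilizer G a] :=
    ((le_inf (commutator_le_of_le_norm_left JX) (commutator_le_of_le_norm_right (le.trans nJ))).trans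
      (le_O inf_le_right (le_norm_inf JX le_normalizer) (odd_card_of_le o inf_le_left))).trans
      (piCoreOf_le_of_normal Ja nJ)
  have h2 : X ≤ C[J] := le_cent_symm ((closure_le _).2 fun s hs => mem_cent_iff.2 (cent_zpowers s ▸
    coprime_le_cent_of_commutator_le_cent (zp_norm (n s hs.1 hs.2)) (cop2 o hs.1) (by
      rw [cent_zpowers]
      exact ((commutator_mono le_rfl (zpowers_le.2 (subset_closure hs))).trans h1).trans (h.JR a s hs.1 hs.2))))
  have nC : stabilizer G a ≤ N[stabilizer G a ⊓ C[J]] := le_norm_inf le_normalizer (le_norm_cent nJ)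
  refine (le_inf le h2).trans (le_O inf_le_left nC (sb_odd fun v hv ov => h.ncl fun d s s' os os' sd sd' => ?_))
  obtain ⟨g, rfl⟩ := h.m.tw.ac.tr a d
  have := h.m.tw.ac.nt
  obtain ⟨b, ne⟩ := exists_ne a
  have k : ∀ s : G, s • g • a = g • a → (g⁻¹ * s * g⁻¹⁻¹) • a = a := fun s e => by
    rw [inv_inv, mul_smul, mul_smul, e, inv_smul_smul]
  obtain ⟨k1, hk, e⟩ := h.m.tw.ac.ac.tr_inv ne.symm ov (ord2_conj os g⁻¹) hv.1 (k s sd)
  have h3 := (e ▸ conj_mem_of_mem_norm (nC hk.1) hv).2 _ (subset_closure ⟨ord2_conj os' g⁻¹, k s' sd'⟩)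
  have h4 : s' * s = s * s' := mul_right_cancel (b := g) (by simpa [mul_assoc] using h3)
  rw [mul_assoc s, h4, ← mul_assoc, sq1 os, one_mul, sq1 os']
  exact one_mem _

theorem u3 (nt : Y ≠ ⊤) (hY : ∀ s : G, orderOf s = 2 → s • a = a → s ∈ Y) (hg : g ∈ Y) :
    O[stabilizer G a] ⊓ Y ≤ O[stabilizer G (g • a)] := by
  by_cases le : Y ≤ stabilizer G a
  · rw [show g • a = a from le hg]; exact inf_le_left
  obtain ⟨s, s', os, os', n, cm, sa, sa'⟩ := PG.two_inv h.m.tw a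
  obtain ⟨h1, h2⟩ := pSub0 G Ω h.m.tw h.m.ih Y a s s' nt le (hY s os sa) (hY s' os' sa') os os' n cm sa
  refine (le_O (le_inf inf_le_right (inf_le_left.trans (O_le _)))
    (le_norm_inf (inf_le_right.trans (O_norm _)) (le_norm_self inf_le_left))
    (odd_card_of_le (O_odd _) inf_le_left)).trans (h.nc (O_odd _) (h1 g hg) fun v ov va => ?_)
  rw [h2]
  have := mul_mem (mul_mem hg (hY _ (ord2_conj ov g⁻¹) (by
    rw [inv_inv, mul_smul, mul_smul, va, inv_smul_smul]))) (inv_mem hg)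
  exact O_norm Y (by simpa [mul_assoc] using this)

theorem cw (ne : a ≠ b) (ha : x ∈ O[stabilizer G a]) (hb : x ∈ O[stabilizer G b]) :
    ∃ t ∈ C1[x], t • a = b := by
  obtain ⟨s, os, sa⟩ := h.m.tw.ac.ac.ex_inv a
  obtain ⟨s', os', sb⟩ := h.m.tw.ac.ac.ex_inv b
  obtain ⟨-, t, ht, -, -, ta, -⟩ := h.m.tw.mid a b s s' ne os os' sa sb
  exact ⟨t, V_le (mem_cent1_comm.1 (h.JR a s os sa ha)) (mem_cent1_comm.1 (h.JR b s' os' sb hb)) ht, ta⟩

theorem u4 (hx : x ∈ O[stabilizer G a]) (x1 : x ≠ 1) (hg : g ∈ C1[x]) :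
    O[stabilizer G a] ⊓ C1[x] ≤ O[stabilizer G (g • a)] :=
  h.u3 (nt_c1 h.m (O_le _ hx) x1) (fun s os sa => mem_cent1_comm.1 (h.JR a s os sa hx)) hg

/-- (UA) -/
theorem ua (hy : y ∈ fittingOf O[stabilizer G a]) (y1 : y ≠ 1) : C1[y] ≤ stabilizer G a := fun g hg => by
  by_contra ne
  have ne' : a ≠ g • a := fun e => ne e.symm
  have FO := fittingOf_le O[stabilizer G a]
  have F1 : fittingOf O[stabilizer G a] ≠ ⊥ := fun e => y1 (mem_bot.1 (e ▸ hy))
  obtain ⟨z, hz, z1⟩ := exists_ne_one_of_ne_bot (center_ne_bot_of_nilpotent (fittingOf_nilpotent _) F1)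
  have zb := h.u4 (FO hy) y1 hg ⟨FO hz.1, cent_le_cent1 hy hz.2⟩
  obtain ⟨t, ht, ta⟩ := h.cw ne' (FO hz.1) zb
  have Fb : fittingOf O[stabilizer G a] ≤ O[stabilizer G (g • a)] := fun x hx =>
    ta ▸ h.u4 (FO hz.1) z1 ht ⟨FO hx, mem_cent1_comm.1 (cent_le_cent1 hx hz.2)⟩
  obtain ⟨s, os, sb⟩ := h.m.tw.ac.ac.ex_inv (g • a)
  have sN : s ∈ N[fittingOf O[stabilizer G a]] := cent_le_norm _ (mem_cent_iff.2 (Fb.trans (h.JR _ s os sb)))
  have le : stabilizer G a ≤ N[fittingOf O[stabilizer G a]] := le_norm_fittingOf (O_norm _)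
  refine nt_norm h.m (FO.trans (O_le _)) F1 ((h.m.mx a).2 _ (lt_of_le_of_ne le fun e => ne' ?_))
  exact PB.uniq h.m.tw os (show s ∈ stabilizer G a from e ▸ sN) sb

set_option quotPrecheck false in
local notation:max "𝐏" a:max => piCoreOf ({p} : Set ℕ) O[stabilizer G a]

omit h in
theorem PO (a : Ω) : (𝐏 a) ≤ O[stabilizer G a] := piCoreOf_le _ _
omit h in
theorem Ple (a : Ω) : (𝐏 a) ≤ stabilizer G a := (PO a).trans (O_le _)
omit h in
theorem nP (a : Ω) : stabilizer G a ≤ N[𝐏 a] := le_norm_piCoreOf (O_norm _)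
omit h in
theorem pgP (hp : p.Prime) (a : Ω) : IsPGroup p (𝐏 a) := (isPiSubgroup_single_iff hp).1 (piCoreOf_isPi _ _)

theorem inner (ht : orderOf t = 2) (tc : t • c = c) (ix : t * x * t⁻¹ = x⁻¹) (o : Odd (orderOf x))
    (xc : x • c = c) : O[stabilizer G c] ≤ C1[x] := fun y hy => by
  have := c1_mul (h.JR c t ht tc hy) (h.JR c _ (ord_mul ht ix o) (by rw [mul_smul, xc, tc]) hy)
  rwa [tt (sq1 ht)] at this

variable (hp : p.Prime)
include hp

theorem c1 (hy : y ∈ 𝐏 a) (y1 : y ≠ 1) : C1[y] ≤ stabilizer G a := h.ua (piCoreOf_single_le_fittingOf hp hy) y1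

theorem dis (ne : a ≠ d) : (𝐏 a) ⊓ (𝐏 d) = ⊥ := eq_bot_iff.2 fun y hy => by
  by_contra y1
  obtain ⟨s, os, sd⟩ := h.m.tw.ac.ac.ex_inv d
  exact ne (PB.uniq h.m.tw os (h.c1 hp hy.1 y1 (mem_cent1_comm.1 (h.JR d s os sd (PO d hy.2)))) sd)

theorem cm (ne : a ≠ d) : (𝐏 a) ⊓ stabilizer G d ≤ C[(𝐏 d) ⊓ stabilizer G a] := by
  rw [le_cent_iff_commutator_eq_bot, eq_bot_iff, ← h.dis hp ne]
  exact le_inf ((commutator_mono inf_le_left inf_le_right).trans (commutator_le_of_le_norm_left (nP a)))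
    ((commutator_mono inf_le_right inf_le_left).trans (commutator_le_of_le_norm_right (nP d)))

omit hp in
theorem sym (ne : a ≠ c) (le : (𝐏 c) ≤ stabilizer G a) : (𝐏 a) ≤ stabilizer G c := by
  obtain ⟨t, -, ta, tc⟩ := h.m.tw.ac.ac.swap ne
  have := sb_fix le t
  rwa [eqvP, ta, tc] at this

/-- the normaliser of `X_a X_b` has an odd point stabiliser -/
theorem oddN (ne : a ≠ b) (X1 : (𝐏 a) ⊓ stabilizer G b ≠ ⊥) (le : (𝐏 a) ⊓ stabilizer G b ≤ X)
    (Xa : X ≤ stabilizer G a) (nX : stabilizer G a ⊓ stabilizer G b ≤ N[X]) (tX : t ∈ N[X]) (ta : t • a = b)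
    (hs : s ∈ N[X]) (os : orderOf s = 2) : s • a ≠ a := fun sa => by
  obtain ⟨y, hy, y1⟩ := exists_ne_one_of_ne_bot X1
  have := h.u3 (nt_norm h.m Xa (ne_bot_of_le X1 le)) (all_inv h.m.tw ne nX hs os sa) tX
    ⟨PO a hy.1, le_normalizer (le hy)⟩
  rw [ta] at this
  obtain ⟨v, ov, vb⟩ := h.m.tw.ac.ac.ex_inv b
  exact ne (PB.uniq h.m.tw ov (h.c1 hp hy.1 y1 (mem_cent1_comm.1 (h.JR b v ov vb this))) vb)

/-- (A01) -/
theorem a01 (ne : a ≠ b) : (𝐏 a) ⊓ stabilizer G b = ⊥ ∨ (𝐏 a) ≤ stabilizer G b := by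
  by_contra hh
  obtain ⟨X1, nle⟩ := not_or.1 hh
  have w := h.m.tw
  obtain ⟨t, ht, ta, tb⟩ := w.ac.ac.swap ne
  have oD := w.odd a b ne
  set Xa := (𝐏 a) ⊓ stabilizer G b with hXa
  set Xb := (𝐏 b) ⊓ stabilizer G a with hXb
  have tab : cj[t] Xa = Xb := by rw [hXa, conj_inf, eqvP, sb_conj_st, ta, tb]
  have tba : cj[t] Xb = Xa := by rw [hXb, conj_inf, eqvP, sb_conj_st, ta, tb]
  have cb : Nat.card Xb = Nat.card Xa := by rw [← tab, card_conj]
  have na : stabilizer G a ⊓ stabilizer G b ≤ N[Xa] := le_norm_inf (inf_le_left.trans (nP a)) (le_norm_self inf_le_right)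
  have nb : stabilizer G a ⊓ stabilizer G b ≤ N[Xb] := le_norm_inf (inf_le_right.trans (nP b)) (le_norm_self inf_le_left)
  have aD : Xa ≤ stabilizer G a ⊓ stabilizer G b := inf_le_inf_right _ (Ple a)
  have bD : Xb ≤ stabilizer G a ⊓ stabilizer G b := le_inf inf_le_right (inf_le_left.trans (Ple b))
  set X := Xa ⊔ Xb with hX
  have XD : X ≤ stabilizer G a ⊓ stabilizer G b := sup_le aD bD
  have XA := XD.trans inf_le_left
  have oX := odd_card_of_le oD XD
  have nX : stabilizer G a ⊓ stabilizer G b ≤ N[X] := le_norm_sup na nb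
  have tX : t ∈ N[X] := by rw [← conj_eq_self_iff, hX, conj_sup, tab, tba, sup_comm]
  have cX : Nat.card X = Nat.card Xa * Nat.card Xa := by
    rw [hX, card_sup_of_inf_eq_bot (.inl (aD.trans nb))
      (eq_bot_iff.2 ((inf_le_inf inf_le_left inf_le_left).trans (h.dis hp ne).le)), cb]
  have pX : IsPGroup p X :=
    ((pgP hp a).to_le inf_le_left).to_sup_of_normal_right' ((pgP hp b).to_le inf_le_left) (aD.trans nb)
  have small : ∀ H Z : Subgroup G, H ≤ X → Z ≤ X → X ≤ N[Z] → Nat.card Z = Nat.card Xa → H ⊓ Z = ⊥ →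
      Nat.card H ≤ Nat.card Xa := fun H Z hH hZ n c e => by
    have := card_le_of_le (sup_le hH hZ)
    rw [card_sup_of_inf_eq_bot (.inl (hH.trans n)) e, c, cX] at this
    exact Nat.le_of_mul_le_mul_right this Nat.card_pos
  have od : ∀ s ∈ N[X], orderOf s = 2 → s • a ≠ a := fun s hs os => h.oddN hp ne X1 le_sup_left XA nX tX ta hs os
  have XP : X ⊓ (𝐏 a) = Xa :=
    le_antisymm (le_inf inf_le_right (inf_le_left.trans (XD.trans inf_le_right))) (le_inf le_sup_left inf_le_left)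
  obtain ⟨y, hy, yN, yb⟩ : ∃ y ∈ 𝐏 a, y ∈ N[X] ∧ y • b ≠ b := by
    have lt : X < (𝐏 a) ⊔ X := lt_of_le_of_ne le_sup_right fun e =>
      nle ((le_sup_left.trans e.ge).trans (XD.trans inf_le_right))
    obtain ⟨g, ⟨hg, gn⟩, ng⟩ := SetLike.exists_of_lt
      (lt_inf_norm_of_isPGroup hp ((pgP hp a).to_sup_of_normal_left' pX (XA.trans (nP a))) lt)
    obtain ⟨y, hy, x, hx, rfl⟩ := (mem_sup_of_le_norm' (XA.trans (nP a))).1 hg
    refine ⟨y, hy, (mul_mem_cancel_right (le_normalizer hx)).1 gn, fun e => ng (mul_mem (mem_sup_left ⟨hy, e⟩) hx)⟩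
  have py : IsPGroup p (zpowers y) := (pgP hp a).to_le (zpowers_le.2 hy)
  have semi : ∀ n ∈ N[X], y • n • a = n • a → n • a = a := fun n hn e => by
    by_contra nd
    have cd : Nat.card ↥(X ⊓ 𝐏 (n • a)) = Nat.card Xa := by
      rw [← XP, ← card_conj n (X ⊓ 𝐏 a), conj_inf, eqvP, conj_eq_self hn]
    have h1 : X ⊓ (𝐏 (n • a)) ≤ X ⊓ C1[y] := le_inf inf_le_left (mem_cent_iff.1
      (cent_anti (le_inf inf_le_right (inf_le_left.trans XA)) (h.cm hp (Ne.symm nd) ⟨hy, e⟩)))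
    obtain ⟨v, hv, v1⟩ := exists_ne_one_of_ne_bot (inf_cent_ne_bot_of_isPGroup hp ((pgP hp a).to_le inf_le_left) py
      (show zpowers y ≤ N[Xa] from XP ▸ le_norm_inf (zp_norm yN) (zp_norm (le_normalizer hy))) X1)
    rw [cent_zpowers] at hv
    have lt : X ⊓ (𝐏 (n • a)) < X ⊓ C1[y] := lt_of_le_of_ne h1 fun e => v1 (mem_bot.1 (h.dis hp (Ne.symm nd) ▸
      (⟨hv.1.1, (e.ge ⟨mem_sup_left hv.1, hv.2⟩).2⟩ : v ∈ (𝐏 a) ⊓ 𝐏 (n • a))))
    have : X ⊓ C1[y] ⊓ Xb ≠ ⊥ := fun e => absurd (small _ _ inf_le_left le_sup_right (XD.trans nb) cb e)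
      (not_le.2 (cd ▸ card_lt_of_lt lt))
    obtain ⟨z, hz, z1⟩ := exists_ne_one_of_ne_bot this
    exact yb (h.c1 hp hz.2.1 z1 (mem_cent1_comm.1 hz.1.2))
  have fin : ∀ L : Subgroup G, L ≤ N[X] → Odd (Nat.card L) → t ∈ N[L] → y ∈ L → False := fun L LN oL tL yL => by
    obtain ⟨S, hS, yS⟩ := exists_syl_ge hp py (zpowers_le.2 yL)
    have Sa : S ≤ stabilizer G a := by
      by_contra hn
      have lt : S ⊓ stabilizer G a < S := lt_of_le_of_ne inf_le_left fun e => hn (inf_eq_left.1 e)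
      obtain ⟨g, ⟨gS, gn⟩, ng⟩ := SetLike.exists_of_lt (lt_inf_norm_of_isPGroup hp (syl_isPGroup hp hS) lt)
      have : (g⁻¹ * y * g⁻¹⁻¹) • a = a := (conj_mem_of_mem_norm (inv_mem gn) ⟨yS (mem_zpowers y), Ple a hy⟩).2
      rw [inv_inv, mul_smul, mul_smul, inv_smul_eq_iff] at this
      exact ng ⟨gS, semi g (LN (hS.le gS)) this⟩
    obtain ⟨g, hg, le⟩ := syl_exists_conj_le hp (syl_conj_mem hS tL) py (zpowers_le.2 yL)
    have : (g * y * g⁻¹) • t • a = t • a := sb_fix Sa t (le (conj_mem_conj.2 (mem_zpowers y)))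
    rw [mul_smul, mul_smul, ← eq_inv_smul_iff, ← mul_smul g⁻¹] at this
    obtain ⟨z, hz, oz, za⟩ := coset_inv ht oL tL (inv_mem hg) (semi _ (mul_mem (LN (inv_mem hg)) tX) this)
    exact od _ (mul_mem (LN hz) tX) oz za
  by_cases hr : ∃ u ∈ N[X], ∃ u' ∈ N[X], orderOf u = 2 ∧ orderOf u' = 2 ∧ u ≠ u' ∧ u * u' = u' * u
  · have key : ∀ (c : Ω), ∀ u ∈ N[X], ∀ u' ∈ N[X], orderOf u = 2 → orderOf u' = 2 → u ≠ u' → u * u' = u' * u →
        u • c = c → (𝐏 a) ≤ stabilizer G c := fun c u hu u' hu' ou ou' n cm uc => by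
      have uc' : u' • c = c := PB.comm_fix w ou uc cm.symm
      have Xc := w.four c u u' X ou ou' n cm uc oX hu hu'
      refine h.sym (fun e => od u hu ou (e ▸ uc)) ?_
      by_cases e : X ⊓ C[𝐏 c] ⊓ Xa = ⊥
      · have s0 := small _ _ inf_le_left le_sup_left (XD.trans na) rfl e
        have al : ∀ v ∈ N[X], orderOf v = 2 → v • c = c → B85.Inv X v = (X ⊓ C[𝐏 c] : Subgroup G) := fun v hv ov vc => by
          refine Set.eq_of_subset_of_ncard_le (fun x hx => ⟨hx.1, mem_cent_iff.2 ((PO c).trans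
            (h.inner ov vc hx.2 (odd_ord oX hx.1) (Xc hx.1)))⟩) ?_ (Set.toFinite _)
          have s1 := small (X ⊓ C1[v]) _ inf_le_left le_sup_left (XD.trans na) rfl (eq_bot_iff.2 fun z hz => by
            by_contra z1
            exact od v hv ov (h.c1 hp hz.2.1 z1 (mem_cent1_comm.1 hz.1.2)))
          have s2 := B85.card_dec' oX (sq1 ov) hv
          rw [cX] at s2
          refine le_trans (le_of_eq (Nat.card_coe_set_eq _).symm) (s0.trans ?_)
          exact Nat.le_of_mul_le_mul_right (s2.le.trans (Nat.mul_le_mul_left _ s1)) Nat.card_pos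
        have b0 : X ⊓ C[𝐏 c] = ⊥ := eq_bot_iff.2 fun x hx => by
          have i1 := ((al u hu ou uc).ge hx).2
          have i2 := ((al u' hu' ou' uc').ge hx).2
          have i3 := ((al _ (mul_mem hu hu') (ord2_mul ou ou' n.symm cm.symm) (by rw [mul_smul, uc', uc])).ge hx).2
          rw [show u * u' * x * (u * u')⁻¹ = u * (u' * x * u'⁻¹) * u⁻¹ by group, i2, ← conj_inv, i1, inv_inv] at i3
          exact eq1_of_inv (odd_ord oX hx.1) i3.symm
        obtain ⟨x, hx, x1⟩ := exists_ne_one_of_ne_bot X1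
        have : X ≤ C1[u] := fun z hz => by
          obtain ⟨v, hv, i, hi, ii, rfl⟩ := dec2 (sq1 ou) hu oX hz
          have : i ∈ X ⊓ C[𝐏 c] := (al u hu ou uc).le ⟨commutator_le_of_le_norm_left (zp_norm hu) hi, ii⟩
          rw [b0, mem_bot] at this
          rw [this, mul_one]; exact hv.2
        exact absurd (h.c1 hp hx.1 x1 (mem_cent1_comm.1 (this (mem_sup_left hx)))) (od u hu ou)
      · obtain ⟨x, hx, x1⟩ := exists_ne_one_of_ne_bot e
        exact (mem_cent_iff.1 hx.1.2).trans (h.c1 hp hx.2.1 x1)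
    obtain ⟨u, hu, u', hu', ou, ou', n, cm⟩ := hr
    obtain ⟨c, uc, -⟩ := w.ac.fix u ou
    have nc : ¬ N[X] ≤ stabilizer G c := fun le => notle w ne ht ta tb (le tX) (nX.trans le)
    obtain ⟨n0, hn0, e0⟩ := SetLike.not_le_iff_exists.1 nc
    let L := N[X] ⊓ ⨅ n ∈ N[X], stabilizer G (n • c)
    have mL : ∀ z, z ∈ L ↔ z ∈ N[X] ∧ ∀ n ∈ N[X], z • n • c = n • c := fun z => by
      simp only [L, mem_inf, mem_iInf, mem_stabilizer_iff]
    refine fin L inf_le_left (odd_card_of_le (w.odd (n0 • c) c e0) fun z hz =>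
      ⟨((mL z).1 hz).2 n0 hn0, by simpa using ((mL z).1 hz).2 1 (one_mem _)⟩) ?_ ((mL y).2 ⟨yN, fun n hn => ?_⟩)
    · refine mem_normalizer_of_conj_le (conj_le_iff_forall.2 fun z hz => (mL _).2
        ⟨mul_mem (mul_mem tX hz.1) (inv_mem tX), fun n hn => ?_⟩)
      rw [mul_smul, mul_smul, ← mul_smul t⁻¹, ((mL z).1 hz).2 _ (mul_mem (inv_mem tX) hn), mul_smul, smul_inv_smul]
    · exact key (n • c) _ (mul_mem (mul_mem hn hu) (inv_mem hn)) _ (mul_mem (mul_mem hn hu') (inv_mem hn))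
        (ord2_conj ou n) (ord2_conj ou' n) (by simpa using ‹u ≠ u'›) (by
          rw [conj_mul, conj_mul, cm]) (PB.cj_fix uc n) hy
  · have z := WA.zstar_rel (sq1 ht) tX (fun g hg c => by
      by_contra e
      exact hr ⟨t, tX, _, mul_mem (mul_mem hg tX) (inv_mem hg), ht, ord2_conj ht g, Ne.symm e, c⟩) yN
    have nO : zpowers y ≤ N[O[N[X]]] := zp_norm (O_norm _ yN)
    refine fin (O[N[X]] ⊔ zpowers y) (sup_le (O_le _) (zp_norm yN)) (((O_odd _).mul
      (odd_card_of_le (O_odd _) ((zpowers_le.2 hy).trans (PO a)))).of_dvd_nat (card_sup_dvd (.inr nO))) ?_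
      (mem_sup_right (mem_zpowers y))
    refine mem_normalizer_of_conj_le ?_
    rw [conj_sup, conj_eq_self (O_norm _ tX), conj_zpowers]
    refine sup_le le_sup_left (zpowers_le.2 ?_)
    rw [inv2 ht, show t * y * t = t * (y * t * y⁻¹) * y by group]
    exact mul_mem (mem_sup_left z) (mem_sup_right (mem_zpowers y))

end CA

end Cfsg.Agent.SE.NA
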