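import Cfsg.Agent.SE.LB
import Cfsg.Agent.SE.NA3
import Cfsg.Agent.SE.Cy

/-! Strongly embedded subgroups: type I, and (UM) when the involutions centralise `O_p(G_a)`. -/

set_option autoImplicit false
set_option linter.unusedSectionVars false
set_option linter.unusedVariables false

namespace Cfsg.Agent.SE.TI

open Cfsg Subgroup MulAction Cfsg.Agent.GT Cfsg.Agent.Cls Cfsg.Agent.GW Cfsg.Agent.WA

universe u

variable {G Ω : Type u} [Group G] [Finite G] [MulAction G Ω] {a b c d : Ω} {s s' t v x y k g : G}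
  {P Q S X Y M N : Subgroup G} {l p : ℕ}

local notation3 "𝐌[" a "]" => piCoreOf {p} O[stabilizer G a]

/-- the subgroup generated by the involutions fixing `a` -/
def JJ (G : Type u) {Ω : Type u} [Group G] [MulAction G Ω] (a : Ω) : Subgroup G :=
  closure {s : G | orderOf s = 2 ∧ s • a = a}

theorem JJ_le : JJ G a ≤ stabilizer G a := (closure_le _).2 fun s hs => hs.2

theorem mem_JJ (o : orderOf s = 2) (e : s • a = a) : s ∈ JJ G a := subset_closure ⟨o, e⟩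

theorem JJ_le_of (h : ∀ s : G, orderOf s = 2 → s • a = a → s ∈ X) : JJ G a ≤ X :=
  (closure_le _).2 fun s hs => h s hs.1 hs.2

theorem nJJ : stabilizer G a ≤ N[JJ G a] := fun g hg => mem_normalizer_of_conj_le (by
  rw [JJ, MonoidHom.map_closure, closure_le]
  rintro _ ⟨s, hs, rfl⟩
  exact subset_closure ⟨ord2_conj hs.1 g, mul_mem (mul_mem hg hs.2) (inv_mem hg)⟩)

/-- a `p`-subgroup of `G_a` normalised by `J_a` is centralised by `J_a` modulo `M_a` -/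
theorem comm_JJ (hp : p.Prime) (p2 : p ≠ 2) (hQ : IsPGroup p Q) (le : Q ≤ stabilizer G a) (n : JJ G a ≤ N[Q]) :
    ⁅Q, JJ G a⁆ ≤ 𝐌[a] := by
  rw [piCoreOf_piCoreOf_of_mem (by simpa using p2)]
  exact ((le_inf (commutator_le_of_le_norm_left n) (commutator_le_of_le_norm_right (le.trans nJJ))).trans
    (le_piCoreOf_single hp inf_le_right (le_norm_inf n le_normalizer) (hQ.to_le inf_le_left))).trans
    (piCoreOf_le_of_normal JJ_le nJJ)

theorem M_ne (h : Ac2 G Ω) (h1 : 𝐌[a] ≠ ⊥) (b : Ω) : 𝐌[b] ≠ ⊥ := by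
  obtain ⟨g, rfl⟩ := h.tr a b
  rwa [← NA.eqvP, Ne, conj_eq_bot_iff]

variable (m : Mc G Ω)
include m

theorem norm_M (h1 : 𝐌[a] ≠ ⊥) : N[𝐌[a]] = stabilizer G a :=
  ((m.mx a).le_iff.1 PG.nM).resolve_left (norm_ne m.tw.ac m.fa h1 PG.leM)

variable (hp : p.Prime)
include hp

/-- type I -/
theorem typeI (h1 : 𝐌[a] ≠ ⊥) (I : ∀ a b : Ω, 𝐌[a] ≤ stabilizer G b → b = a) : NI G Ω := by
  have sm : ∀ a b : Ω, a ≠ b → 𝐌[a] ⊓ stabilizer G b = ⊥ := fun a b ne => semi m hp I ne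
  have JP : ∀ (a : Ω) (s : G), orderOf s = 2 → s • a = a → 𝐌[a] ≤ C1[s] := fun a s o e => LB.cen m.tw hp sm o e
  by_cases cy : ∀ a : Ω, IsCyclic 𝐌[a]
  · exact cyc m.tw hp JP cy (M_ne m.tw.ac h1) sm
  · obtain ⟨a, nc⟩ := not_forall.1 cy
    exact NA.a2p m.tw a hp JP nc sm

/-- (P1) for all points of the orbit -/
theorem p1J (nt : IsCoatom N) (n : ¬ N ≤ stabilizer G c) (hJ : JJ G c ≤ N) (h : N ⊓ 𝐌[c] ≠ ⊥) (hg : g ∈ N) :
    𝐌[g • c] ≤ piCoreOf {p} O[N] ∧ O[N] ≤ stabilizer G (g • c) := by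
  obtain ⟨s, s', o, o', ss, cm, sa, sa'⟩ := PG.two_inv m.tw c
  obtain ⟨k, e⟩ := pSub0 G Ω m.tw m.ih N c s s' nt.1 n (hJ (mem_JJ o sa)) (hJ (mem_JJ o' sa')) o o' ss cm sa
  refine ⟨?_, e ▸ k g hg⟩
  rw [← NA.eqvP, ← conj_eq_self (le_norm_piCoreOf (O_norm N) hg)]
  exact conj_mono g (p1' m hp nt n (hJ (mem_JJ o sa)) (hJ (mem_JJ o' sa')) o o' ss cm sa h)

/-- (UM), case A' -/
theorem umA (JP : ∀ s : G, orderOf s = 2 → s • c = c → 𝐌[c] ≤ C1[s]) (nt : N ≠ ⊤)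
    (hJ : ∀ s : G, orderOf s = 2 → s • c = c → s ∈ N) (n : ¬ N ≤ stabilizer G c) (h : N ⊓ 𝐌[c] ≠ ⊥) : False := by
  obtain ⟨N', co, le⟩ := exists_coatom_ge nt
  have n' : ¬ N' ≤ stabilizer G c := fun e => n (le.trans e)
  have hJ' := (JJ_le_of hJ).trans le
  have h' := ne_bot_of_le h (inf_le_inf_right _ le)
  have M1 := ne_bot_of_le h inf_le_right
  have p2 := LB.p_ne hp M1
  obtain ⟨g, hg, gc⟩ := SetLike.not_le_iff_exists.1 n'
  obtain ⟨s, -, o, -, -, -, sc, -⟩ := PG.two_inv m.tw c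
  have Qc := (piCoreOf_le {p} _).trans (p1J m hp co n' hJ' h' (one_mem _)).2
  rw [one_smul] at Qc
  have nQ := hJ'.trans (le_norm_piCoreOf (π := {p}) (O_norm N'))
  have pQ := piCoreOf_isPGroup hp O[N']
  have : piCoreOf {p} O[N'] ≤ C[zpowers s] := coprime_le_cent_of_commutator_le_cent (zp_norm (nQ (mem_JJ o sc)))
    (cop2 (odd_p hp p2 pQ) o) ((commutator_mono le_rfl (zpowers_le.2 (mem_JJ o sc))).trans
      ((comm_JJ hp p2 pQ Qc nQ).trans ((JP s o sc).trans (cent_zpowers s).ge)))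
  have := le_norm_of_cent (le_cent_symm ((p1J m hp co n' hJ' h' hg).1.trans this)) (mem_zpowers s)
  rw [norm_M m (M_ne m.tw.ac M1 _)] at this
  exact gc (PB.uniq m.tw o this sc)

end Cfsg.Agent.SE.TI
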