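import Cfsg.Agent.SE.PC4
import Cfsg.Agent.SE.Def2
import Cfsg.Agent.SE.UMA

/-! Strongly embedded subgroups: (Q5). -/

set_option autoImplicit false
set_option linter.unusedSectionVars false
set_option linter.unusedVariables false

namespace Cfsg.Agent.SE.PC

open Cfsg Subgroup MulAction Cfsg.Agent.GT Cfsg.Agent.Cls Cfsg.Agent.GW Cfsg.Agent.WA
open scoped commutatorElement

universe u

variable {G Ω : Type u} [Group G] [Finite G] [MulAction G Ω] {a b c : Ω} {t : G} {A K Q N Y : Subgroup G} {p : ℕ}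

local notation3 "𝐇" => stabilizer G a
local notation3 "𝐃" => stabilizer G a ⊓ stabilizer G b

/-- the regular normal Sylow 2-subgroup of the point stabiliser -/
theorem exQ2 (S : St a b t A K) : ∃ Q : Subgroup G, Qd a b Q ∧ IsPGroup 2 Q := by
  have X := sx S
  have s1 : HS1 a b A := S.s1
  have h : 𝐇 ≤ (𝐇 ⊓ C[A]) ⊔ 𝐃 := by
    by_cases W : 𝐃 ⊓ C[A] = ⊥
    · exact (S.sd.p3 W (fun l X hl hX X1 XD c2 => Good.mono (S.s1 l X hl hX X1 XD c2) inf_le_left)
        fun _ => PB.fu S.tw.toTw1 S.ne).elim id fun h => X.step4 (S.sd.pK h.1 h.2)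
    · exact X.step2 s1 W
  obtain ⟨Q, q⟩ := X.exQ s1 (fun N => PB.fu S.tw.toTw1 S.ne) (fun M => S.sd.nc) h
  exact ⟨Q, q, X.pQ q S.ih s1⟩

namespace Sx

variable (S : Sx a b t A K)
include S

theorem ub {u : G} (hu : u ∈ A) (e : u • b = b) : u = 1 := mem_bot.1 (S.AD ▸ mem_inf.2 ⟨hu, S.AH hu, e⟩)

theorem dvdK (hp : p.Prime) (h : Two G Ω p) : p ∣ Nat.card K := by
  have := Fact.mk hp
  obtain ⟨T, a', b', hT, ne, ha, hb, un⟩ := h.2
  obtain ⟨g, rfl⟩ := S.tw.ac.tr a a'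
  obtain ⟨h, ha', hb'⟩ := S.tw.two a b (g⁻¹ • b') S.ne.symm fun e => ne (inv_smul_eq_iff.1 e).symm
  have e1 : (g * h) • a = g • a := by rw [mul_smul, ha']
  have e2 : (g * h) • b = b' := by rw [mul_smul, hb', smul_inv_smul]
  rw [← e1, ← e2] at un
  rw [← e1] at ha
  rw [← e2] at hb
  generalize g * h = y at un ha hb
  have h1 := sb_fix ha y⁻¹
  have h2 := sb_fix hb y⁻¹
  rw [inv_smul_smul] at h1 h2
  have c : A ⊓ C[cj[y⁻¹] T] = ⊥ := eq_bot_iff.2 fun u hu => by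
    have := sb_fix (sb_fixN h2 (cent_le_norm _ hu.2)) y
    rw [conj_inv_conj] at this
    rcases un _ this with e | e
    · exact absurd (smul_left_cancel y e) (S.mv (S.AH hu.1))
    · exact mem_bot.2 (S.ub hu.1 (smul_left_cancel y e))
  have m := PG.card_modEq_card_inf_cent (hT.map (MulAut.conj y⁻¹).toMonoidHom) (h1.trans S.nA)
  rw [c, card_bot, ← S.cardK] at m
  simpa using (Nat.modEq_iff_dvd' (Nat.le_add_left 1 _)).1 m.symm

theorem q5 (q : Qd a b Q) (p2 : IsPGroup 2 Q) (hp : p.Prime) (dv : p ∣ Nat.card K) (hY : IsPGroup p Y)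
    (le : Y ≤ 𝐃 ⊓ C[A]) : Y = ⊥ := by
  by_contra ne
  obtain ⟨x, hx, ox⟩ := exists_mem_orderOf_eq hp (prime_dvd_card_of_isPGroup hp hY ne)
  obtain ⟨k, hk, ok⟩ := exists_mem_orderOf_eq hp dv
  have hx := le hx
  have x1 : x ≠ 1 := fun e => hp.one_lt.ne' (by rw [← ox, e, orderOf_one])
  have kx : zpowers k ≤ C[zpowers x] := by
    rw [cent_zpowers, zpowers_le]; exact mem_cent1.2 ((S.W0 hx).1 k hk)
  have kK : zpowers k ≤ K := zpowers_le.2 hk
  have xW : zpowers x ≤ 𝐃 ⊓ C[A] := zpowers_le.2 hx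
  have ED : zpowers k ⊔ zpowers x ≤ 𝐃 := sup_le (kK.trans S.KD) (xW.trans inf_le_left)
  have cm : IsMulCommutative ↥(zpowers k ⊔ zpowers x) := isMulCommutative_sup inferInstance inferInstance kx
  have pw : ∀ z : G, orderOf z = p → ∀ y ∈ zpowers z, y ^ p = 1 := fun z o y hy =>
    orderOf_dvd_iff_pow_eq_one.1 (o ▸ orderOf_dvd_of_mem_zpowers hy)
  have el : IsElementaryAbelian p (zpowers k ⊔ zpowers x) := ⟨cm, fun y hy => by
    obtain ⟨i, hi, j, hj, rfl⟩ := (mem_sup_of_le_norm (kx.trans (cent_le_norm _))).1 hy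
    rw [Commute.mul_pow (kx hi j hj).symm, pw k ok i hi, pw x ox j hj, one_mul]⟩
  obtain ⟨u, hu, u1⟩ := exists_ne_one_of_ne_bot S.A1
  have lt : zpowers k < zpowers k ⊔ zpowers x := lt_of_le_of_ne le_sup_left fun e =>
    (S.k1' (kK (e.ge (mem_sup_right (mem_zpowers x)))) hu (hx.2 u hu)).elim x1 u1
  have lt' := card_lt_of_lt lt
  rw [Nat.card_zpowers, ok] at lt'
  have := Fact.mk Nat.prime_two
  obtain ⟨n, hn⟩ := p2.exists_card_eq
  have cQ : Q ≤ C1[x] := coprime_abelian_gen_cent1 cm (PG.not_isCyclic_of_elemAb hp el lt')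
    (ED.trans (inf_le_left.trans q.nm)) (hn ▸ (Nat.coprime_two_left.2 (odd_card_of_le S.oD ED)).pow_left n)
    fun y hy y1 => by
      have yD := zpowers_le.2 (ED hy)
      have py : IsPGroup p (zpowers y) := (isPGroup_of_elementary el).to_le (zpowers_le.2 hy)
      obtain ⟨i, hi, j, hj, rfl⟩ := (mem_sup_of_le_norm (kx.trans (cent_le_norm _))).1 hy
      by_cases i1 : i = 1
      · rw [i1, one_mul] at y1 ⊢
        rw [← cent_eq_cent1_of_card_prime (by rwa [Nat.card_zpowers, ox]) hj y1, cent_zpowers]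
        exact inf_le_right
      have c : A ⊓ C[zpowers (i * j)] = ⊥ := eq_bot_iff.2 fun v hv => by
        have h1 := hv.2 _ (mem_zpowers _)
        rw [mul_assoc, ← (xW hj).2 v hv.1, ← mul_assoc, ← mul_assoc] at h1
        exact mem_bot.2 ((S.k1' (kK hi) hv.1 (mul_right_cancel h1).symm).resolve_left i1)
      intro z hz
      have zb : z • b = b := (S.fixl hp py yD c (sb_fixN (yD.trans inf_le_right)
        (cent_le_norm _ (cent_zpowers (i * j) ▸ hz.2)))).resolve_left (S.mv (q.le hz.1))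
      rw [S.reg q hz.1 (one_mem _) (zb.trans (one_smul _ _).symm)]
      exact one_mem _
  refine x1 (S.fa x fun d => ?_)
  by_cases da : d = a
  · rw [da]; exact hx.1.1
  obtain ⟨z, hz, rfl⟩ := S.trQ q da
  rw [← mul_smul, ← mem_cent1.1 (cQ hz), mul_smul, show x • b = b from hx.1.2]

end Sx

end Cfsg.Agent.SE.PC

namespace Cfsg.Agent.SE

open Cfsg Subgroup MulAction Cfsg.Agent.GT Cfsg.Agent.Cls Cfsg.Agent.GW Cfsg.Agent.WA

universe u

theorem pQ5 : PQ5.{u} := by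
  intro G Ω _ _ _ p w fa t0 hp p2 two Y a b ne hY le n hJ
  have oY := odd_p hp p2 hY
  have O0 : O[stabilizer G a] = ⊥ := eq_bot_iff.2 fun x hx => fa x fun d => t0 a d hx
  have YH : Y ≤ stabilizer G a := le.trans inf_le_left
  have nJ : TI.JJ G a ≤ N[Y] := TI.JJ_le_of hJ
  have YJ : Y ≤ C[TI.JJ G a] := by
    refine le_cent_of_norm_of_inf_eq_bot (YH.trans TI.nJJ) nJ (eq_bot_iff.2 (O0 ▸ ?_))
    refine (le_O inf_le_right (le_norm_inf nJ le_normalizer) (odd_card_of_le oY inf_le_left)).trans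
      (le_O ((O_le _).trans TI.JJ_le) (le_norm_piCoreOf TI.nJJ) (O_odd _))
  by_cases o : Odd (Nat.card ↥(stabilizer G a ⊓ C[TI.JJ G a]))
  · exact eq_bot_iff.2 (O0 ▸ (le_inf YH YJ).trans
      (le_O inf_le_left (le_norm_inf le_normalizer (le_norm_cent TI.nJJ)) o))
  obtain ⟨v, hv, ov⟩ := exists_inv (Nat.not_odd_iff_even.1 o)
  obtain ⟨t, ot, ta, tb⟩ := w.ex_swap ne
  have cm : ∀ s s' : G, orderOf s = 2 → orderOf s' = 2 → s • a = a → s' • a = a → s * s' = s' * s := by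
    intro s s' os os' sa sa'
    obtain ⟨k, ⟨ka, -, -, rfl⟩, -⟩ := w.kk a b t v s' ne ot ta tb ov os' hv.1 sa'
    exact conj_mem_of_le_norm (le_norm_cent TI.nJJ) ka hv.2 s (TI.mem_JJ os sa)
  have cl : Cl2 G Ω := fun c s s' os os' sc sc' => by
    obtain ⟨g, rfl⟩ := w.ac.tr a c
    have f : ∀ z : G, z • g • a = g • a → (g⁻¹ * z * g⁻¹⁻¹) • a = a := fun z e => by
      simpa using PB.cj_fix e g⁻¹
    have e := cm _ _ (ord2_conj os g⁻¹) (ord2_conj os' g⁻¹) (f s sc) (f s' sc')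
    have e' : s * s' = s' * s := mul_right_cancel (b := g) (by simpa [mul_assoc] using e)
    rw [mul_assoc, mul_assoc, ← mul_assoc s', ← e', mul_assoc, sq1 os', mul_one, sq1 os]
    exact one_mem _
  obtain ⟨A, K, S⟩ := pB (pSub pA1 pA2) G Ω (pA2 G Ω w cl) fa (fun G' Ω' _ _ _ _ => t5 G' Ω') a b t ne ot ta tb
  obtain ⟨Q, q, h2⟩ := PC.exQ2 S
  have X := PC.sx S
  refine X.q5 q h2 hp (X.dvdK hp two) hY (le_inf le (YJ.trans (cent_anti fun u hu => ?_)))
  by_cases u1 : u = 1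
  · rw [u1]; exact one_mem _
  exact TI.mem_JJ (X.o2 hu u1) (X.AH hu)

end Cfsg.Agent.SE
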