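import Cfsg.Agent.SE.Red1

/-! Connected groups not of component type: reduction to strongly embedded subgroups. -/

set_option autoImplicit false
set_option linter.unusedSectionVars false
set_option linter.unusedVariables false

namespace Cfsg.Agent.SE.Rd

open Cfsg Subgroup MulAction Cfsg.Agent.GT Cfsg.Agent.Cls Cfsg.Agent.GW Cfsg.Agent.WA

universe u

variable {G : Type u} [Group G] [Finite G] {A B E R S T U V W X Y : Subgroup G} {a b g t z : G}

/-- the closure of the signalizer functor on a four-group -/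
def WV (V : Subgroup G) : Subgroup G := ⨆ (v : G) (_ : v ∈ V) (_ : v ≠ 1), O[C1[v]]

theorem le_WV (h : a ∈ V) (h1 : a ≠ 1) : O[C1[a]] ≤ WV V :=
  le_iSup_of_le a (le_iSup_of_le h (le_iSup_of_le h1 le_rfl))

theorem WV_le (h : ∀ a ∈ V, a ≠ 1 → O[C1[a]] ≤ X) : WV V ≤ X :=
  iSup_le fun a => iSup_le fun ha => iSup_le fun h1 => h a ha h1

theorem WV_conj (g : G) (V : Subgroup G) : cj[g] (WV V) = WV cj[g] V := by
  have k : ∀ (g : G) (V : Subgroup G), cj[g] (WV V) ≤ WV cj[g] V := fun g V => conj_le_iff.2 (WV_le fun a ha h1 =>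
    conj_le_iff.1 (by rw [conj_piCoreOf, conj_cent1]; exact le_WV (conj_mem_conj.2 ha) (cne h1 g)))
  refine le_antisymm (k g V) (le_conj_iff.2 ?_)
  have := k g⁻¹ cj[g] V
  rwa [inv_conj_conj] at this

theorem e2 {n : ℕ} (h : PnElem 2 n S A) (ha : a ∈ A) (h1 : a ≠ 1) : orderOf a = 2 :=
  ord2 (sq a ▸ h.elem.2 a ha) h1

theorem up {n : ℕ} (h : PnElem 2 n S A) (ha : a ∈ S) (aa : a ^ 2 = 1) (c : a ∈ C[A]) (m : a ∉ A) :
    PnElem 2 (n + 1) S (A ⊔ zpowers a) :=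
  ⟨sup_le h.le (zpowers_le.2 ha), PG.elemAb_sup_zpowers h.elem aa c, by
    rw [PG.card_sup_zpowers Nat.prime_two (cent_le_norm _ c) (aa ▸ one_mem _) m, h.card, pow_succ']⟩

theorem four_of (ha : a ∈ S) (hb : b ∈ S) (oa : orderOf a = 2) (ob : orderOf b = 2) (ne : b ≠ a) (c : b * a = a * b) :
    PnElem 2 2 S (zpowers a ⊔ zpowers b) :=
  up (PG.pnElem_one_zpowers Nat.prime_two ha (ne1 oa) (sq a ▸ sq1 oa)) hb (sq b ▸ sq1 ob)
    (cent_zpowers a ▸ mem_cent1.2 c) fun m => (zp2' (sq1 oa) m).elim (ne1 ob) ne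

theorem NC.three (h : NC G) (hA : PnElem 2 3 S A) : ∃ M : Subgroup G, Odd (Nat.card M) ∧ ∀ V, PnElem 2 2 A V → WV V = M := by
  have F : Sg.SF 2 A fun a => O[C1[a]] := ⟨Nat.prime_two, rfl, hA.top, fun _ _ _ => O_le _,
    fun a ha _ => (hA.le_cent.trans (cent_le_cent1 ha)).trans (O_norm _), fun _ _ _ => O_solv _,
    fun _ _ _ => (O_odd _).not_two_dvd_nat, fun a ha a1 b hb b1 => h.bal (e2 hA ha a1) (e2 hA hb b1)
      (cent_le_cent1 hb (hA.le_cent ha))⟩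
  obtain ⟨M, m1, m2⟩ := F.complete
  exact ⟨M, Nat.not_even_iff_odd.1 fun e => m1.cop e.two_dvd, fun V hV => le_antisymm
    (WV_le fun a ha a1 => m2 a (hV.le ha) a1) (F.gen_line_pts m1 hV fun b hb b1 =>
      (m1.cent b (hV.le hb) b1).trans (le_WV hb b1))⟩

theorem ex_out (hU : PnElem 2 2 S U) (hV : PnElem 2 2 T V) (ne : V ≠ U) : ∃ x ∈ V, x ∉ U :=
  SetLike.not_le_iff_exists.1 fun l => ne (eq_of_le_of_card_ge l (by rw [hU.card, hV.card]))

theorem NC.meet (h : NC G) (hU : PnElem 2 2 ⊤ U) (hV : PnElem 2 2 ⊤ V) (c : V ≤ C[U]) (ha : a ∈ U) (ha' : a ∈ V)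
    (a1 : a ≠ 1) : WV U = WV V := by
  by_cases e : V = U
  · rw [e]
  obtain ⟨x, hx, xU⟩ := ex_out hU hV e
  have hA := up hU (mem_top x) (hV.elem.2 x hx) (c hx) xU
  obtain ⟨M, -, k⟩ := h.three hA
  rw [k U (hU.of_le le_sup_left), k V (hV.of_le ?_)]
  have := four_of ha' hx (e2 hV ha' a1) (e2 hV hx fun e => xU (e ▸ one_mem _)) (fun e => xU (e ▸ ha))
    (mem_cent1.1 (cent_le_cent1 ha (c hx)))
  exact (eq_of_le_of_card_ge this.le (by rw [this.card, hV.card])).ge.trans (sup_le_sup_right (zpowers_le.2 ha) _)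

theorem NC.adj (h : NC G) (k : FourAdj U V) : WV U = WV V := by
  obtain ⟨hU, hV, c⟩ := fourAdj_iff.1 k
  obtain ⟨a, ha, a1⟩ := exists_ne_one_of_ne_bot (hU.ne_bot Nat.prime_two)
  obtain ⟨b, hb, b1⟩ := exists_ne_one_of_ne_bot (hV.ne_bot Nat.prime_two)
  by_cases e : b = a
  · exact h.meet hU hV c ha (e ▸ hb) a1
  have hX := four_of (mem_top a) (mem_top b) (e2 hU ha a1) (e2 hV hb b1) e (mem_cent1.1 (cent_le_cent1 ha (c hb)))
  exact (h.meet hU hX (sup_le (zpowers_le.2 (hU.le_cent ha)) (zpowers_le.2 (c hb))) ha (mem_sup_left (mem_zpowers a)) a1).trans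
    (h.meet hX hV (le_cent_symm (sup_le (zpowers_le.2 (le_cent_symm c ha)) (zpowers_le.2 (hV.le_cent hb))))
      (mem_sup_right (mem_zpowers b)) hb b1)

/-- the standing hypothesis -/
structure Cn (S W : Subgroup G) : Prop where
  nc : NC G
  syl : IsPiHallOf {2} S ⊤
  odd : Odd (Nat.card W)
  eq : ∀ V, PnElem 2 2 S V → WV V = W
  big : ∀ z ∈ S, orderOf z = 2 → ∃ V, PnElem 2 2 S V ∧ z ∈ V ∧ ∃ A, PnElem 2 3 C[V] A ∧ V ≤ A
  ex : ∃ V, PnElem 2 2 S V

theorem exists_cn (h : NC G) (h3 : ¬ PRankLE 2 2 G) (hS : IsPiHallOf {2} S ⊤) (cn : IsFourConnected S) : ∃ W, Cn S W := by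
  have hp := Nat.prime_two
  have := Fact.mk hp
  obtain ⟨A0, hA0⟩ := PG.exists_pnElem_of_not_pRankLE (H := (⊤ : Subgroup G)) hp fun r =>
    h3 (PG.pRankLE_of_injective (topEquiv (G := G)).symm.toMonoidHom (topEquiv (G := G)).symm.injective r)
  obtain ⟨g, -, l⟩ := syl_exists_conj_le hp hS hA0.isPGroup le_top
  have hA := (hA0.conj g).of_le l
  generalize cj[g] A0 = A at hA
  obtain ⟨U, UA, cU⟩ := PG.exists_le_card_eq_pow hA.isPGroup (n := 2) (by rw [hA.card]; norm_num)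
  have hU : PnElem 2 2 A U := ⟨UA, ⟨comm_of_le hA.comm UA, fun x hx => hA.elem.2 x (UA hx)⟩, cU⟩
  obtain ⟨M, oM, k⟩ := h.three hA
  refine ⟨M, h, hS, oM, fun V hV => ?_, fun z hz oz => ?_, U, hU.mono hA.le⟩
  · rw [← k U hU]
    have := fourConn_of_le cn hV (hU.mono hA.le)
    clear hU UA cU
    induction this with
    | refl => rfl
    | tail _ s ih => exact ih.trans (h.adj s)
  obtain ⟨V, hV, zV⟩ : ∃ V, PnElem 2 2 S V ∧ z ∈ V := by
    have pS := syl_isPGroup hp hS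
    obtain ⟨y, hy, oy⟩ := exists_mem_orderOf_eq hp (prime_dvd_card_of_isPGroup hp (pS.to_le inf_le_left)
      (center_ne_bot_of_nilpotent (nilpotent_of_isPGroup hp pS) (ne_bot_of_mem hz (ne1 oz))))
    by_cases e : y = z
    · obtain ⟨x, hx, xz⟩ := SetLike.not_le_iff_exists.1 fun l : U ≤ zpowers z => by
        have := card_le_of_le l
        rw [cU, Nat.card_zpowers, oz] at this
        omega
      exact ⟨_, four_of hz (hA.le (UA hx)) oz (e2 hU hx fun e => xz (e ▸ one_mem _)) (fun e => xz (e ▸ mem_zpowers _))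
        (mem_centralizer_iff.1 (e ▸ hy.2) x (hA.le (UA hx))), mem_sup_left (mem_zpowers z)⟩
    · exact ⟨_, four_of hz hy.1 oz oy e (mem_centralizer_iff.1 hy.2 z hz).symm, mem_sup_left (mem_zpowers z)⟩
  refine ⟨V, hV, zV, ?_⟩
  by_cases e : U = V
  · exact ⟨A, hA.of_le (hA.le_cent.trans (cent_anti (e ▸ UA))), e ▸ UA⟩
  have := fourConn_of_le cn hV (hU.mono hA.le)
  clear hU UA cU
  induction this with
  | refl => exact (e rfl).elim
  | @tail B C _ s ih =>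
    by_cases q : B = V
    · obtain ⟨-, hC, c⟩ := fourAdj_iff.1 s
      obtain ⟨x, hx, xV⟩ := ex_out hV hC e
      exact ⟨_, up (hV.of_le hV.le_cent) (q ▸ c hx) (hC.elem.2 x hx) (q ▸ c hx) xV, le_sup_left⟩
    · exact ih q

namespace Cn

variable (h : Cn S W)
include h

theorem nW (hV : PnElem 2 2 S V) (l : cj[g] V ≤ S) : g ∈ N[W] :=
  conj_eq_self_iff.1 (by rw [← h.eq V hV, WV_conj, h.eq _ ((hV.conj g).of_le l), h.eq V hV])

theorem nT (hT : T ≤ S) (hV : PnElem 2 2 T V) : N[T] ≤ N[W] := fun g hg =>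
  h.nW (hV.mono hT) (((conj_mono g hV.le).trans (conj_eq_self hg).le).trans hT)

theorem SH : S ≤ N[W] := h.ex.elim fun V hV => le_normalizer.trans (h.nT le_rfl hV)

theorem eqH (hV : PnElem 2 2 N[W] V) : WV V = W := by
  obtain ⟨g, hg, l⟩ := syl_exists_conj_le Nat.prime_two (syl_of_le h.syl h.SH le_top) hV.isPGroup hV.le
  rw [← conj_inj (g := g), WV_conj, h.eq _ ((hV.conj g).of_le l), conj_eq_self hg]

theorem nT' (hT : T ≤ N[W]) (hV : PnElem 2 2 T V) : N[T] ≤ N[W] := fun g hg =>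
  conj_eq_self_iff.1 (by
    rw [← h.eqH (hV.mono hT), WV_conj, h.eqH ((hV.conj_of_mem_norm hg).mono hT), h.eqH (hV.mono hT)])

theorem big' (oz : orderOf z = 2) : ∃ g V, PnElem 2 2 cj[g] S V ∧ z ∈ V ∧ (z ∈ N[W] → g ∈ N[W]) ∧
    ∃ A, PnElem 2 3 C[V] A ∧ V ≤ A := by
  obtain ⟨g, l, k⟩ : ∃ g, g * z * g⁻¹ ∈ S ∧ (z ∈ N[W] → g ∈ N[W]) := by
    by_cases m : z ∈ N[W]
    · exact (conj_into (syl_of_le h.syl h.SH le_top) (sq1 oz) m).imp fun g k => ⟨k.2, fun _ => k.1⟩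
    · exact (conj_into h.syl (sq1 oz) (mem_top z)).imp fun g k => ⟨k.2, fun e => (m e).elim⟩
  obtain ⟨V, hV, m, A, hA, l⟩ := h.big _ l (ord2_conj oz g)
  exact ⟨g⁻¹, _, hV.conj g⁻¹, mem_conj.2 (by rwa [inv_inv]), fun e => inv_mem (k e), _,
    conj_centralizer g⁻¹ V ▸ hA.conj g⁻¹, conj_mono _ l⟩

theorem cent (hz : z ∈ N[W]) (oz : orderOf z = 2) : C1[z] ≤ N[W] := by
  have hp := Nat.prime_two
  obtain ⟨g, V, hV, zV, hg, A, hA, VA⟩ := h.big' oz
  have VH : V ≤ N[W] := hV.le.trans (conj_le_of_mem (hg hz) h.SH)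
  have Vz : C[V] ≤ C1[z] := cent_le_cent1 zV
  obtain ⟨S1, s1, l1⟩ := exists_syl_ge hp hV.isPGroup (le_inf VH (hV.le_cent.trans Vz))
  have SH := s1.le.trans inf_le_left
  have s2 := syl_of_norm_le hp s1 (s1.le.trans inf_le_right) (le_inf (inf_le_right.trans (h.nT' SH (hV.of_le l1)))
    inf_le_left)
  have OH : O[C1[z]] ≤ N[W] := ((le_WV zV (ne1 oz)).trans (h.eqH (hV.of_le VH)).le).trans le_normalizer
  obtain ⟨Q, _, _, f, sj, hk, c⟩ := h.nc z oz
  have nK : C1[z] ≤ N[pre f (piCoreOf {2} ⊤)] := dom_le_norm_pre (le_top.trans (self_le_norm_piCoreOf _ _))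
  have sT := syl_inf_normal hp s2 pre_le nK
  have pT := piCoreOf_isPGroup hp (⊤ : Subgroup Q)
  have iT : im f (S1 ⊓ pre f (piCoreOf {2} ⊤)) = piCoreOf {2} ⊤ := by
    have := sT.im (f := f) pre_le
    rw [im_pre_of_surj sj] at this
    exact (syl_eq_of_le hp this pT le_rfl this.le).symm
  have KH : pre f (piCoreOf {2} ⊤) ≤ N[W] := by
    rw [← iT, pre_im (inf_le_right.trans pre_le), hk]
    exact sup_le (inf_le_left.trans SH) OH
  have i0 : ∀ B : Subgroup G, IsPGroup 2 B → B ⊓ kr f = ⊥ := fun B pB =>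
    GT.inf_eq_bot_of_coprime (by rw [hk]; exact (cop2' (O_odd _) pB).symm)
  by_cases r : PRankLE 2 1 ↥(piCoreOf {2} (⊤ : Subgroup Q))
  · have Az := hA.le.trans Vz
    have := rank_one pT (self_le_norm_piCoreOf _ _) c le_top r (A := im f A) ⟨le_top, PG.elemAb_im hA.elem, by
      rw [card_im_of_inf_eq_bot Az (i0 A hA.isPGroup), hA.card]⟩
    rw [piCoreOf_eq_self (isPi_of_isPGroup hp this), pre_top] at KH
    exact KH
  have Tz : S1 ⊓ pre f (piCoreOf {2} ⊤) ≤ C1[z] := inf_le_right.trans pre_le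
  obtain ⟨e⟩ := nonempty_equiv_im Tz (i0 _ (syl_isPGroup hp sT))
  obtain ⟨U, hU⟩ := PG.exists_pnElem_of_not_pRankLE hp fun r' =>
    r (iT ▸ PG.pRankLE_of_injective e.symm.toMonoidHom e.symm.injective r')
  intro x hx
  obtain ⟨k, hk, n, hn, rfl⟩ := frattini_arg_exists hp sT (nK hx)
  exact mul_mem (KH hk) (h.nT' (inf_le_left.trans SH) hU hn)

theorem ac (ne : N[W] ≠ ⊤) : Ac2 G (G ⧸ N[W]) := by
  have fx : ∀ z g : G, z • (g : G ⧸ N[W]) = g ↔ g⁻¹ * z * g ∈ N[W] := fun z g => by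
    rw [eq_comm, mul_assoc]; exact QuotientGroup.eq
  refine ⟨exists_smul_eq G, QuotientGroup.nontrivial_iff.2 ne, fun z o => ?_, ?_⟩
  · obtain ⟨g, -, m⟩ := conj_into h.syl (sq1 o) (mem_top z)
    refine existsUnique_of_exists_of_unique ⟨(g⁻¹ : G), (fx _ _).2 (by rw [inv_inv]; exact h.SH m)⟩ fun a b ha hb => ?_
    obtain ⟨a, rfl⟩ := QuotientGroup.mk_surjective a
    obtain ⟨b, rfl⟩ := QuotientGroup.mk_surjective b
    rw [fx] at ha hb
    have oc : ∀ g : G, orderOf (g⁻¹ * z * g) = 2 := fun g => by simpa [o] using orderOf_conj g⁻¹ z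
    obtain ⟨g', V, hV, zV, -⟩ := h.big' (oc a)
    have l1 : V ≤ C1[a⁻¹ * z * a] := hV.le_cent.trans (cent_le_cent1 zV)
    have l2 : cj[b⁻¹ * a] V ≤ N[W] := (conj_mono _ l1).trans (by
      rw [conj_cent1, show b⁻¹ * a * (a⁻¹ * z * a) * (b⁻¹ * a)⁻¹ = b⁻¹ * z * b by group]
      exact h.cent hb (oc b))
    have e1 := h.eqH (hV.of_le (l1.trans (h.cent ha (oc a))))
    have e2 := h.eqH ((hV.conj _).of_le l2)
    rw [← WV_conj, e1] at e2
    exact (QuotientGroup.eq.2 (conj_eq_self_iff.1 e2)).symm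
  · obtain ⟨V, hV⟩ := h.ex
    obtain ⟨a, ha, a1⟩ := exists_ne_one_of_ne_bot (hV.ne_bot Nat.prime_two)
    obtain ⟨x, hx, xa⟩ := SetLike.not_le_iff_exists.1 fun l : V ≤ zpowers a => by
      have := card_le_of_le l
      rw [hV.card, Nat.card_zpowers, e2 hV ha a1] at this
      omega
    exact ⟨a, x, e2 hV ha a1, e2 hV hx fun e => xa (e ▸ one_mem _), fun e => xa (e ▸ mem_zpowers _),
      mem_centralizer_iff.1 (hV.le_cent hx) a ha⟩

theorem bot (hO : O[(⊤ : Subgroup G)] = ⊥) (t0 : Ac2 G (G ⧸ N[W]) → T0 G (G ⧸ N[W])) : W = ⊥ := by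
  refine eq_bot_iff.2 (hO ▸ ?_)
  by_cases e : N[W] = ⊤
  · exact le_O le_top e.ge h.odd
  have k : ∀ g : G, ∀ x ∈ O[N[W]], g⁻¹ * x * g ∈ N[W] := fun g x hx => by
    have := t0 (h.ac e) ((1 : G) : G ⧸ N[W]) (g : G ⧸ N[W]) (by rwa [stabilizer_quotient])
    rw [mul_assoc]
    exact QuotientGroup.eq.1 (mem_stabilizer_iff.1 this).symm
  have l : O[N[W]] ≤ (N[W]).normalCore := fun x hx g => by simpa using k g⁻¹ x hx
  refine (le_O le_normalizer le_rfl h.odd).trans ((piCoreOf_le_of_le_of_le l (normalCore_le _)).trans ?_)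
  exact piCoreOf_le_of_normal le_top le_norm_of_normal

end Cn

/-- S0504 from the theorem on strongly embedded subgroups. -/
theorem red (t0 : ∀ H : Subgroup G, Ac2 G (G ⧸ H) → T0 G (G ⧸ H)) (h3 : ¬ PRankLE 2 2 G) (hO : oddCore G = ⊥)
    (hc : ¬ IsComponentType G) (S : Sylow 2 G) (hS : IsFourConnected (S : Subgroup G)) : IsCharacteristicTwoType G := by
  obtain ⟨W, h⟩ := exists_cn (nc_of hc) h3 (syl_top_of_sylow Nat.prime_two S) hS
  have b := h.bot ((piCoreOf_top_compl Nat.prime_two).trans hO) (t0 _)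
  obtain ⟨V0, hV0⟩ := h.ex
  refine char_two h.nc (even_iff_two_dvd.2 (hV0.dvd_card.trans (card_subgroup_dvd_card _))) fun t ht => ?_
  obtain ⟨g, V, hV, m, -⟩ := h.big' ht
  have := h.eq _ ((hV.conj g⁻¹).of_le ((hV.conj g⁻¹).le.trans (inv_conj_conj g _).le))
  rw [← WV_conj, b, conj_eq_bot_iff] at this
  exact eq_bot_iff.2 (this ▸ le_WV m (ne1 ht))

theorem red1 (t1 : TZ.{u}) (h3 : ¬ PRankLE 2 2 G) (hO : oddCore G = ⊥) (hc : ¬ IsComponentType G) (S : Sylow 2 G)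
    (hS : IsFourConnected (S : Subgroup G)) : IsCharacteristicTwoType G :=
  red (fun H a => t1 G _ a) h3 hO hc S hS

end Cfsg.Agent.SE.Rd
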