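import Cfsg.Agent.SE.ST0
import Cfsg.Agent.GT.PStable
import Cfsg.Agent.PG.Frattini

/-! Strongly embedded subgroups: stability. -/

set_option autoImplicit false
set_option linter.unusedSectionVars false
set_option linter.unusedVariables false

namespace Cfsg.Agent.SE

open Cfsg Subgroup MulAction Cfsg.Agent.GT Cfsg.Agent.Cls Cfsg.Agent.GW Cfsg.Agent.WA
open scoped commutatorElement

universe u

def PQ1 : Prop := ∀ (G : Type u) [Group G] [Finite G] (p : ℕ), p.Prime → p ≠ 2 → ∀ (E : Subgroup G), IsPGroup p E →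
  IsMulCommutative E → ∀ x y u : G, x ∈ N[E] → y ∈ N[E] → ⁅E, zpowers x⁆ ≤ C1[x] → ⁅E, zpowers y⁆ ≤ C1[y] →
  u ∈ zpowers x ⊔ zpowers y → u * u ∈ C[E] → u * x * u⁻¹ * x⁻¹ ∈ C[E]

namespace ST

variable {G Q Ω : Type u} [Group G] [Finite G] [Group Q] [Finite Q] [MulAction G Ω] [MulAction Q Ω] {f : G →* Q}
  {p : ℕ} {P A : Subgroup G}

theorem t0_quo (h : T0 G Ω) (hf : Function.Surjective f) (ko : Odd (Nat.card f.ker))
    (e : ∀ (g : G) (a : Ω), f g • a = g • a) : T0 Q Ω := fun a b y hy => by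
  obtain ⟨x, rfl⟩ := hf y
  have := h a b (show x ∈ O[stabilizer G a] by rwa [← stab_comap e, O_comap hf ko])
  exact (e x b).trans this

theorem two_quo (hp : p.Prime) (h : Two G Ω p) (hf : Function.Surjective f)
    (e : ∀ (g : G) (a : Ω), f g • a = g • a) : Two Q Ω p := by
  have k : ∀ (T : Subgroup G) (a : Ω), T.map f ≤ stabilizer Q a ↔ T ≤ stabilizer G a := fun T a => by
    rw [map_le_iff_le_comap, stab_comap e]
  refine ⟨fun T pT => ?_, ?_⟩
  · obtain ⟨S, hS⟩ := exists_syl hp (T.comap f)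
    obtain ⟨a, b, n, h1, h2⟩ := h.1 S (syl_isPGroup hp hS)
    have m : IsPiHallOf {p} (S.map f) T := by
      have := isPiHallOf_mk (map_mono (f := f) hS.le) (hS.isPi.map f)
        (hS.idx.of_dvd (relIndex_comap (S.map f) f _ ▸ relIndex_dvd_of_le_left _ (le_comap_map f S)))
      rwa [map_comap_eq_self_of_surjective hf] at this
    rw [← m.eq_self (isPi_of_isPGroup hp pT)]
    exact ⟨a, b, n, (k _ _).2 h1, (k _ _).2 h2⟩
  · obtain ⟨T, a, b, pT, n, h1, h2, h3⟩ := h.2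
    exact ⟨T.map f, a, b, pT.map f, n, (k _ _).2 h1, (k _ _).2 h2, fun d hd => h3 d ((k _ _).1 hd)⟩

theorem st1 (q1 : PQ1.{u}) (q5 : PQ5.{u}) (h : Ac2 G Ω) (t0 : T0 G Ω) (hp : p.Prime) (p2 : p ≠ 2) (two : Two G Ω p)
    (pP : IsPGroup p P) [nP : P.Normal] (oC : Odd (Nat.card C[P])) (pA : IsPGroup p A) (cA : IsMulCommutative A)
    (PA : P ≤ N[A]) : A ≤ O[(⊤ : Subgroup G)] := by
  have : Fact p.Prime := ⟨hp⟩
  obtain ⟨X, _, _, _, f, sf, ko, e, fa, -⟩ := h.exists_quo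
  obtain ⟨φ, hφ⟩ : ∃ φ, φ = QuotientGroup.mk' ⁅P, P⁆ := ⟨_, rfl⟩
  have kφ : ∀ x, φ x = 1 ↔ x ∈ ⁅P, P⁆ := fun x => by rw [hφ]; exact QuotientGroup.eq_one_iff x
  have sφ : Function.Surjective φ := hφ ▸ QuotientGroup.mk'_surjective _
  obtain ⟨E, hE⟩ : ∃ E, E = P.map φ := ⟨_, rfl⟩
  have nE : E.Normal := hE ▸ nP.map φ sφ
  have NE : ∀ x, x ∈ N[E] := fun x => (normalizer_eq_top_iff.2 nE).ge (mem_top x)
  have pE : IsPGroup p E := hE ▸ pP.map φ
  have cE : IsMulCommutative E := by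
    rw [hE]
    refine ⟨⟨?_⟩⟩
    rintro ⟨_, x, hx, rfl⟩ ⟨_, y, hy, rfl⟩
    refine Subtype.ext (commutatorElement_eq_one_iff_mul_comm.1 ?_)
    rw [← map_commutatorElement, kφ]
    exact commutator_mem_commutator hx hy
  have nC : (C[E].comap φ).Normal := inferInstance
  have oC' : Odd (Nat.card (C[E].comap φ)) := by
    rw [← Nat.not_even_iff_odd]
    intro ev
    obtain ⟨s, hs, o⟩ := exists_inv ev
    have : zpowers s ≤ C[P] := coprime_le_cent_of_commutator_le_frattini (Or.inl (solvable_of_isPGroup hp pP))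
      (zpowers_le.2 ((normalizer_eq_top_iff.2 nP).ge (mem_top s))) (cop2 (odd_p hp p2 pP) o)
      ((commutator_le.2 fun x hx y hy => by
        rw [← kφ, map_commutatorElement, commutatorElement_eq_one_iff_mul_comm]
        exact (zpowers_le.2 hs hy) _ (hE ▸ mem_map_of_mem φ hx)).trans (PG.commutator_le_phi pP))
    exact absurd (o ▸ odd_ord oC (this (mem_zpowers s))) (by decide)
  have Ck : C[E].comap φ ≤ f.ker := fun x hx => fa _ fun b => (e x b).trans (by
    obtain ⟨s, s', o, o', ne, cm⟩ := h.rk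
    obtain ⟨a, sa, -⟩ := h.fix s o
    have n := fun g => (normalizer_eq_top_iff.2 nC).ge (mem_top g)
    exact t0 a b (le_O ((pA1 G Ω h).four a s s' _ o o' ne cm sa oC' (n s) (n s')) (fun g _ => n g) oC' hx))
  have k : ∀ y ∈ f '' {x | IsPGroup p (zpowers x) ∧ ⁅E, zpowers (φ x)⁆ ≤ C1[φ x]}, y = 1 := fun y hy => by
    refine st0 (pA1 X Ω (h.quo sf ko e)) hp p2 (two_quo hp two sf e) (q5 X Ω p (pA1 X Ω (h.quo sf ko e)) fa
      (t0_quo t0 sf ko e) hp p2 (two_quo hp two sf e)) ?_ ?_ ?_ hy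
    · rintro g _ ⟨x, ⟨h1, h2⟩, rfl⟩
      obtain ⟨g, rfl⟩ := sf g
      refine ⟨g * x * g⁻¹, ⟨by rw [← conj_zpowers]; exact h1.map _, ?_⟩, by simp⟩
      have := conj_mono (φ g) h2
      rwa [conj_commutator, conj_eq_self (NE _), conj_zpowers, conj_cent1, ← map_inv, ← map_mul, ← map_mul] at this
    · rintro _ ⟨x, ⟨h1, -⟩, rfl⟩
      rw [← MonoidHom.map_zpowers]
      exact h1.map f
    · rintro _ ⟨x, ⟨-, qx⟩, rfl⟩ _ ⟨y, ⟨-, qy⟩, rfl⟩
      rw [← MonoidHom.map_zpowers, ← MonoidHom.map_zpowers, ← Subgroup.map_sup]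
      have m : (zpowers x ⊔ zpowers y).map φ = zpowers (φ x) ⊔ zpowers (φ y) := by
        rw [Subgroup.map_sup, MonoidHom.map_zpowers, MonoidHom.map_zpowers]
      rcases Nat.even_or_odd (Nat.card ↥(zpowers x ⊔ zpowers y)) with ev | od
      · obtain ⟨u, hu, o⟩ := exists_inv ev
        refine Or.inr ⟨f u, mem_map_of_mem f hu, map_inv2 ko o, ?_⟩
        have := Ck (x := u * x * u⁻¹ * x⁻¹) (by
          simpa only [mem_comap, map_mul, map_inv] using q1 _ p hp p2 E pE cE (φ x) (φ y) (φ u) (NE _) (NE _) qx qy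
            (m ▸ mem_map_of_mem φ hu) (by rw [← map_mul, sq1 o, map_one]; exact one_mem _))
        rw [MonoidHom.mem_ker, map_mul, map_mul, map_mul, map_inv, map_inv, mul_inv_eq_one, mul_inv_eq_iff_eq_mul] at this
        exact this
      · have := odd_quadratic_pair hp pE (NE _) (NE _) qx qy (m ▸ od.of_dvd_nat (card_map_dvd _ φ))
        rw [← m, ← relIndex_comap] at this
        refine Or.inl (IsPiSubgroup.isPGroup ?_ hp)
        have := this.of_dvd (relIndex_dvd_of_le_left _ Ck)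
        rwa [relIndex_ker] at this
  refine le_trans (fun x hx => k _ ⟨x, ⟨pA.to_le (zpowers_le.2 hx), ?_⟩, rfl⟩) (le_O le_top
    (normalizer_eq_top_iff.2 (MonoidHom.normal_ker f)).ge ko)
  rw [hE, ← MonoidHom.map_zpowers, ← map_commutator, map_le_iff_le_comap]
  refine le_trans (commutator_le.2 fun g hg y hy => ?_) fun z (hz : z ∈ A) => mem_cent1.2 ?_
  · exact mul_mem (conj_mem_of_le_norm PA hg (zpowers_le.2 hx hy)) (inv_mem (zpowers_le.2 hx hy))
  · rw [← map_mul, ← map_mul]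
    exact congrArg φ (congrArg Subtype.val (cA.is_comm.comm (⟨z, hz⟩ : A) ⟨x, hx⟩))

end ST

theorem pST (q1 : PQ1.{u}) (q5 : PQ5.{u}) : PST.{u} := by
  intro G Ω _ _ _ p m hp p2 two M c F P A pP PM nP oC AM pA cA PA
  obtain ⟨s, hs, s', hs', o, o', ne, cm, sc⟩ := F.four
  have a := m.tw.sub F.nle hs hs' o o' ne cm sc
  have t0 := m.ih M _ (card_lt_of_ne_top F.ne) a
  have k : ∀ (T : Subgroup M) (d : orbit M c), T ≤ stabilizer M d ↔ T.map M.subtype ≤ stabilizer G (d : Ω) := fun T d => by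
    rw [map_le_iff_le_comap]
    exact forall₂_congr fun x _ => Subtype.ext_iff
  have tw : Two M (orbit M c) p := by
    obtain ⟨T, g, hg, g', hg', pT, TM, n, h1, h2, h3⟩ := F.ex
    obtain ⟨T, rfl⟩ := exists_map_subtype_eq TM
    have pT' : IsPGroup p T := (pT.comap_of_injective M.subtype M.subtype_injective).to_le (le_comap_map _ _)
    refine ⟨fun U pU => ?_, T, ⟨_, mem_orbit c (⟨g, hg⟩ : M)⟩, ⟨_, mem_orbit c (⟨g', hg'⟩ : M)⟩, pT',
      fun e => n (congrArg Subtype.val e), (k _ _).2 h1, (k _ _).2 h2,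
      fun d hd => (h3 d ((k _ _).1 hd)).imp Subtype.ext Subtype.ext⟩
    obtain ⟨S, hS, l⟩ := exists_syl_ge hp pT' (le_top (a := T))
    obtain ⟨y, -, hy⟩ := syl_exists_le_conj hp hS pU le_top
    obtain ⟨d, d', nd, h4, h5⟩ := two.1 _ ((syl_isPGroup hp hS).map M.subtype)
    have r : ∀ d : Ω, S.map M.subtype ≤ stabilizer G d → d ∈ orbit M c := fun d hd => by
      rcases h3 d ((map_mono l).trans hd) with rfl | rfl
      exacts [mem_orbit c (⟨g, hg⟩ : M), mem_orbit c (⟨g', hg'⟩ : M)]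
    have r' : ∀ d : orbit M c, S ≤ stabilizer M d → U ≤ stabilizer M (y • d) := fun d hd => by
      rw [stabilizer_smul_eq_stabilizer_map_conj]
      exact hy.trans (map_mono hd)
    exact ⟨y • ⟨d, r d h4⟩, y • ⟨d', r d' h5⟩, fun e => nd (congrArg Subtype.val (smul_left_cancel y e)),
      r' _ ((k _ _).2 h4), r' _ ((k _ _).2 h5)⟩
  have nP' : (P.subgroupOf M).Normal := (normal_subgroupOf_iff_le_normalizer PM).2 nP
  have o1 : Odd (Nat.card ↥((M ⊓ C[P]).subgroupOf M)) := by rwa [card_subgroupOf inf_le_left]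
  have l1 : C[P.subgroupOf M] ≤ (M ⊓ C[P]).subgroupOf M := fun x hx =>
    (show (x : G) ∈ M ⊓ C[P] from ⟨x.2, fun y hy => congrArg Subtype.val (hx ⟨y, PM hy⟩ hy)⟩)
  have c1 : IsMulCommutative (A.subgroupOf M) := ⟨⟨fun x y => Subtype.ext (Subtype.ext
    (congrArg (Subtype.val : A → G) (cA.is_comm.comm (⟨x, x.2⟩ : A) ⟨y, y.2⟩)))⟩⟩
  have := ST.st1 (P := P.subgroupOf M) (A := A.subgroupOf M) q1 q5 a t0 hp p2 tw pP.comap_subtype
    (odd_card_of_le o1 l1) pA.comap_subtype c1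
    fun x hx => mem_normalizer_fintype fun y hy => conj_mem_of_le_norm PA hx hy
  have := map_mono (f := M.subtype) this
  rwa [map_subgroupOf_eq_of_le AM, piCoreOf_map M.subtype_injective, ← MonoidHom.range_eq_map, range_subtype] at this

end Cfsg.Agent.SE
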