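import Cfsg.Agent.SE.TI
import Cfsg.Agent.SE.Def2

/-! Strongly embedded subgroups, type II: the family of good proper subgroups is nonempty. -/

set_option autoImplicit false
set_option linter.unusedSectionVars false
set_option linter.unusedVariables false

namespace Cfsg.Agent.SE

open Cfsg Subgroup MulAction Cfsg.Agent.GT Cfsg.Agent.Cls Cfsg.Agent.GW Cfsg.Agent.WA

universe u

namespace T3

variable {G Ω : Type u} [Group G] [Finite G] [MulAction G Ω] {a b c d : Ω} {s s' t v x y k g : G}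
  {P Q S X Y M N : Subgroup G} {l p : ℕ}

local notation3 "𝐌[" a "]" => piCoreOf {p} O[stabilizer G a]

omit [Finite G] in
/-- an element of odd order swaps no two points -/
theorem odd_swap (o : Odd (orderOf k)) (e1 : k • a = b) (e2 : k • b = a) : a = b := by
  obtain ⟨j, hj⟩ := o
  have h : k ^ 2 ∈ stabilizer G a := by rw [mem_stabilizer_iff, sq, mul_smul, e1, e2]
  have h2 : (k ^ 2) ^ j • a = a := pow_mem h j
  have h3 : (k ^ orderOf k) • a = k • a := by rw [hj, pow_succ', mul_smul, pow_mul, h2]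
  rw [pow_orderOf_eq_one, one_smul] at h3
  exact h3.trans e1

/-- `Q` fixes three points -/
def F3 (Ω : Type u) [MulAction G Ω] (Q : Subgroup G) : Prop := ∃ a b c : Ω, a ≠ b ∧ a ≠ c ∧ b ≠ c ∧
  Q ≤ stabilizer G a ∧ Q ≤ stabilizer G b ∧ Q ≤ stabilizer G c

theorem F3.mono (h : F3 Ω Q) (le : P ≤ Q) : F3 Ω P := by
  obtain ⟨a, b, c, h1, h2, h3, ha, hb, hc⟩ := h
  exact ⟨a, b, c, h1, h2, h3, le.trans ha, le.trans hb, le.trans hc⟩

theorem F3.conj (h : F3 Ω Q) (g : G) : F3 Ω (cj[g] Q) := by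
  obtain ⟨a, b, c, h1, h2, h3, ha, hb, hc⟩ := h
  exact ⟨g • a, g • b, g • c, by simpa, by simpa, by simpa, sb_fix ha g, sb_fix hb g, sb_fix hc g⟩

theorem F3.at (h : F3 Ω Q) (hd : Q ≤ stabilizer G d) : ∃ b c : Ω, d ≠ b ∧ d ≠ c ∧ b ≠ c ∧
    Q ≤ stabilizer G b ∧ Q ≤ stabilizer G c := by
  obtain ⟨a, b, c, h1, h2, h3, ha, hb, hc⟩ := h
  by_cases e : d = b
  · exact ⟨a, c, e ▸ h1.symm, e ▸ h3, h2, ha, hc⟩
  by_cases e' : d = c
  · exact ⟨a, b, e' ▸ h2.symm, e, h1, ha, hb⟩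
  exact ⟨b, c, e, e', h3, hb, hc⟩

theorem two_of (n : ¬ F3 Ω Q) (ne : a ≠ b) (ha : Q ≤ stabilizer G a) (hb : Q ≤ stabilizer G b)
    (hd : Q ≤ stabilizer G d) : d = a ∨ d = b := by
  by_contra h
  obtain ⟨h1, h2⟩ := not_or.1 h
  exact n ⟨a, b, d, ne, Ne.symm h1, Ne.symm h2, ha, hb, hd⟩

/-- a maximal `p`-group with three fixed points -/
theorem maxF3 (w : Tw1 G Ω) (hp : p.Prime) (pP : IsPGroup p P) (f : F3 Ω P)
    (mx : ∀ Q : Subgroup G, IsPGroup p Q → F3 Ω Q → P ≤ Q → Q = P) (hd : P ≤ stabilizer G d) :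
    ∃ v ∈ N[P], orderOf v = 2 ∧ v • d = d := by
  obtain ⟨b, c, h1, h2, h3, hb, hc⟩ := f.at hd
  obtain ⟨v, e, Q, ov, vd, ne, le, n, hQ⟩ := FL.fl_syl w.ac hp pP h1 h2 h3 hd hb hc
  refine ⟨v, mx Q (syl_isPGroup hp hQ) ⟨d, e, v • e, ne.symm, fun h => ne (smul_left_cancel v (h.symm.trans vd.symm)),
    fun h => ne (PB.uniq w ov h.symm vd), hQ.le.trans inf_le_left, hQ.le.trans (inf_le_right.trans inf_le_left),
    hQ.le.trans (inf_le_right.trans inf_le_right)⟩ le ▸ n, ov, vd⟩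

/-- (3) -/
theorem three (m : Mc G Ω) (hp : p.Prime) (M1 : ∀ e : Ω, 𝐌[e] ≠ ⊥) (ne : a ≠ b) (ed : 𝐌[b] ≤ stabilizer G a)
    (f2 : ∀ Q : Subgroup G, IsPGroup p Q → ∃ a b : Ω, a ≠ b ∧ Q ≤ stabilizer G a ∧ Q ≤ stabilizer G b)
    (n3 : ∃ Q : Subgroup G, IsPGroup p Q ∧ ¬ F3 Ω Q) :
    ∃ (N Y : Subgroup G) (c a b : Ω) (s s' : G), N ≠ ⊤ ∧ ¬ N ≤ stabilizer G c ∧ s ∈ N ∧ s' ∈ N ∧ orderOf s = 2 ∧
      orderOf s' = 2 ∧ s ≠ s' ∧ s * s' = s' * s ∧ s • c = c ∧ N ⊓ 𝐌[c] ≠ ⊥ ∧ IsPiHallOf {p} Y N ∧ a ≠ b ∧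
      a ∈ orbit N c ∧ b ∈ orbit N c ∧ ∀ d, Y ≤ stabilizer G d ↔ d = a ∨ d = b := by
  have w := m.tw
  obtain ⟨s, os, sb⟩ := w.ac.ac.ex_inv b
  have f0 : F3 Ω 𝐌[b] := ⟨b, a, s • a, ne.symm, fun h => ne (smul_left_cancel s (h.symm.trans sb.symm)),
    fun h => ne (PB.uniq w os h.symm sb), PG.leM, ed, sb_fixN ed (PG.nM sb)⟩
  obtain ⟨P, ⟨pP, f⟩, le, mx'⟩ := exists_maximal_ge (S := {Q : Subgroup G | IsPGroup p Q ∧ F3 Ω Q})
    ⟨piCoreOf_isPGroup hp _, f0⟩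
  have mx : ∀ Q : Subgroup G, IsPGroup p Q → F3 Ω Q → P ≤ Q → Q = P := fun Q h1 h2 h3 => mx' Q ⟨h1, h2⟩ h3
  have iv := fun (d : Ω) hd => maxF3 (d := d) w hp pP f mx hd
  have sw : ∀ d e : Ω, d ≠ e → P ≤ stabilizer G d → P ≤ stabilizer G e →
      ∃ t ∈ N[P], orderOf t = 2 ∧ t • d = e ∧ t • e = d := fun d e n hd he => by
    obtain ⟨v, hv, ov, vd⟩ := iv d hd
    obtain ⟨v', hv', ov', ve⟩ := iv e he
    obtain ⟨-, t, ht, ot, -, h1, h2⟩ := w.mid d e v v' n ov ov' vd ve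
    exact ⟨t, V_le hv hv' ht, ot, h1, h2⟩
  obtain ⟨Y, hY, PY⟩ := exists_syl_ge hp pP (le_normalizer (H := P))
  have pY := syl_isPGroup hp hY
  have nY : ¬ F3 Ω Y := fun h => by
    have e := mx Y pY h PY
    subst e
    obtain ⟨Q, pQ, nQ⟩ := n3
    obtain ⟨g, -, hg⟩ := syl_exists_conj_le hp (syl_of_syl_norm hp (M := ⊤) (by rwa [top_inf_eq])) pQ le_top
    have := (h.mono hg).conj g⁻¹
    rw [← mul_conj, inv_mul_cancel, one_conj] at this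
    exact nQ this
  obtain ⟨a, b, ne, ha, hb⟩ := f2 Y pY
  have fx : ∀ d, Y ≤ stabilizer G d ↔ d = a ∨ d = b := fun d =>
    ⟨two_of nY ne ha hb, by rintro (rfl | rfl) <;> assumption⟩
  obtain ⟨t, tN, ht, ta, tb⟩ := sw a b ne (PY.trans ha) (PY.trans hb)
  obtain ⟨v, hv, ov, va⟩ := iv a (PY.trans ha)
  obtain ⟨c, tc, -⟩ := w.ac.fix t ht
  have ac : a ≠ c := by rintro rfl; exact ne (tc.symm.trans ta)
  obtain ⟨-, t', ht', ot', e', h1, h2⟩ := w.mid a c v t ac ov ht va tc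
  have t'N := V_le hv tN ht'
  have oa : ∀ d, a ∈ orbit N[P] d → ∀ e, P ≤ stabilizer G e → e ∈ orbit N[P] d := fun d hd e he => by
    by_cases h : a = e
    · exact h ▸ hd
    obtain ⟨z, hz, -, za, -⟩ := sw a e h (PY.trans ha) he
    obtain ⟨y, hy⟩ := hd
    exact ⟨⟨z, hz⟩ * y, by simp only [mul_smul]; rw [show y • d = a from hy]; exact za⟩
  by_cases hr : ∃ u ∈ N[P], ∃ u' ∈ N[P], orderOf u = 2 ∧ orderOf u' = 2 ∧ u ≠ u' ∧ u * u' = u' * u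
  · obtain ⟨u, hu, u', hu', ou, ou', n, cm⟩ := hr
    obtain ⟨c, uc, -⟩ := w.ac.fix u ou
    have Pc := w.four c u u' P ou ou' n cm uc (odd_card_of_le (w.odd a b ne) (PY.trans (le_inf ha hb))) hu hu'
    have oc : a ∈ orbit N[P] c := by
      by_cases h : c = a
      · exact h ▸ mem_orbit_self c
      obtain ⟨z, hz, -, za, -⟩ := sw c a h Pc (PY.trans ha)
      exact ⟨⟨z, hz⟩, za⟩
    refine ⟨N[P], Y, c, a, b, u, u', TI.norm_ne w.ac m.fa (ne_bot_of_le (M1 _) le) Pc, fun l => ?_, hu, hu', ou, ou', n,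
      cm, uc, ?_, hY, ne, oc, oa c oc b (PY.trans hb), fx⟩
    · obtain ⟨y, hy⟩ := oc
      obtain ⟨z, hz⟩ := oa c ⟨y, hy⟩ b (PY.trans hb)
      exact ne (hy.symm.trans ((show (y : G) • c = c from l y.2).trans ((show (z : G) • c = c from l z.2).symm.trans hz)))
    · rw [inf_comm]
      exact ne_bot_of_le (inf_cent_ne_bot_of_isPGroup hp (piCoreOf_isPGroup hp _) pP (Pc.trans PG.nM) (M1 c))
        (inf_le_inf_left _ (cent_le_norm _))
  · exfalso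
    have z := WA.zstar_rel (sq1 ht) tN (fun g hg c => by
      by_contra e
      exact hr ⟨t, tN, _, mul_mem (mul_mem hg tN) (inv_mem hg), ht, ord2_conj ht g, Ne.symm e, c⟩) t'N
    rw [inv2 ot', ← e', show t' * (t' * v * t') * t' = (t' * t') * v * (t' * t') by group, sq1 ot', one_mul, mul_one,
      e'] at z
    have nO : Y ≤ N[O[N[P]]] := hY.le.trans (O_norm _)
    have LN : O[N[P]] ⊔ Y ≤ N[P] := sup_le (O_le _) hY.le
    have oL : Odd (Nat.card ↥(O[N[P]] ⊔ Y)) :=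
      ((O_odd _).mul (odd_card_of_le (w.odd a b ne) (le_inf ha hb))).of_dvd_nat (card_sup_dvd (.inr nO))
    have ga : (t * v) • a = b := by rw [mul_smul, va, ta]
    obtain ⟨g, hg, le2⟩ := syl_exists_conj_le hp (syl_of_le hY (le_inf le_sup_right hb) (inf_le_left.trans LN))
      (Q := cj[t * v] Y) (pY.map _) (le_inf ((conj_mono _ le_sup_right).trans
        (conj_eq_self (le_normalizer (mem_sup_left z))).le) (ga ▸ sb_fix ha _))
    rw [← mul_conj] at le2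
    have kN : g * (t * v) ∈ N[Y] := by
      rw [← conj_eq_self_iff]; exact eq_of_le_of_card_ge le2 (card_conj _ _).ge
    have ka : (g * (t * v)) • a = b := by rw [mul_smul, ga]; exact hg.2
    refine ne (odd_swap (odd_ord oL (mul_mem hg.1 (mem_sup_left z))) ka ?_)
    exact ((fx _).1 (sb_fixN hb kN)).resolve_right fun e => ne (smul_left_cancel _ (ka.trans e.symm))

end T3

theorem pFm : PFm.{u} := fun G Ω _ _ _ p m hp _ M1 ⟨a, b, ne, ed⟩ ⟨f2, T, x, y, pT, hT⟩ => by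
  obtain ⟨N, Y, c, a, b, s, s', h1, h2, hs, hs', os, os', n, cm, sc, h3, hY, ne, ⟨g, rfl⟩, ⟨g', rfl⟩, fx⟩ :=
    T3.three m hp M1 ne.symm ed f2 ⟨T, pT, fun ⟨a, b, c, ab, ac, bc, ha, hb, hc⟩ => by
      rcases hT.2.2.2 a ha with rfl | rfl <;> rcases hT.2.2.2 b hb with rfl | rfl <;>
        rcases hT.2.2.2 c hc with rfl | rfl <;> simp_all⟩
  exact ⟨N, c, ⟨h1, h2, ⟨s, hs, s', hs', os, os', n, cm, sc⟩, Y, g, g.2, g', g'.2, syl_isPGroup hp hY, hY.le, ne,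
    (fx _).2 (.inl rfl), (fx _).2 (.inr rfl), fun d hd => (fx d).1 hd⟩, h3⟩

end Cfsg.Agent.SE
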