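import Cfsg.Agent.SE.Free
import Cfsg.Agent.SE.PA

/-! The general free lemma (no hypothesis on the involutions of a point stabiliser). -/

set_option autoImplicit false
set_option linter.unusedSectionVars false

namespace Cfsg.Agent.SE.FL

open Cfsg Subgroup MulAction Cfsg.Agent.GT Cfsg.Agent.GW
open Cfsg.Agent.WA (sb_card sb_fix sb_fixN sb_odd sb_dih TP smul_ne)

universe u

variable {G Ω : Type u} [Group G] [Finite G] [MulAction G Ω] {a b c d d' : Ω} {n n' u v : G}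
  {P Q : Subgroup G} {l : ℕ}

/-- no involution fixing `a` interchanges two fixed points of `P` -/
def Fr (a : Ω) (P : Subgroup G) : Prop :=
  ∀ (v : G) (d : Ω), orderOf v = 2 → v • a = a → P ≤ stabilizer G d → P ≤ stabilizer G (v • d) → d = a

theorem Fr.mono (h : Fr a P) (le : P ≤ Q) : Fr a Q := fun v d o e h1 h2 => h v d o e (le.trans h1) (le.trans h2)

/-- `|D_{ca} : C(v)| = |G_c : C(v)|` -/
theorem idx_fix (h : Ac G Ω) (ne : c ≠ a) (hv : orderOf v = 2) (vc : v • c = c) :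
    (C1[v]).relIndex (stabilizer G c ⊓ stabilizer G a) = (C1[v]).relIndex (stabilizer G c) := by
  obtain ⟨t, ht, ta, tb⟩ := h.swap ne
  have inj : ∀ i j : {k : G // k • c = c ∧ k • a = a ∧ t * k * t = k⁻¹}, (i : G)⁻¹ * j ∈ C1[v] → i = j :=
    fun i j k => Subtype.ext (by
      have jc : (j : G) ∈ stabilizer G c := j.2.1
      refine (h.kk ne ht ta tb hv (ord2_conj hv j) vc (mul_mem (mul_mem jc vc) (inv_mem jc))).unique
        ⟨i.2.1, i.2.2.1, i.2.2.2, ?_⟩ ⟨jc, j.2.2.1, j.2.2.2, rfl⟩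
      nth_rw 1 [← TT.commute_iff_conj.1 (mem_cent1.1 k)]; group)
  have sur : ∀ x ∈ stabilizer G c, ∃ i : {k : G // k • c = c ∧ k • a = a ∧ t * k * t = k⁻¹},
      (i : G)⁻¹ * x ∈ C1[v] := fun x hx => by
    obtain ⟨k, ⟨k1, k2, k3, k4⟩, -⟩ := h.kk ne ht ta tb hv (ord2_conj hv x) vc (mul_mem (mul_mem hx vc) (inv_mem hx))
    refine ⟨⟨k, k1, k2, k3⟩, mem_cent1.2 (TT.commute_iff_conj.2 ?_)⟩
    rw [show k⁻¹ * x * v * (k⁻¹ * x)⁻¹ = k⁻¹ * (x * v * x⁻¹) * k by group, ← k4]; group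
  exact (sb_card (X := stabilizer G c ⊓ stabilizer G a) Subtype.val (fun i => ⟨i.2.1, i.2.2.1⟩) inj
    fun x hx => sur x hx.1).symm.trans (sb_card (X := stabilizer G c) Subtype.val (fun i => i.2.1) inj sur)

/-- `|D_{ca}| = |D_{a,va}|` for `v ∈ I(G_c)` -/
theorem card_eq (h : Ac G Ω) (ne : c ≠ a) (hv : orderOf v = 2) (vc : v • c = c) :
    Nat.card ↥(stabilizer G c ⊓ stabilizer G a) = Nat.card ↥(stabilizer G a ⊓ stabilizer G (v • a)) := by
  have na : a ≠ v • a := fun e => ne (h.uniq hv vc e.symm)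
  have k : ∀ X : Subgroup G, Nat.card X = Nat.card ↥(C1[v] ⊓ X) * (C1[v]).relIndex X := fun X =>
    (card_inf_mul_relIndex _ _).symm
  have e : C1[v] ⊓ (stabilizer G c ⊓ stabilizer G a) = C1[v] ⊓ (stabilizer G a ⊓ stabilizer G (v • a)) := by
    refine le_antisymm (fun x hx => ⟨hx.1, hx.2.2, ?_⟩) fun x hx => ⟨hx.1, h.cent_le hv vc hx.1, hx.2.1⟩
    show x • v • a = v • a
    rw [← mul_smul, mem_cent1.1 hx.1, mul_smul, show x • a = a from hx.2.2]
  rw [k, k (stabilizer G a ⊓ _), e, idx_fix h ne hv vc,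
    h.idx_swap na hv rfl (by rw [← mul_smul, sq1 hv, one_smul]) vc]

/-- a free `l`-group all of whose proper overgroups satisfy the free lemma -/
structure Bad (l : ℕ) (P : Subgroup G) (a : Ω) : Prop where
  ac : Ac G Ω
  pr : l.Prime
  pg : IsPGroup l P
  le : P ≤ stabilizer G a
  ex : ∃ b, b ≠ a ∧ P ≤ stabilizer G b
  fr : Fr a P
  ov : ∀ Q : Subgroup G, P < Q → ∀ a : Ω, IsPGroup l Q → Q ≤ stabilizer G a → Fr a Q →
    ∀ b c : Ω, b ≠ a → c ≠ a → Q ≤ stabilizer G b → Q ≤ stabilizer G c → b = c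

namespace Bad

variable (h : Bad l P a)
include h

theorem odd : Odd (Nat.card P) := by
  obtain ⟨b, nb, hb⟩ := h.ex
  exact odd_card_of_le (h.ac.odd nb) (le_inf hb h.le)

theorem n0 (hn : v ∈ N[P]) (hv : orderOf v = 2) : v • a ≠ a := fun e => by
  obtain ⟨b, nb, hb⟩ := h.ex
  exact nb (h.fr v b hv e hb (sb_fixN hb hn))

theorem st (ne : d ≠ a) (hd : P ≤ stabilizer G d) :
    IsPiHallOf {l} P (stabilizer G a ⊓ stabilizer G d) ∨ TP l P a d := by
  obtain ⟨Q, hQ, le⟩ := exists_syl_ge h.pr h.pg (M := stabilizer G a ⊓ stabilizer G d ⊓ N[P])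
    (le_inf (le_inf h.le hd) le_normalizer)
  refine le.eq_or_lt.imp (fun e : P = Q => syl_of_syl_norm h.pr (e ▸ hQ)) fun lt => ?_
  have la := hQ.le.trans (inf_le_left.trans inf_le_left)
  have ld := hQ.le.trans (inf_le_left.trans inf_le_right)
  have k : ∀ c, c ≠ a → Q ≤ stabilizer G c → c = d := fun c nc lc =>
    h.ov Q lt a (syl_isPGroup h.pr hQ) la (h.fr.mono le) c d nc ne lc ld
  exact ⟨Q, syl_of_norm_le h.pr hQ (le_inf (hQ.le.trans inf_le_right) la) fun y hy =>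
    ⟨⟨hy.1.2, k _ (smul_ne hy.1.2 ne) (sb_fixN ld hy.2)⟩, hy.1.1⟩, ld, k⟩

theorem tt (ne : d ≠ a) (t1 : TP l P a d) (t2 : TP l P a d') : ∃ n ∈ N[P], n • a = a ∧ n • d = d' := by
  obtain ⟨Q, hQ, le, -⟩ := t1
  obtain ⟨Q', hQ', -, k⟩ := t2
  obtain ⟨n, hn, rfl⟩ := syl_exists_conj h.pr hQ hQ'
  exact ⟨n, hn.1, hn.2, k _ (smul_ne hn.2 ne) (sb_fix le n)⟩

/-- case B does not occur -/
theorem nB (hn : v ∈ N[P]) (hv : orderOf v = 2) (hc : P ≤ stabilizer G c) : v • c ≠ c := fun e => by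
  have k : ∀ n ∈ N[P], n • a ≠ c := fun n m k => h.n0 (v := n⁻¹ * v * n⁻¹⁻¹)
    (mul_mem (mul_mem (inv_mem m) hn) (inv_mem (inv_mem m))) (ord2_conj hv _) (by
      rw [inv_inv, mul_smul, mul_smul, k, e, ← k, inv_smul_smul])
  have nc : c ≠ a := fun e => k 1 (one_mem _) (by rw [one_smul, e])
  have ns : ¬ IsPiHallOf {l} P (stabilizer G a ⊓ stabilizer G c) := fun s =>
    let ⟨u, hu, _, e⟩ := h.ac.swap_syl nc.symm h.pr s; k u hu e
  have tc := (h.st nc hc).resolve_left ns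
  rcases h.st (h.n0 hn hv) (sb_fixN h.le hn) with s | t
  · refine ns (syl_mk h.pr (le_inf h.le hc) h.pg fun dv => syl_not_dvd h.pr s ?_)
    have e1 := card_mul_relIndex (le_inf h.le hc)
    have e2 := card_mul_relIndex s.le
    rw [← card_eq h.ac nc hv e, inf_comm (stabilizer G c), ← e1] at e2
    rwa [Nat.eq_of_mul_eq_mul_left Nat.card_pos e2]
  · obtain ⟨n, m, -, e'⟩ := h.tt (h.n0 hn hv) t tc
    exact k _ (mul_mem m hn) (by rw [mul_smul, e'])

theorem uq (hu : u ∈ N[P]) (hv : v ∈ N[P]) (ou : orderOf u = 2) (ov : orderOf v = 2) (c : Commute u v) : u = v := by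
  by_contra ne
  obtain ⟨x, e, -⟩ := h.ac.fix v ov
  have e' := h.ac.comm_fix ov e c
  exact h.nB hv ov (gen3 ov ou ne c h.odd hv hu (inf_le_right.trans (h.ac.cent_le ov e))
    (inf_le_right.trans (h.ac.cent_le ou e')) (inf_le_right.trans (h.ac.cent_le (ord2_mul ov ou ne c)
      (by rw [mul_smul, e', e])))) e

theorem zs (hu : u ∈ N[P]) (hv : v ∈ N[P]) (ou : orderOf u = 2) (ov : orderOf v = 2) : u * v ∈ O[N[P]] := by
  rcases sb_dih ou ov with o | ⟨z, hz, o, c1, c2⟩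
  · obtain ⟨n, e, -⟩ := B84.conj_of_inv (k := v * u) (by
      rwa [← orderOf_inv, mul_inv_rev, inv2 ou, inv2 ov]) (sq1 ou) (by rw [mul_assoc v, sq1 ou, mul_one, sq1 ov])
    rw [mul_assoc v, sq1 ou, mul_one] at e
    exact e ▸ WA.zstar_rel (sq1 ou) hu (fun g hg c => (h.uq hu (mul_mem (mul_mem hg hu) (inv_mem hg)) ou
      (ord2_conj ou g) c).symm) (pow_mem (mul_mem hv hu) n)
  · have := zpowers_le.2 (mul_mem hu hv) hz
    rw [h.uq hu this ou o c1, h.uq hv this ov o c2, sq1 o]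
    exact one_mem _

theorem sw (hn : n ∈ N[P]) (ne : n • a ≠ a) : ∃ v ∈ N[P], orderOf v = 2 ∧ v • a = n • a := by
  have ne' : n⁻¹ • a ≠ a := fun e => ne (inv_smul_eq_iff.1 e).symm
  rcases h.st ne (sb_fixN h.le hn) with s | t
  · exact h.ac.swap_syl ne.symm h.pr s
  rcases h.st ne' (sb_fixN h.le (inv_mem hn)) with s | t'
  · obtain ⟨v, hv, o, e⟩ := h.ac.swap_syl ne'.symm h.pr s
    exact ⟨_, mul_mem (mul_mem hn hv) (inv_mem hn), ord2_conj o n, by
      rw [mul_smul, mul_smul, ← e, ← mul_smul v, sq1 o, one_smul]⟩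
  obtain ⟨m, hm, e1, e2⟩ := h.tt ne t t'
  have x1 : (n * m) • a = n • a := by rw [mul_smul, e1]
  have x2 : (n * m) • n • a = a := by rw [mul_smul, e2, smul_inv_smul]
  have hx := mul_mem hn hm
  generalize n * m = x at x1 x2 hx
  have m2 : x * x ∈ stabilizer G a ⊓ stabilizer G (n • a) :=
    ⟨show _ • _ = _ by rw [mul_smul, x1, x2], show _ • _ = _ by rw [mul_smul, x2, x1]⟩
  obtain ⟨j, o⟩ := odd_ord (h.ac.odd ne.symm) m2
  have e : x ^ (2 * j + 1) • a = n • a := by rw [pow_succ, pow_mul, sq, mul_smul, x1]; exact (pow_mem m2 j).2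
  exact ⟨_, pow_mem hx _, ord2 (by rw [← (Commute.refl x).mul_pow, ← o, pow_orderOf_eq_one])
    fun k => ne (by rw [← e, k, one_smul]), e⟩

theorem two (hn : n ∈ N[P]) (hn' : n' ∈ N[P]) (ne : n • a ≠ a) (ne' : n' • a ≠ a) : n • a = n' • a := by
  by_contra k
  obtain ⟨u, hu, ou, eu⟩ := h.sw hn ne
  obtain ⟨v, hv, ov, ev⟩ := h.sw hn' ne'
  rw [← eu, ← ev] at k
  obtain ⟨w, hw, ow, ew⟩ := h.sw (mul_mem hu hv) fun e => k (by
    nth_rw 1 [← e]; rw [← mul_smul, GW.tt (sq1 ou)])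
  have m1 := h.zs hu hv ou ov
  have m2 : w * (u * v) ∈ O[N[P]] := PG.mem_of_sq_mem_of_odd (odd_ord (sb_odd (X := N[P] ⊓ stabilizer G a)
    fun x hx o => h.n0 hx.1 o hx.2) ⟨mul_mem hw (mul_mem hu hv), show _ • _ = _ by
      rw [mul_smul, ← ew, ← mul_smul, sq1 ow, one_smul]⟩) (by
    have := mul_mem (conj_mem_of_mem_norm (O_norm _ hw) m1) m1
    rwa [inv2 ow, mul_assoc _ w] at this)
  exact ne1 ow (eq1_of_odd (odd_ord (O_odd _) ((mul_mem_cancel_right m1).1 m2)) (sq1 ow))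

theorem nle (nb : b ≠ a) (nc : c ≠ a) (hb : P ≤ stabilizer G b) (hc : P ≤ stabilizer G c) (ne : b ≠ c) :
    N[P] ≤ stabilizer G a := fun n hn => by
  by_contra k
  have key : ∀ d, d ≠ a → P ≤ stabilizer G d → n • a = d := fun d nd hd => by
    rcases h.st nd hd with s | ⟨Q, hQ, -, t⟩
    · obtain ⟨v, hv, -, rfl⟩ := h.ac.swap_syl nd.symm h.pr s
      exact h.two hn hv k nd
    · exact t _ k fun m hm => (mul_smul _ _ _).symm.trans (h.two (mul_mem (hQ.le hm).1 hn) hn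
        (by rw [mul_smul]; exact smul_ne (hQ.le hm).2 k) k)
  exact ne ((key b nb hb).symm.trans (key c nc hc))

theorem allT (le : N[P] ≤ stabilizer G a) (nd : d ≠ a) (hd : P ≤ stabilizer G d) : TP l P a d :=
  (h.st nd hd).resolve_left fun s => let ⟨_, hv, _, e⟩ := h.ac.swap_syl nd.symm h.pr s; nd (e.symm.trans (le hv))

theorem freeD (le : N[P] ≤ stabilizer G a) (nd : d ≠ a) (hd : P ≤ stabilizer G d) : Fr d P :=
    fun v x hv vd h1 h2 => by
  by_contra nx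
  have vv : v • v • x = x := by rw [← mul_smul, sq1 hv, one_smul]
  have o : Odd (Nat.card ↥(stabilizer G d ⊓ (stabilizer G x ⊓ stabilizer G (v • x)))) :=
    odd_card_of_le (h.ac.odd (Ne.symm nx)) (inf_le_inf_left _ inf_le_left)
  have nv : v ∈ N[stabilizer G d ⊓ (stabilizer G x ⊓ stabilizer G (v • x))] :=
    le_norm_inf (zp_norm (le_normalizer vd)) (zp_norm (WA.sb_swap_norm rfl vv)) (mem_zpowers v)
  obtain ⟨Q, hQ, nQ⟩ := coprime_exists_syl h.pr (.inl (solv_odd o)) (zp_norm nv) (cop2 o hv)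
  obtain ⟨g, hg, lt⟩ := syl_exists_le_conj h.pr hQ h.pg (le_inf hd (le_inf h1 h2))
  have gd : g ∈ stabilizer G d := hg.1
  have p := syl_isPGroup h.pr (hQ.conj_of_mem hg)
  have ld : cj[g] Q ≤ stabilizer G d := (hQ.conj_of_mem hg).le.trans inf_le_left
  have nw : g * v * g⁻¹ ∈ N[cj[g] Q] := by rw [← conj_normalizer]; exact conj_mem_conj.2 (nQ (mem_zpowers v))
  have wd : (g * v * g⁻¹) • d = d := mul_mem (mul_mem gd vd) (inv_mem gd)
  have ow := ord2_conj hv g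
  generalize g * v * g⁻¹ = w at nw wd ow
  generalize cj[g] Q = R at lt p ld nw
  replace lt : P < R := lt.lt_of_ne fun e => h.nB (e ▸ nw) ow hd wd
  have lt' : P < R ⊓ stabilizer G a := (lt_inf_norm_of_isPGroup h.pr p lt).trans_le (inf_le_inf_left _ le)
  have key : ∀ y ∈ N[R ⊓ stabilizer G a], y • d = d → y • a = a := fun y hy e => by
    by_contra ne
    exact nd ((smul_left_cancel_iff y).1 (e.trans (h.ov _ lt' a (p.to_le inf_le_left) inf_le_right
      (h.fr.mono lt'.le) _ _ nd ne (inf_le_left.trans ld) (sb_fixN inf_le_right hy))))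
  have e : R ⊓ stabilizer G a = R := by
    by_contra ne
    exact (lt_inf_norm_of_isPGroup h.pr p (inf_le_left.lt_of_ne ne)).not_ge fun y hy => ⟨hy.1, key y hy.2 (ld hy.1)⟩
  exact nd (h.ac.uniq ow wd (key w (e.symm ▸ nw) wd))

theorem fin (nb : b ≠ a) (nc : c ≠ a) (hb : P ≤ stabilizer G b) (hc : P ≤ stabilizer G c) : b = c := by
  by_contra ne
  have le := h.nle nb nc hb hc ne
  obtain ⟨n, hn, -, e⟩ := h.tt nb (h.allT le nb hb) (h.allT le nc hc)
  exact ne ((Bad.nle { h with le := hb, ex := ⟨a, nb.symm, h.le⟩, fr := h.freeD le nb hb } nb.symm (Ne.symm ne)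
    h.le hc nc.symm hn).symm.trans e)

end Bad

/-- the general free lemma -/
theorem free (h : Ac G Ω) (hl : l.Prime) (P : Subgroup G) :
    ∀ a : Ω, IsPGroup l P → P ≤ stabilizer G a → Fr a P →
      ∀ b c : Ω, b ≠ a → c ≠ a → P ≤ stabilizer G b → P ≤ stabilizer G c → b = c := by
  induction P using WellFoundedGT.induction with
  | ind P ih => exact fun a p le fr b _ nb nc hb => Bad.fin ⟨h, hl, p, le, ⟨b, nb, hb⟩, fr, ih⟩ nb nc hb

/-- an `l`-group with three fixed points: some involution fixing `a` interchanges two fixed points -/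
theorem fl (h : Ac2 G Ω) (hl : l.Prime) (p : IsPGroup l P) (ab : a ≠ b) (ac : a ≠ c) (bc : b ≠ c)
    (ha : P ≤ stabilizer G a) (hb : P ≤ stabilizer G b) (hc : P ≤ stabilizer G c) :
    ∃ (v : G) (d : Ω), orderOf v = 2 ∧ v • a = a ∧ d ≠ a ∧ P ≤ stabilizer G d ∧ P ≤ stabilizer G (v • d) := by
  by_contra k
  exact bc (free h.ac hl P a p ha (fun v d o e h1 h2 => by_contra fun n => k ⟨v, d, o, e, n, h1, h2⟩) b c ab.symm
    ac.symm hb hc)

/-- ... and it can be taken to normalise a Sylow subgroup `Q ≥ P` of the three point stabiliser -/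
theorem fl_syl (h : Ac2 G Ω) (hl : l.Prime) (p : IsPGroup l P) (ab : a ≠ b) (ac : a ≠ c) (bc : b ≠ c)
    (ha : P ≤ stabilizer G a) (hb : P ≤ stabilizer G b) (hc : P ≤ stabilizer G c) :
    ∃ (v : G) (d : Ω) (Q : Subgroup G), orderOf v = 2 ∧ v • a = a ∧ d ≠ a ∧ P ≤ Q ∧ v ∈ N[Q] ∧
      IsPiHallOf {l} Q (stabilizer G a ⊓ (stabilizer G d ⊓ stabilizer G (v • d))) := by
  obtain ⟨v, x, hv, va, nx, h1, h2⟩ := fl h hl p ab ac bc ha hb hc
  have vv : v • v • x = x := by rw [← mul_smul, sq1 hv, one_smul]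
  have o : Odd (Nat.card ↥(stabilizer G a ⊓ (stabilizer G x ⊓ stabilizer G (v • x)))) :=
    odd_card_of_le (h.ac.odd (Ne.symm nx)) (inf_le_inf_left _ inf_le_left)
  have nv : v ∈ N[stabilizer G a ⊓ (stabilizer G x ⊓ stabilizer G (v • x))] :=
    le_norm_inf (zp_norm (le_normalizer va)) (zp_norm (WA.sb_swap_norm rfl vv)) (mem_zpowers v)
  obtain ⟨Q, hQ, nQ⟩ := coprime_exists_syl hl (.inl (solv_odd o)) (zp_norm nv) (cop2 o hv)
  obtain ⟨g, hg, lt⟩ := syl_exists_le_conj hl hQ p (le_inf ha (le_inf h1 h2))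
  have e : (g * v * g⁻¹) • x = v • x := by
    rw [mul_smul, mul_smul, show g⁻¹ • x = x from (inv_mem hg).2.1, show g • v • x = v • x from hg.2.2]
  have ga : g ∈ stabilizer G a := hg.1
  exact ⟨g * v * g⁻¹, x, cj[g] Q, ord2_conj hv g, mul_mem (mul_mem ga va) (inv_mem ga), nx, lt,
    by rw [← conj_normalizer]; exact conj_mem_conj.2 (nQ (mem_zpowers v)), e.symm ▸ hQ.conj_of_mem hg⟩

/-- no inner elements: Lemma A -/
theorem la (h : Ac2 G Ω)
    (ni : ∀ (a b c : Ω) (t k : G), a ≠ b → orderOf t = 2 → t • a = b → t • b = a → t • c = c →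
      k • a = a → k • b = b → k • c = c → t * k * t = k⁻¹ → k = 1)
    (l : ℕ) (Y : Subgroup G) (a b c : Ω) (hl : l.Prime) (p : IsPGroup l Y) (ab : a ≠ b) (ac : a ≠ c) (bc : b ≠ c)
    (ha : Y ≤ stabilizer G a) (hb : Y ≤ stabilizer G b) (hc : Y ≤ stabilizer G c) :
    ∃ s ∈ C[Y], orderOf s = 2 ∧ s • a = a := by
  obtain ⟨v, d, hv, va, nd, h1, h2⟩ := fl h hl p ab ac bc ha hb hc
  refine ⟨v, mem_centralizer_iff.2 fun y hy => ?_, hv, va⟩
  have vv : v • v • d = d := by rw [← mul_smul, sq1 hv, one_smul]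
  have ya : y⁻¹ • a = a := ha (inv_mem hy)
  have y1 : y⁻¹ • d = d := h1 (inv_mem hy)
  have y2 : y⁻¹ • v • d = v • d := h2 (inv_mem hy)
  have := ni d (v • d) a v (y * v * y⁻¹ * v) (fun e => nd (h.ac.uniq hv e.symm va)) hv rfl vv va
    (by rw [mul_smul, mul_smul, mul_smul, y2, vv]; exact h1 hy)
    (by rw [mul_smul, mul_smul, mul_smul, vv, y1]; exact h2 hy)
    (by rw [mul_smul, mul_smul, mul_smul, va, ya, va]; exact ha hy)
    (by simp only [mul_inv_rev, inv2 hv, inv_inv, mul_assoc, sq1 hv, mul_one])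
  calc y * v = y * v * y⁻¹ * v * (v * y) := by simp only [mul_assoc, GW.tt (sq1 hv), inv_mul_cancel, mul_one]
    _ = v * y := by rw [this, one_mul]

theorem ni_iff (h : Ac2 G Ω) (ni : NI G Ω) (a b c : Ω) (t k : G) (ab : a ≠ b) (ht : orderOf t = 2) (ta : t • a = b)
    (tb : t • b = a) (tc : t • c = c) (ka : k • a = a) (kb : k • b = b) (kc : k • c = c) (e : t * k * t = k⁻¹) :
    k = 1 := by
  by_contra ne
  have o : orderOf (k * t) = 2 := ord2 (by rw [mul_assoc, ← mul_assoc t, e, mul_inv_cancel])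
    fun q => ab (by rw [← one_smul G a, ← q, mul_smul, ta, kb])
  have := ni c a (k * t) t o ht (by rw [mul_smul, tc, kc]) tc (fun q => ne (mul_eq_right.1 q))
    (by rw [mul_assoc, sq1 ht, mul_one, ka])
  exact ab (by rw [← ta, this, tc])

end Cfsg.Agent.SE.FL

namespace Cfsg.Agent.SE

universe u

theorem pFL : PFL.{u} := fun _ _ _ _ _ w ni => FL.la w.ac (FL.ni_iff w.ac ni)

end Cfsg.Agent.SE
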