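import Cfsg.Agent.SE.Def2
import Cfsg.Agent.SE.UMA
import Cfsg.Agent.SE.FL

/-! Strongly embedded subgroups: a Sylow `p`-subgroup fixes exactly two points. -/

set_option autoImplicit false
set_option linter.unusedSectionVars false
set_option linter.unusedVariables false

namespace Cfsg.Agent.SE.T2

open Cfsg Subgroup MulAction Cfsg.Agent.GT Cfsg.Agent.Cls Cfsg.Agent.GW Cfsg.Agent.WA

universe u

variable {G Ω : Type u} [Group G] [Finite G] [MulAction G Ω] {a b c e m : Ω} {s t u v x g : G}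
  {P W : Subgroup G} {p : ℕ}

theorem pg_odd (hp : p.Prime) (p2 : p ≠ 2) (hW : IsPGroup p W) : Odd (Nat.card W) := by
  have := Fact.mk hp
  obtain ⟨n, e⟩ := IsPGroup.iff_card.1 hW
  rw [e]; exact (hp.odd_of_ne_two p2).pow

theorem cjf (ha : s • a = a) (g : G) : (g * s * g⁻¹) • g • a = g • a := by
  rw [mul_smul, inv_smul_smul, mul_smul, ha]

theorem edge_cj (h : Mp G p a ≤ stabilizer G b) (g : G) : Mp G p (g • a) ≤ stabilizer G (g • b) := by
  have := sb_fix h g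
  rwa [NA.eqvP] at this

/-- four-group trick -/
theorem s4a (w : Tw1 G Ω) (hp : p.Prime) (p2 : p ≠ 2) (hW : IsPGroup p W) (ht : orderOf t = 2) (hu : orderOf u = 2)
    (ut : u ≠ t) (cm : u * t = t * u) (tm : t • m = m) (nt : t ∈ N[W]) (nu : u ∈ N[W]) (h : ¬ W ≤ C1[t]) :
    ∃ x ∈ W, x ≠ 1 ∧ IsPGroup p (zpowers x) ∧ t * x * t = x⁻¹ ∧ C1[x] ≤ stabilizer G m := by
  have o := pg_odd hp p2 hW
  have key : ∀ v : G, orderOf v = 2 → v * t = t * v → ¬ W ⊓ C1[v] ≤ C1[t] →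
      ∃ x ∈ W, x ≠ 1 ∧ IsPGroup p (zpowers x) ∧ t * x * t = x⁻¹ ∧ C1[x] ≤ stabilizer G m := by
    intro v hv c n
    obtain ⟨y, hy, n⟩ := SetLike.not_le_iff_exists.1 n
    have tv : t ∈ C1[v] := mem_cent1.2 c.symm
    have xW : y * (t * y⁻¹ * t⁻¹) ∈ W := mul_mem hy.1 (conj_mem_of_mem_norm nt (inv_mem (mem_inf.1 hy).1))
    have xv : y * (t * y⁻¹ * t⁻¹) ∈ C1[v] :=
      mul_mem (mem_inf.1 hy).2 (mul_mem (mul_mem tv (inv_mem (mem_inf.1 hy).2)) (inv_mem tv))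
    have x1 : y * (t * y⁻¹ * t⁻¹) ≠ 1 := fun e => n (mem_cent1.2 (by
      calc y * t = y * (t * y⁻¹ * t⁻¹) * (t * y) := by group
        _ = t * y := by rw [e, one_mul]))
    have ix : t * (y * (t * y⁻¹ * t⁻¹)) * t⁻¹ = (y * (t * y⁻¹ * t⁻¹))⁻¹ := by
      calc t * (y * (t * y⁻¹ * t⁻¹)) * t⁻¹ = t * y * t⁻¹ * (t * t) * y⁻¹ * (t * t)⁻¹ := by group
        _ = _ := by rw [sq1 ht]; group
    refine ⟨_, xW, x1, hW.to_le (zpowers_le.2 xW), (NA.tinv ht).2 ix, NA.even_cent w ht tm ix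
      (Odd.of_dvd_nat o (orderOf_dvd_natCard _ xW)) x1 fun o' => ?_⟩
    have := Odd.of_dvd_nat o' (orderOf_dvd_natCard _ (mem_cent1_comm.1 xv))
    rw [hv] at this
    exact absurd this (by decide)
  by_cases h1 : W ⊓ C1[u] ≤ C1[t]
  · exact key (t * u) (ord2_mul ht hu ut cm) (by rw [mul_assoc, cm])
      fun h2 => h (gen3 ht hu ut cm o nt nu inf_le_right h1 h2)
  · exact key u hu cm h1

theorem ex_four (w : Tw1 G Ω) (ht : orderOf t = 2) : ∃ u : G, orderOf u = 2 ∧ u ≠ t ∧ u * t = t * u := by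
  obtain ⟨s, s', o, o', ne, c⟩ := w.ac.rk
  obtain ⟨g, rfl⟩ := isConj_iff.1 (w.cj s t o ht)
  refine ⟨g * s' * g⁻¹, ord2_conj o' g, fun e => ne ?_, ?_⟩
  · exact (mul_left_cancel (mul_right_cancel e)).symm
  · calc g * s' * g⁻¹ * (g * s * g⁻¹) = g * (s' * s) * g⁻¹ := by group
      _ = _ := by rw [← c]; group

variable (mc : Mc G Ω) (hp : p.Prime) (p2 : p ≠ 2) (M1 : ∀ c : Ω, Mp G p c ≠ ⊥)
include mc hp p2 M1

theorem not_cent (ht : orderOf t = 2) (ne : t • e ≠ e) : ¬ Mp G p e ≤ C1[t] := fun h => ne (by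
  have : t ∈ N[Mp G p e] := le_norm_of_cent (le_cent_symm (h.trans (cent_zpowers t).ge)) (mem_zpowers t)
  rwa [TI.norm_M mc (M1 e)] at this)

theorem s4 (ne : e ≠ m) (ht : orderOf t = 2) (tm : t • m = m) (h : Mp G p e ≤ stabilizer G (t • e)) :
    ∃ x : G, x ≠ 1 ∧ IsPGroup p (zpowers x) ∧ t * x * t = x⁻¹ ∧ x • e = e ∧ C1[x] ≤ stabilizer G m := by
  have w := mc.tw
  obtain ⟨u, hu, ut, cm⟩ := ex_four w ht
  have um : u • m = m := w.ac.ac.comm_fix ht tm cm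
  have all : ∀ v : G, orderOf v = 2 → v • m = m → Mp G p e ≤ stabilizer G (v • e) := by
    intro v hv vm
    obtain ⟨k, hk, rfl⟩ := w.ac.ac.tr_inv ne.symm ht hv tm vm
    have := edge_cj h k
    rwa [show k • e = e from hk.2, show k • t • e = (k * t * k⁻¹) • e by
      rw [mul_smul, mul_smul, show k⁻¹ • e = e from inv_mem (mem_inf.1 hk).2]] at this
  have tt : ∀ d : Ω, t • t • d = d := fun d => by rw [← mul_smul, sq1 ht, one_smul]
  have uu : ∀ d : Ω, u • u • d = d := fun d => by rw [← mul_smul, sq1 hu, one_smul]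
  have tu : ∀ d : Ω, u • t • d = t • u • d := fun d => by rw [← mul_smul, cm, mul_smul]
  set F := stabilizer G e ⊓ stabilizer G (t • e) ⊓ (stabilizer G (u • e) ⊓ stabilizer G (t • u • e)) with hF
  have nt : t ∈ N[F] := mem_normalizer_of_conj_le (conj_le_iff_forall.2 fun x hx =>
    ⟨⟨by have := cjf hx.1.2 t; rwa [tt] at this, cjf hx.1.1 t⟩,
      by have := cjf hx.2.2 t; rwa [tt] at this, cjf hx.2.1 t⟩)
  have nu : u ∈ N[F] := mem_normalizer_of_conj_le (conj_le_iff_forall.2 fun x hx =>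
    ⟨⟨by have := cjf hx.2.1 u; rwa [uu] at this, by have := cjf hx.2.2 u; rwa [tu, uu] at this⟩,
      cjf hx.1.1 u, by have := cjf hx.1.2 u; rwa [tu] at this⟩)
  have Fe : F ≤ stabilizer G e := inf_le_left.trans inf_le_left
  have MF : Mp G p e ≤ piCoreOf {p} F := le_piCoreOf (le_inf (le_inf PG.leM h) (le_inf (all u hu um) (by
    rw [← mul_smul]; exact all _ (ord2_mul ht hu ut cm) (by rw [mul_smul, um, tm])))) (Fe.trans PG.nM)
    (piCoreOf_isPi _ _)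
  obtain ⟨x, hx, x1, px, ix, cx⟩ := s4a w hp p2 (piCoreOf_isPGroup hp F) ht hu ut cm tm
    (norm_le_norm_piCoreOf _ _ nt) (norm_le_norm_piCoreOf _ _ nu) fun h' => not_cent mc hp p2 M1 ht
      (fun e' => ne (w.ac.ac.uniq ht e' tm)) (MF.trans h')
  exact ⟨x, x1, px, ix, Fe (piCoreOf_le _ _ hx), cx⟩

omit p2 M1 in
theorem M_le (hP : IsPiHallOf {p} P (stabilizer G a ⊓ stabilizer G b)) (h : Mp G p a ≤ stabilizer G b) :
    Mp G p a ≤ P :=
  le_syl_of_norm hp hP (piCoreOf_isPGroup hp _) (le_inf PG.leM h) ((hP.le.trans inf_le_left).trans PG.nM)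

omit hp p2 M1 in
theorem edge_symm (ne : a ≠ b) (h : Mp G p a ≤ stabilizer G b) : Mp G p b ≤ stabilizer G a := by
  obtain ⟨t, -, ta, tb⟩ := PG.swap mc.tw ne
  have := edge_cj h t
  rwa [ta, tb] at this

omit mc M1 in
/-- a Sylow subgroup of `D` fixing exactly two points is Sylow in `G` -/
theorem syl_top (hP : IsPiHallOf {p} P (stabilizer G a ⊓ stabilizer G b)) (h : Ex2 P a b) : IsPiHallOf {p} P ⊤ := by
  refine syl_of_syl_norm hp (syl_of_maximal hp (syl_isPGroup hp hP) (le_inf le_top le_normalizer)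
    fun Q pQ PQ QN => syl_eq_of_le hp hP pQ (fun y hy => ?_) PQ)
  have n : y ∈ N[P] := (QN hy).2
  have o : Odd (orderOf y) := Odd.of_dvd_nat (pg_odd hp p2 pQ) (orderOf_dvd_natCard _ hy)
  rcases h.2.2.2 _ (sb_fixN h.2.1 n) with e | e <;> rcases h.2.2.2 _ (sb_fixN h.2.2.1 n) with e' | e'
  · exact absurd (smul_left_cancel y (e.trans e'.symm)) h.1
  · exact ⟨e, e'⟩
  · exact PB.root o ⟨by show (y * y) • a = a; rw [mul_smul, e, e'], by show (y * y) • b = b; rw [mul_smul, e', e]⟩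
  · exact absurd (smul_left_cancel y (e.trans e'.symm)) h.1

theorem two (ed : ∃ a b : Ω, a ≠ b ∧ Mp G p a ≤ stabilizer G b) (kp : KP G Ω p) : Two G Ω p := by
  have w := mc.tw
  obtain ⟨a0, b0, n0, e0⟩ := ed
  obtain ⟨P0, hP0⟩ := exists_syl hp (stabilizer G a0 ⊓ stabilizer G b0)
  obtain ⟨⟨P, a, b, ne, ed, hP⟩, mx⟩ := @Finite.exists_max {X : Subgroup G // ∃ a b : Ω, a ≠ b ∧
    Mp G p a ≤ stabilizer G b ∧ IsPiHallOf {p} X (stabilizer G a ⊓ stabilizer G b)} ℕ _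
    ⟨⟨_, a0, b0, n0, e0, hP0⟩⟩ _ fun X => Nat.card X.1
  have pP := syl_isPGroup hp hP
  have Pa : P ≤ stabilizer G a := hP.le.trans inf_le_left
  have Pb : P ≤ stabilizer G b := hP.le.trans inf_le_right
  have sy : ∀ e f : Ω, e ≠ f → Mp G p e ≤ stabilizer G f → P ≤ stabilizer G e → P ≤ stabilizer G f →
      IsPiHallOf {p} P (stabilizer G e ⊓ stabilizer G f) := by
    intro e f n h he hf
    obtain ⟨Q, hQ, le⟩ := exists_syl_ge hp pP (le_inf he hf)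
    rwa [eq_of_le_of_card_ge le (mx ⟨Q, e, f, n, h, hQ⟩)]
  have Ma := M_le mc hp hP ed
  have MP : ∀ e : Ω, P ≤ stabilizer G e → Mp G p e ≤ P := by
    intro e he
    by_cases h : e = a
    · rwa [h]
    · have h1 := edge_symm mc (Ne.symm h) (Ma.trans he)
      exact M_le mc hp (sy e a h h1 he Pa) h1
  have ex : Ex2 P a b := by
    refine ⟨ne, Pa, Pb, fun c hc => ?_⟩
    by_contra h
    push Not at h
    obtain ⟨v, d, Q, ov, va, da, PQ, nQ, hQ⟩ := FL.fl_syl w.ac hp pP ne h.1.symm h.2.symm Pa Pb hc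
    have QD : Q ≤ stabilizer G a ⊓ stabilizer G d := hQ.le.trans (inf_le_inf_left _ inf_le_left)
    have Pd := PQ.trans (QD.trans inf_le_right)
    obtain rfl := syl_eq_of_le hp (sy a d da.symm (Ma.trans Pd) Pa Pd) (syl_isPGroup hp hQ) QD PQ
    refine kp (zPuigOf Q) (fun e f => e ≠ f ∧ Q ≤ stabilizer G e ∧ Q ≤ stabilizer G f) ⟨a, b, ne, Pa, Pb⟩ ?_
    rintro e f ⟨n, he, hf⟩
    have hs := sy e f n ((MP e he).trans hf) he hf
    obtain ⟨t, nt, ht, te⟩ := w.ac.ac.swap_syl n hp hs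
    obtain ⟨m, tm, -⟩ := w.ac.fix t ht
    obtain ⟨y, rfl⟩ := w.home nQ ov va nt ht tm
    have em : e ≠ (y : G) • a := fun h => n (by rw [← te, h]; exact tm.symm)
    obtain ⟨x, x1, px, ix, xe, cx⟩ := s4 mc hp p2 M1 em ht tm (te ▸ (MP e he).trans hf)
    exact ⟨n, ⟨Q, hs, rfl, MP f hf⟩, t, x, _, norm_le_norm_zPuigOf _ nt, ht, te, tm,
      ⟨em, he, sb_fixN Pa y.2⟩, x1, px, ix, xe, cx⟩
  refine ⟨fun T pT => ?_, P, a, b, pP, ex⟩
  obtain ⟨g, -, le⟩ := syl_exists_le_conj hp (syl_top hp p2 hP ex) pT le_top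
  exact ⟨g • a, g • b, fun e => ne (smul_left_cancel g e), le.trans (sb_fix Pa g), le.trans (sb_fix Pb g)⟩

end Cfsg.Agent.SE.T2

namespace Cfsg.Agent.SE

theorem pTwo.{u} : PTwo.{u} := fun _ _ _ _ _ _ m hp p2 M1 ed kp => T2.two m hp p2 M1 ed kp

end Cfsg.Agent.SE
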