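import Cfsg.Agent.SE.UMA
import Cfsg.Agent.SE.Def2
import Cfsg.Agent.SE.FL

/-! Strongly embedded subgroups: the last step of the push-up. -/

set_option autoImplicit false
set_option linter.unusedSectionVars false
set_option linter.unusedVariables false

namespace Cfsg.Agent.SE.Fin4

open Cfsg Subgroup MulAction Cfsg.Agent.GT Cfsg.Agent.Cls Cfsg.Agent.GW Cfsg.Agent.WA

universe u

variable {G Ω : Type u} [Group G] [Finite G] [MulAction G Ω] {a b c d e : Ω} {s t v x y g : G}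
  {P S W N X : Subgroup G} {p : ℕ}

theorem cardO (d e : orbit N c) : Nat.card ↥(stabilizer N d ⊓ stabilizer N e) =
    Nat.card ↥(N ⊓ (stabilizer G (d : Ω) ⊓ stabilizer G (e : Ω))) := by
  rw [← card_map_of_injective (K := stabilizer N d ⊓ stabilizer N e) N.subtype_injective,
    map_inf _ _ _ N.subtype_injective, stab_orbit, stab_orbit, ← inf_inf_distrib_left]

/-- an element inverted by `t` and centralised by another involution -/
theorem ex_x (w : Tw1 G Ω) (o : Odd (Nat.card W)) (ht : orderOf t = 2) (hv : orderOf v = 2) (ne : v ≠ t)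
    (cm : v * t = t * v) (nt : t ∈ N[W]) (nv : v ∈ N[W]) (tc : t • c = c) (n : ¬ W ≤ C1[t]) :
    ∃ x ∈ W, x ≠ 1 ∧ t * x * t⁻¹ = x⁻¹ ∧ C1[x] ≤ stabilizer G c := by
  by_contra k
  have key : ∀ v : G, orderOf v = 2 → t * v = v * t → W ⊓ C1[v] ≤ C1[t] := fun v hv cm y hy => by
    have o' : Odd (Nat.card ↥(W ⊓ C1[v])) := odd_card_of_le o inf_le_left
    obtain ⟨i, ⟨hi, e⟩, c⟩ := B85.dec o' (sq1 ht)
      (le_norm_inf (zp_norm nt) (zp_norm (le_normalizer (mem_cent1.2 cm))) (mem_zpowers t)) hy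
    by_cases i1 : i = 1
    · rw [i1, inv_one, one_mul] at c
      exact mem_cent1.2 c
    · exact (k ⟨i, hi.1, i1, e, NA.even_cent w ht tc e (odd_ord o' hi) i1 fun o2 => by
        have := odd_ord o2 (mem_cent1.2 (mem_cent1.1 hi.2).symm)
        rw [hv] at this
        exact absurd this (by decide)⟩).elim
  exact n (gen3 ht hv ne cm o nt nv inf_le_right (key v hv cm.symm)
    (key _ (ord2_mul ht hv ne cm) (by rw [mul_assoc, cm])))

theorem fin0 (m : Mc G Ω) (hp : p.Prime) (M1 : ∀ c : Ω, Mp G p c ≠ ⊥) (kp : KP G Ω p)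
    (hS : IsPiHallOf {p} S ⊤) (f : Fm p N[zPuigOf S] c) (h : N[zPuigOf S] ⊓ Mp G p c ≠ ⊥)
    (ex : ∃ a b : Ω, a ≠ b ∧ (∃ g ∈ N[zPuigOf S], g • c = a) ∧ (∃ g ∈ N[zPuigOf S], g • c = b) ∧
      ∃ g ∈ N[zPuigOf S], cj[g] S ≤ stabilizer G a ⊓ stabilizer G b) : False := by
  have w := m.tw
  have SN : S ≤ N[zPuigOf S] := le_normalizer.trans (norm_le_norm_zPuigOf S)
  have zN : ∀ g ∈ N[zPuigOf S], zPuigOf (cj[g] S) = zPuigOf S := fun g hg => by
    rw [← conj_zPuigOf, conj_eq_self hg]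
  have eN : N[zPuigOf S] ≤ N[zPuigOf S] := le_rfl
  generalize hN : N[zPuigOf S] = N at f h SN zN eN ex
  obtain ⟨s, hs, s', hs', os, os', ne, cm, sc⟩ := f.four
  obtain ⟨N', co, le⟩ := exists_coatom_ge f.ne
  have n' : ¬ N' ≤ stabilizer G c := fun e => f.nle (le.trans e)
  obtain ⟨k, e⟩ := pSub0 G Ω w m.ih N' c s s' co.1 n' (le hs) (le hs') os os' ne cm sc
  have nW : N ≤ N[piCoreOf {p} O[N']] := le.trans (le_norm_piCoreOf (O_norm N'))
  have oW : Odd (Nat.card (piCoreOf {p} O[N'])) := odd_card_of_le (O_odd _) (piCoreOf_le _ _)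
  have pW := piCoreOf_isPGroup hp O[N']
  have Wf : ∀ g ∈ N, piCoreOf {p} O[N'] ≤ stabilizer G (g • c) := fun g hg =>
    (piCoreOf_le _ _).trans (e ▸ k g (le hg))
  have MW : ∀ g ∈ N, Mp G p (g • c) ≤ piCoreOf {p} O[N'] := fun g hg => by
    rw [Mp, ← NA.eqvP, ← conj_eq_self (nW hg)]
    exact conj_mono g (TI.p1' m hp co n' (le hs) (le hs') os os' ne cm sc (ne_bot_of_le h (inf_le_inf_right _ le)))
  generalize piCoreOf {p} O[N'] = W at nW oW pW Wf MW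
  have hSN : IsPiHallOf {p} S N := syl_of_le hS SN le_top
  have ac : Ac2 N (orbit N c) := w.sub f.nle hs hs' os os' ne cm sc
  refine kp (zPuigOf S) (fun a b => a ≠ b ∧ (∃ g ∈ N, g • c = a) ∧ (∃ g ∈ N, g • c = b) ∧
    ∃ g ∈ N, cj[g] S ≤ stabilizer G a ⊓ stabilizer G b) ex ?_
  rintro _ _ ⟨n, ⟨ga, ha, rfl⟩, ⟨gb, hb, rfl⟩, g, hg, lD⟩
  have hP : IsPiHallOf {p} (cj[g] S) (stabilizer G (ga • c) ⊓ stabilizer G (gb • c)) :=
    syl_of_le (hS.conj_of_mem (mem_top g)) lD le_top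
  refine ⟨n, ⟨_, hP, zN g hg, (le_piCoreOf_single hp (le_inf ((MW gb hb).trans (Wf ga ha)) PG.leM)
    (inf_le_right.trans PG.nM) (piCoreOf_isPGroup hp _)).trans (piCoreOf_le_hall hP)⟩, ?_⟩
  obtain ⟨-, t, mt, ht, -, ta, tb⟩ := w.mid _ _ _ _ n (ord2_conj os ga) (ord2_conj os gb) (PB.cj_fix sc ga)
    (PB.cj_fix sc gb)
  have tN : t ∈ N := sup_le (zpowers_le.2 (mul_mem (mul_mem ha hs) (inv_mem ha)))
    (zpowers_le.2 (mul_mem (mul_mem hb hs) (inv_mem hb))) mt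
  obtain ⟨d, td, -⟩ := w.ac.fix t ht
  have hd : d ∈ orbit N c := w.home hs os sc tN ht td
  have nd : d ≠ ga • c := fun e => n (by rw [← ta, ← e, td])
  have o2 : ∀ {z : G} (hz : z ∈ N), orderOf z = 2 → orderOf (⟨z, hz⟩ : N) = 2 := fun hz o => by
    rw [← o, ← orderOf_coe]
  obtain ⟨y, ey⟩ := isConj_iff.1 (ac.ac.cj (o2 hs os) (o2 tN ht))
  have ey' : (y : G) * s * (y : G)⁻¹ = t := congrArg Subtype.val ey
  obtain ⟨x, hx, x1, ix, cx⟩ := ex_x w oW ht (ord2_conj os' (y : G)) (fun e => ne (by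
      rw [← ey'] at e; exact (mul_left_cancel (mul_right_cancel e)).symm))
    (by rw [← ey', show (y : G) * s' * (y : G)⁻¹ * (y * s * (y : G)⁻¹) = y * (s' * s) * (y : G)⁻¹ by group, ← cm]; group)
    (nW tN) (nW (mul_mem (mul_mem y.2 hs') (inv_mem y.2))) td fun l => n (by
      have : t ∈ N[Mp G p (ga • c)] := centralizer_le_normalizer _
        (mem_centralizer_iff.2 fun z hz => mem_cent1.1 (l (MW ga ha hz)))
      rw [Mp, TI.norm_M m (M1 _)] at this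
      exact this.symm.trans ta)
  refine ⟨t, x, d, hN ▸ tN, ht, ta, td, ⟨nd.symm, ⟨ga, ha, rfl⟩, ?_, ?_⟩, x1, pW.to_le (zpowers_le.2 hx),
    (NA.tinv ht).2 ix, Wf ga ha hx, cx⟩
  · obtain ⟨z, e⟩ := hd
    exact ⟨z, z.2, e⟩
  have td' : (⟨t, tN⟩ : N) • (⟨d, hd⟩ : orbit N c) = ⟨d, hd⟩ := Subtype.ext td
  have ce := FL.card_eq ac.ac (c := ⟨d, hd⟩) (a := ⟨ga • c, ⟨ga, ha⟩, rfl⟩) (v := ⟨t, tN⟩)
    (fun e => nd (congrArg Subtype.val e)) (o2 tN ht) td'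
  rw [cardO, cardO] at ce
  replace ce : Nat.card ↥(N ⊓ (stabilizer G d ⊓ stabilizer G (ga • c))) =
      Nat.card ↥(N ⊓ (stabilizer G (ga • c) ⊓ stabilizer G (t • ga • c))) := ce
  rw [ta] at ce
  obtain ⟨Q, hQ⟩ := exists_syl hp (N ⊓ (stabilizer G d ⊓ stabilizer G (ga • c)))
  have dv : Nat.card S ∣ Nat.card Q := by
    have d1 := card_dvd_of_le (le_inf (hSN.conj_of_mem hg).le lD)
    rw [← ce, ← card_mul_relIndex hQ.le, card_conj] at d1
    have := Fact.mk hp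
    obtain ⟨i, ei⟩ := (syl_isPGroup hp hS).exists_card_eq
    rw [ei] at d1 ⊢
    exact ((hp.coprime_iff_not_dvd.2 (syl_not_dvd hp hQ)).pow_left i).dvd_of_dvd_mul_right d1
  obtain ⟨z, hz, rfl⟩ := syl_exists_conj hp hSN (syl_of_card_le hp hSN (syl_isPGroup hp hQ) (hQ.le.trans inf_le_left)
    (Nat.le_of_dvd Nat.card_pos dv))
  exact ⟨z, hz, (hQ.le.trans inf_le_right).trans (inf_comm _ _).le⟩

theorem fin4 (m : Mc G Ω) (hp : p.Prime) (M1 : ∀ c : Ω, Mp G p c ≠ ⊥) (tw : Two G Ω p) (kp : KP G Ω p)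
    (hS : IsPiHallOf {p} S ⊤) (f : Fm p N[zPuigOf S] c) (h : N[zPuigOf S] ⊓ Mp G p c ≠ ⊥) : False := by
  refine fin0 m hp M1 kp hS f h ?_
  have hSN : IsPiHallOf {p} S N[zPuigOf S] := syl_of_le hS (le_normalizer.trans (norm_le_norm_zPuigOf S)) le_top
  obtain ⟨T, g, hg, g', hg', pT, TN, ex⟩ := f.ex
  obtain ⟨y, hy, lT⟩ := syl_exists_le_conj hp hSN pT TN
  obtain ⟨a, b, n, ha, hb⟩ := tw.1 (cj[y] S) (syl_isPGroup hp (hSN.conj_of_mem hy))
  have o : ∀ d, cj[y] S ≤ stabilizer G d → ∃ g ∈ N[zPuigOf S], g • c = d := fun d hd =>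
    (ex.2.2.2 d (lT.trans hd)).elim (fun e => ⟨g, hg, e.symm⟩) fun e => ⟨g', hg', e.symm⟩
  exact ⟨a, b, n, o a ha, o b hb, y, hy, le_inf ha hb⟩

theorem _root_.Cfsg.Agent.SE.Up.fin (m : Mc G Ω) (hp : p.Prime) (p2 : p ≠ 2) (hM : ∀ c : Ω, Mp G p c ≠ ⊥)
    (kp : KP G Ω p) {S : Subgroup G} {a : Ω} {g : G} (hS : IsPiHallOf {p} S ⊤) (f : Fm p N[zPuigOf S] a)
    (hg : g ∈ N[zPuigOf S]) (ne : a ≠ g • a) (Sa : S ≤ stabilizer G a) (Sb : S ≤ stabilizer G (g • a)) : False := by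
  have l : Mp G p a ≤ N[zPuigOf S] := ((le_piCoreOf_single hp PG.leM PG.nM (piCoreOf_isPGroup hp _)).trans
    (piCoreOf_le_hall (syl_of_le hS Sa le_top))).trans (le_normalizer.trans (norm_le_norm_zPuigOf S))
  exact fin0 m hp hM kp hS f (by rw [inf_eq_right.2 l]; exact hM a) ⟨a, g • a, ne, ⟨1, one_mem _, one_smul _ _⟩,
    ⟨g, hg, rfl⟩, 1, one_mem _, by rw [one_conj]; exact le_inf Sa Sb⟩

end Cfsg.Agent.SE.Fin4
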