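import Cfsg.Agent.SE.Up1
import Cfsg.Agent.SE.Fin4

/-! Strongly embedded subgroups: pushing up, conclusion. -/

namespace Cfsg.Agent.SE

universe u

theorem pUp : PUp.{u} := fun G Ω _ _ _ p m hp p2 hM two ex st kp => by
  obtain ⟨S, a, g, hS, f, hg, ne, Sa, Sb⟩ := Up.red m hp hM two ex st
  exact Up.fin m hp p2 hM kp hS f hg ne Sa Sb

end Cfsg.Agent.SE
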