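import Cfsg.Agent.WA.SB1
import Cfsg.Agent.WA.B1A

/-! Groups in which every involution fixes exactly one point (any Sylow 2-subgroup of rank at least 2). -/

set_option autoImplicit false
set_option linter.unusedSectionVars false
set_option linter.unusedVariables false

namespace Cfsg.Agent.SE

open Cfsg Subgroup MulAction Cfsg.Agent.GT Cfsg.Agent.GW
open Cfsg.Agent.WA (Free nI sb_card sb_inv sb_fix sb_fixN sb_conj_st sb_swap_norm sb_odd sb_dih)

universe u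

/-- transitive action, every involution fixes exactly one point, 2-rank at least 2. -/
structure Ac (G Ω : Type u) [Group G] [MulAction G Ω] : Prop where
  tr : ∀ a b : Ω, ∃ g : G, g • a = b
  nt : Nontrivial Ω
  fix : ∀ z : G, orderOf z = 2 → ∃! a : Ω, z • a = a
  rk : ∃ x y : G, orderOf x = 2 ∧ orderOf y = 2 ∧ x ≠ y ∧ Commute x y

/-- the involutions of `G_a / O(G_a)` commute. -/
def Cl (G Ω : Type u) [Group G] [MulAction G Ω] : Prop :=
  ∀ (a : Ω) (v w : G), orderOf v = 2 → orderOf w = 2 → v • a = a → w • a = a →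
    v * w * (v * w) ∈ O[stabilizer G a]

/-- output of the pieces P1, P2. -/
structure Tw (G Ω : Type u) [Group G] [MulAction G Ω] : Prop where
  ac : Ac G Ω
  cl : Cl G Ω
  /-- all involutions are conjugate -/
  cj : ∀ s s' : G, orderOf s = 2 → orderOf s' = 2 → IsConj s s'
  swap : ∀ a b : Ω, a ≠ b → ∃ t : G, orderOf t = 2 ∧ t • a = b ∧ t • b = a
  odd : ∀ a b : Ω, a ≠ b → Odd (Nat.card ↥(stabilizer G a ⊓ stabilizer G b))
  /-- `k ↦ k s k⁻¹` is a bijection from the elements of `D` inverted by `t` onto `I(G_a)` -/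
  kk : ∀ (a b : Ω) (t s s' : G), a ≠ b → orderOf t = 2 → t • a = b → t • b = a →
    orderOf s = 2 → orderOf s' = 2 → s • a = a → s' • a = a →
    ∃! k : G, k • a = a ∧ k • b = b ∧ t * k * t = k⁻¹ ∧ k * s * k⁻¹ = s'
  /-- free lemma -/
  free : ∀ (a : Ω) (S P : Subgroup G) (l : ℕ), IsPiHallOf {2} S ⊤ → l.Prime → l ∣ nI S →
    IsPGroup l P → P ≤ stabilizer G a → Free a P →
    ∀ b c : Ω, b ≠ a → c ≠ a → P ≤ stabilizer G b → P ≤ stabilizer G c → b = c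
  syl : ∀ (a b : Ω) (S P : Subgroup G) (l : ℕ), a ≠ b → IsPiHallOf {2} S ⊤ → l.Prime → l ∣ nI S →
    IsPiHallOf {l} P (stabilizer G a ⊓ stabilizer G b) → Free a P ∧ IsPiHallOf {l} P (stabilizer G a)
  two : ∀ a b c : Ω, b ≠ a → c ≠ a → ∃ h : G, h • a = a ∧ h • b = c

variable {G Ω : Type u} [Group G] [Finite G] [MulAction G Ω] {a b c d : Ω} {s s' t u v w x y g : G}
  {P Q S X Y : Subgroup G} {l : ℕ}

namespace Ac

variable (h : Ac G Ω)
include h

theorem uniq (hs : orderOf s = 2) (ha : s • a = a) (hb : s • b = b) : a = b := (h.fix s hs).unique ha hb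

theorem comm_fix (hs : orderOf s = 2) (ha : s • a = a) (c : Commute x s) : x • a = a :=
  h.uniq hs (by rw [← mul_smul, ← c.eq, mul_smul, ha]) ha

theorem odd (ne : a ≠ b) : Odd (Nat.card ↥(stabilizer G a ⊓ stabilizer G b)) :=
  sb_odd fun _ hv o => ne (h.uniq o hv.1 hv.2)

theorem ex_inv (a : Ω) : ∃ s : G, orderOf s = 2 ∧ s • a = a := by
  obtain ⟨z, -, o, -⟩ := h.rk
  obtain ⟨c, e, -⟩ := h.fix z o
  obtain ⟨g, rfl⟩ := h.tr c a
  exact ⟨_, ord2_conj o g, by rw [mul_smul, mul_smul, inv_smul_smul, e]⟩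

theorem odd_mul (hs : orderOf s = 2) (ht : orderOf t = 2) (ha : s • a = a) (hb : t • b = b) (ne : a ≠ b) :
    Odd (orderOf (s * t)) := by
  refine (sb_dih hs ht).resolve_right fun ⟨z, _, o, c1, c2⟩ => ne ?_
  exact h.uniq o (h.comm_fix hs ha c1.symm) (h.comm_fix ht hb c2.symm)

/-- the involution of the dihedral group exchanging `s` and `t` -/
theorem ex_swap (hs : orderOf s = 2) (ht : orderOf t = 2) (ha : s • a = a) (hb : t • b = b) (ne : a ≠ b) :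
    ∃ u : G, orderOf u = 2 ∧ u * s * u⁻¹ = t ∧ u • a = b ∧ u • b = a ∧
      ∀ x, Commute x s → Commute x t → Commute x u := by
  obtain ⟨n, e1, e2⟩ := B84.conj_of_inv (k := t * s) (h.odd_mul ht hs hb ha ne.symm) (sq1 hs) (by
    rw [mul_assoc t, sq1 hs, mul_one, sq1 ht])
  rw [mul_assoc t, sq1 hs, mul_one] at e1
  have e3 : (t * s) ^ n * s * ((t * s) ^ n * s) = 1 := by
    rw [inv2 hs] at e2
    rw [mul_assoc, ← mul_assoc s, e2, mul_inv_cancel]
  have e4 : (t * s) ^ n * s * s * ((t * s) ^ n * s)⁻¹ = t := by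
    rw [mul_inv_rev, inv2 hs, mul_assoc _ s s, sq1 hs, mul_one, ← mul_assoc, e1]
  have e5 : ((t * s) ^ n * s) • a = b := h.uniq ht (by
    nth_rw 1 [← e4]; rw [mul_smul, inv_smul_smul, mul_smul _ s, ha]) hb
  exact ⟨_, ord2 e3 fun e => ne (by rw [← e5, e, one_smul]), e4, e5, by rw [← e5, ← mul_smul, e3, one_smul],
    fun x c1 c2 => ((c2.mul_right c1).pow_right n).mul_right c1⟩

theorem swap (ne : a ≠ b) : ∃ t : G, orderOf t = 2 ∧ t • a = b ∧ t • b = a := by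
  obtain ⟨s, hs, ha⟩ := h.ex_inv a
  obtain ⟨t, ht, hb⟩ := h.ex_inv b
  obtain ⟨u, o, -, e1, e2, -⟩ := h.ex_swap hs ht ha hb ne
  exact ⟨u, o, e1, e2⟩

theorem cj (hs : orderOf s = 2) (ht : orderOf t = 2) : IsConj s t := by
  have k : ∀ {s t : G} {a b : Ω}, orderOf s = 2 → orderOf t = 2 → s • a = a → t • b = b → a ≠ b → IsConj s t :=
    fun hs ht ha hb ne => let ⟨u, _, e, _⟩ := h.ex_swap hs ht ha hb ne; isConj_iff.2 ⟨u, e⟩
  obtain ⟨a, ha, -⟩ := h.fix s hs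
  obtain ⟨b, hb, -⟩ := h.fix t ht
  by_cases e : a = b
  · have := h.nt
    obtain ⟨c, n⟩ := exists_ne a
    obtain ⟨z, hz, hc⟩ := h.ex_inv c
    exact (k hs hz ha hc n.symm).trans (k hz ht hc hb (e ▸ n))
  · exact k hs ht ha hb e

theorem kk (ne : a ≠ b) (ht : orderOf t = 2) (ta : t • a = b) (tb : t • b = a) (hs : orderOf s = 2)
    (hs' : orderOf s' = 2) (sa : s • a = a) (sa' : s' • a = a) :
    ∃! k : G, k • a = a ∧ k • b = b ∧ t * k * t = k⁻¹ ∧ k * s * k⁻¹ = s' := by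
  obtain ⟨u, o, e1, e2, e3, c⟩ := h.ex_swap (ord2_conj hs t) hs' (a := b) (by
    rw [mul_smul, mul_smul, ← ta, inv_smul_smul, sa]) sa' ne.symm
  refine ⟨u * t, ⟨by rw [mul_smul, ta, e2], by rw [mul_smul, tb, e3], by
    rw [mul_inv_rev, inv2 o, inv2 ht, mul_assoc, mul_assoc, sq1 ht, mul_one], by rw [← e1]; group⟩,
    fun k ⟨k1, k2, k3, k4⟩ => ?_⟩
  have w2 : k * t * (k * t) = 1 := by rw [mul_assoc, ← mul_assoc t, k3, mul_inv_cancel]
  have w3 : k * t * (t * s * t⁻¹) * (k * t)⁻¹ = s' := by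
    rw [← k4, mul_inv_rev, inv2 ht]; simp only [mul_assoc, GW.tt (sq1 ht)]
  have i : ∀ {w x y : G}, w * w = 1 → w * x * w⁻¹ = y → w * y * w⁻¹ = x := fun e e' => by
    rw [← e', TT.inv_of_sq e]; simp only [mul_assoc, GW.tt e, e, mul_one]
  have j : ∀ {w w' x y : G}, w * y * w⁻¹ = x → w' * x * w'⁻¹ = y → Commute (w * w') x := fun e e' =>
    TT.commute_iff_conj.2 (by nth_rw 2 [← e]; rw [← e']; group)
  have c1 := c _ (j (i w2 w3) e1) (j w3 (i (sq1 o) e1))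
  have c2 : Commute (k * t) u := by simpa [mul_assoc, sq1 o] using c1.mul_left (Commute.refl u)
  have := eq1_of_odd (odd_ord (h.odd ne) (x := k * t * u) ⟨show _ • _ = _ by rw [mul_smul, e3, mul_smul, tb, k1],
    show _ • _ = _ by rw [mul_smul, e2, mul_smul, ta, k2]⟩) (TT.mul_self_of_commute w2 (sq1 o) c2)
  rw [← (eq_inv_of_mul_eq_one_left this).trans (inv2 o), mul_assoc, sq1 ht, mul_one]

/-- `D` is transitive on the involutions of `G_a` -/
theorem tr_inv (ne : a ≠ b) (hs : orderOf s = 2) (hs' : orderOf s' = 2) (sa : s • a = a) (sa' : s' • a = a) :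
    ∃ k ∈ stabilizer G a ⊓ stabilizer G b, k * s * k⁻¹ = s' := by
  obtain ⟨t, ht, ta, tb⟩ := h.swap ne
  obtain ⟨k, ⟨k1, k2, -, k4⟩, -⟩ := h.kk ne ht ta tb hs hs' sa sa'
  exact ⟨k, ⟨k1, k2⟩, k4⟩

theorem cent_le (hs : orderOf s = 2) (ha : s • a = a) : C1[s] ≤ stabilizer G a :=
  fun _ e => h.comm_fix hs ha (mem_cent1.1 e)

theorem ex_syl (hs : orderOf s = 2) (ha : s • a = a) : ∃ S, IsPiHallOf {2} S ⊤ ∧ s ∈ S ∧ S ≤ stabilizer G a := by
  obtain ⟨S, hS, le⟩ := exists_syl_ge Nat.prime_two (pg2 hs) le_top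
  have p := syl_isPGroup Nat.prime_two hS
  have m := le (mem_zpowers s)
  obtain ⟨z, hz, o⟩ := exists_mem_orderOf_eq Nat.prime_two (prime_dvd_card_of_isPGroup Nat.prime_two p.to_inf_left
    (inf_cent_ne_bot_of_isPGroup Nat.prime_two p p le_normalizer fun e => ne1 hs (mem_bot.1 (e ▸ m))))
  obtain ⟨c, e, -⟩ := h.fix z o
  have k : S ≤ stabilizer G c := (GW.mem_cent_iff.1 hz.2).trans (h.cent_le o e)
  exact ⟨S, hS, m, h.uniq hs (k m) ha ▸ k⟩

/-- `|D : C_D(t)|` is the number of involutions of a point stabiliser -/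
theorem idx_swap (ne : a ≠ b) (ht : orderOf t = 2) (ta : t • a = b) (tb : t • b = a) (tc : t • c = c) :
    (C1[t]).relIndex (stabilizer G a ⊓ stabilizer G b) = (C1[t]).relIndex (stabilizer G c) := by
  obtain ⟨g, rfl⟩ := h.tr a c
  have o := ord2_conj ht g⁻¹
  have e : (g⁻¹ * t * g⁻¹⁻¹) • a = a := by rw [inv_inv, mul_smul, mul_smul, tc, inv_smul_smul]
  rw [← sb_inv (h.odd ne) ht (sb_swap_norm ta tb), ← relIndex_conj g⁻¹, conj_cent1, sb_conj_st, inv_smul_smul]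
  generalize g⁻¹ * t * g⁻¹⁻¹ = z at o e
  refine sb_card (fun i => (i : G)) (fun i => i.2.1.1) (fun i j k => Subtype.ext ?_) fun x hx => ?_
  · have ja : (j : G) ∈ stabilizer G a := j.2.1.1
    refine (h.kk ne ht ta tb o (ord2_conj o j) e (mul_mem (mul_mem ja e) (inv_mem ja))).unique
      ⟨i.2.1.1, i.2.1.2, by simpa only [inv2 ht] using i.2.2, ?_⟩
      ⟨ja, j.2.1.2, by simpa only [inv2 ht] using j.2.2, rfl⟩
    nth_rw 1 [← TT.commute_iff_conj.1 (mem_cent1.1 k)]; group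
  · obtain ⟨k, ⟨k1, k2, k3, k4⟩, -⟩ := h.kk ne ht ta tb o (ord2_conj o x) e
      (mul_mem (mul_mem hx e) (inv_mem hx))
    refine ⟨⟨k, ⟨k1, k2⟩, by rwa [inv2 ht]⟩, mem_cent1.2 (TT.commute_iff_conj.2 ?_)⟩
    rw [show k⁻¹ * x * z * (k⁻¹ * x)⁻¹ = k⁻¹ * (x * z * x⁻¹) * k by group, ← k4]; group

/-- a Sylow subgroup of `D` is normalised by a swapper -/
theorem swap_syl (ne : a ≠ b) (hl : l.Prime) (hP : IsPiHallOf {l} P (stabilizer G a ⊓ stabilizer G b)) :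
    ∃ v ∈ N[P], orderOf v = 2 ∧ v • a = b := by
  obtain ⟨t, ht, ta, tb⟩ := h.swap ne
  obtain ⟨Q, hQ, n⟩ := coprime_exists_syl hl (.inl (solv_odd (h.odd ne))) (zp_norm (sb_swap_norm ta tb))
    (cop2 (h.odd ne) ht)
  obtain ⟨g, hg, rfl⟩ := syl_exists_conj hl hQ hP
  refine ⟨g * t * g⁻¹, by rw [← conj_normalizer]; exact conj_mem_conj.2 (n (mem_zpowers t)), ord2_conj ht g, ?_⟩
  rw [mul_smul, mul_smul, show g⁻¹ • a = a from (inv_mem hg).1, ta, show g • b = b from hg.2]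

variable (hc : Cl G Ω)
include hc

/-- (F1) -/
theorem f1 (hv : orderOf v = 2) (va : v • a = a) (hx : x ∈ stabilizer G a) (o : Odd (orderOf (x * v * x⁻¹ * v⁻¹))) :
    x * v * x⁻¹ * v⁻¹ ∈ O[stabilizer G a] := by
  refine PG.mem_of_sq_mem_of_odd o ?_
  rw [inv2 hv]
  exact hc a _ _ (ord2_conj hv x) hv (mul_mem (mul_mem hx va) (inv_mem hx)) va

omit h hc in
/-- an element whose square lies in the odd normal subgroup is congruent to an involution or to `1` -/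
theorem lift (hx : x ∈ X) (e : x * x ∈ O[X]) : ∃ s ∈ X, s * s = 1 ∧ x * s⁻¹ ∈ O[X] := by
  obtain ⟨j, o⟩ := odd_ord (O_odd _) e
  refine ⟨x ^ (2 * j + 1), pow_mem hx _, by rw [← (Commute.refl x).mul_pow, ← o, pow_orderOf_eq_one], ?_⟩
  rw [pow_succ', mul_inv_rev, ← mul_assoc, pow_mul, sq]
  exact conj_mem_of_mem_norm (O_norm _ hx) (inv_mem (pow_mem e j))

omit h in
theorem cl' (hv : v * v = 1) (hw : w * w = 1) (va : v • a = a) (wa : w • a = a) :
    v * w * (v * w) ∈ O[stabilizer G a] := by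
  by_cases v1 : v = 1
  · simp [v1, hw]
  by_cases w1 : w = 1
  · simp [w1, hv]
  exact hc a v w (ord2 hv v1) (ord2 hw w1) va wa

end Ac

/-- the preimage of `I(G_a / O(G_a)) ∪ 1` -/
def Cl.A (hc : Cl G Ω) (a : Ω) : Subgroup G where
  carrier := {x | x ∈ stabilizer G a ∧ x * x ∈ O[stabilizer G a]}
  one_mem' := ⟨one_mem _, by simp⟩
  inv_mem' := fun ⟨h1, h2⟩ => ⟨inv_mem h1, by simpa using inv_mem h2⟩
  mul_mem' := fun {x y} ⟨h1, h2⟩ ⟨k1, k2⟩ => ⟨mul_mem h1 k1, by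
    obtain ⟨s, hs, s2, m⟩ := Ac.lift h1 h2
    obtain ⟨t, ht, t2, m'⟩ := Ac.lift k1 k2
    have n := O_norm (stabilizer G a)
    have m3 := mul_mem m (conj_mem_of_mem_norm (n hs) m')
    rw [show x * y * (x * y) = x * s⁻¹ * (s * (y * t⁻¹) * s⁻¹) *
      (s * t * (x * s⁻¹ * (s * (y * t⁻¹) * s⁻¹)) * (s * t)⁻¹) * (s * t * (s * t)) by group]
    exact mul_mem (mul_mem m3 (conj_mem_of_mem_norm (n (mul_mem hs ht)) m3)) (Ac.cl' hc s2 t2 hs ht)⟩

namespace Cl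

variable (hc : Cl G Ω)
include hc

theorem mem_A : x ∈ hc.A a ↔ x ∈ stabilizer G a ∧ x * x ∈ O[stabilizer G a] := Iff.rfl

theorem A_le : hc.A a ≤ stabilizer G a := fun _ h => h.1

theorem O_le_A : O[stabilizer G a] ≤ hc.A a := fun _ h => ⟨O_le _ h, mul_mem h h⟩

theorem inv_mem_A (hv : orderOf v = 2) (va : v • a = a) : v ∈ hc.A a := ⟨va, sq1 hv ▸ one_mem _⟩

theorem norm_A : stabilizer G a ≤ N[hc.A a] := fun g hg => mem_normalizer_fintype fun x hx =>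
  ⟨mul_mem (mul_mem hg hx.1) (inv_mem hg), by
    simpa only [mul_assoc, inv_mul_cancel_left] using conj_mem_of_mem_norm (O_norm _ hg) hx.2⟩

theorem comm_A (hx : x ∈ hc.A a) (hy : y ∈ hc.A a) : x * y * x⁻¹ * y⁻¹ ∈ O[stabilizer G a] := by
  rw [show x * y * x⁻¹ * y⁻¹ = x * y * (x * y) * (y⁻¹ * (x * x)⁻¹ * y⁻¹⁻¹) * (y * y)⁻¹ by group]
  exact mul_mem (mul_mem (mul_mem hx hy).2 (conj_mem_of_mem_norm (O_norm _ (inv_mem hy.1)) (inv_mem hx.2)))
    (inv_mem hy.2)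

/-- an involution of `G_a` is congruent to an involution of a given Sylow 2-subgroup -/
theorem to_syl (hS : IsPiHallOf {2} S ⊤) (le : S ≤ stabilizer G a) (hv : orderOf v = 2) (va : v • a = a) :
    ∃ s ∈ S, orderOf s = 2 ∧ v * s⁻¹ ∈ O[stabilizer G a] := by
  obtain ⟨g, hg, m⟩ := WA.conj_into (syl_inf_normal Nat.prime_two (syl_of_le hS le le_top) hc.A_le hc.norm_A) (sq1 hv)
    (hc.inv_mem_A hv va)
  exact ⟨_, m.1, ord2_conj hv g, by simpa only [mul_inv_rev, inv_inv, mul_assoc] using hc.comm_A (hc.inv_mem_A hv va) hg⟩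

end Cl

/-- `O₂(G_a / O(G_a)) ≠ 1` gives `Cl` -/
theorem Ac.cl_of (h : Ac G Ω) (le : X ≤ stabilizer G a) (n : stabilizer G a ≤ N[O[stabilizer G a] ⊔ X])
    (p : IsPGroup 2 X) (ne : X ≠ ⊥) : Cl G Ω := fun b v w hv hw vb wb => by
  obtain ⟨g, rfl⟩ := h.tr a b
  have := h.nt
  obtain ⟨c, nc⟩ := exists_ne a
  obtain ⟨z, hz, o⟩ := exists_mem_orderOf_eq Nat.prime_two (prime_dvd_card_of_isPGroup Nat.prime_two p.to_inf_left
    (inf_cent_ne_bot_of_isPGroup Nat.prime_two p p le_normalizer ne))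
  have k : ∀ {v : G}, orderOf v = 2 → v • g • a = g • a → (g⁻¹ * v * g⁻¹⁻¹) • a = a := fun hv e => by
    rw [inv_inv, mul_smul, mul_smul, e, inv_smul_smul]
  obtain ⟨d, hd, e⟩ := h.tr_inv nc.symm (ord2_conj hv g⁻¹) o (k hv vb) (le hz.1)
  obtain ⟨d', hd', e'⟩ := h.tr_inv nc.symm o (ord2_conj (ord2_conj hw g⁻¹) d) (le hz.1)
    ((stabilizer G a).mul_mem (mul_mem hd.1 (k hw wb)) (inv_mem hd.1))
  obtain ⟨r, hr, y, hy, e2⟩ := (mem_sup_of_le_norm' (le.trans (O_norm _))).1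
    (conj_mem_of_mem_norm (n hd'.1) (mem_sup_right hz.1))
  have nz := O_norm _ (le hz.1)
  have y2 : y * y ∈ O[stabilizer G a] := by
    rw [show y * y = (y * r * y⁻¹)⁻¹ * r⁻¹ * (r * y * (r * y)) by group, ← e2, sq1 (ord2_conj o d'), mul_one]
    exact mul_mem (inv_mem (conj_mem_of_mem_norm (O_norm _ (le hy)) hr)) (inv_mem hr)
  have m : z * (r * y) * (z * (r * y)) ∈ O[stabilizer G a] := by
    rw [show z * (r * y) * (z * (r * y)) = z * r * z⁻¹ * (z * y * z * y⁻¹) * (y * r * y⁻¹) * (y * y) by group,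
      mul_assoc z y z, mem_cent1.1 (GW.mem_cent_iff.1 hz.2 hy), tt (sq1 o), mul_inv_cancel, mul_one]
    exact mul_mem (mul_mem (conj_mem_of_mem_norm nz hr) (conj_mem_of_mem_norm (O_norm _ (le hy)) hr)) y2
  rw [← e2, e', ← e] at m
  rw [← sb_conj_st, ← conj_piCoreOf, mem_conj]
  simpa [mul_assoc] using conj_mem_of_mem_norm (O_norm _ (inv_mem hd.1)) m

namespace Ac

variable (h : Ac G Ω) (hc : Cl G Ω)
include h hc

omit hc in
theorem mem_Y (hv : orderOf v = 2) (va : v • a = a) :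
    x ∈ O[stabilizer G a] ⊔ C1[v] ↔ x ∈ stabilizer G a ∧ x * v * x⁻¹ * v⁻¹ ∈ O[stabilizer G a] := by
  have n : C1[v] ≤ N[O[stabilizer G a]] := (h.cent_le hv va).trans (O_norm _)
  refine ⟨fun e => ⟨sup_le (O_le _) (h.cent_le hv va) e, ?_⟩, fun ⟨_, e⟩ => ?_⟩
  · obtain ⟨r, hr, y, hy, rfl⟩ := (mem_sup_of_le_norm' n).1 e
    rw [show r * y * v * (r * y)⁻¹ * v⁻¹ = r * (y * v * y⁻¹ * r⁻¹ * v⁻¹) by group,
      TT.commute_iff_conj.1 (mem_cent1.1 hy)]
    exact mul_mem hr (conj_mem_of_mem_norm (n (self_mem_cent1 v)) (inv_mem hr))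
  · obtain ⟨n, e1, -⟩ := B84.conj_of_inv (odd_ord (O_odd _) e) (sq1 hv) (by
      rw [inv_mul_cancel_right]; exact TT.conj_mul_self x (sq1 hv))
    rw [inv_mul_cancel_right] at e1
    have m := pow_mem e n
    generalize (x * v * x⁻¹ * v⁻¹) ^ n = k at e1 m
    rw [← mul_inv_cancel_left k x]
    refine mul_mem (mem_sup_left m) (mem_sup_right (mem_cent1.2 (TT.commute_iff_conj.2 ?_)))
    rw [show k⁻¹ * x * v * (k⁻¹ * x)⁻¹ = k⁻¹ * (x * v * x⁻¹) * k by group, ← e1]; group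

theorem idx_Y (hS : IsPiHallOf {2} S ⊤) (hv : orderOf v = 2) (va : v • a = a) (ne : a ≠ b)
    (le : stabilizer G a ⊓ stabilizer G b ≤ X) (le' : X ≤ stabilizer G a) :
    nI S = (O[stabilizer G a] ⊔ C1[v]).relIndex X := by
  obtain ⟨T, hT, m, leT⟩ := h.ex_syl hv va
  obtain ⟨g, -, rfl⟩ := syl_exists_conj Nat.prime_two hT hS
  have e : nI (cj[g] T) = nI T := (Nat.card_congr (Equiv.subtypeEquiv (MulAut.conj g).toEquiv fun x =>
    and_congr conj_mem_conj.symm (by rw [← orderOf_conj g x]; rfl))).symm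
  have n : T ≤ N[O[stabilizer G a]] := leT.trans (O_norm _)
  choose f f1 f2 using fun i : {x : G // x ∈ T ∧ orderOf x = 2} => h.tr_inv ne hv i.2.2 va (leT i.2.1)
  have key : ∀ i, ∀ x ∈ stabilizer G a, (f i)⁻¹ * x ∈ O[stabilizer G a] ⊔ C1[v] ↔
      x * v * x⁻¹ * (i : G)⁻¹ ∈ O[stabilizer G a] := fun i x hx => by
    rw [h.mem_Y hv va, and_iff_right ((stabilizer G a).mul_mem (inv_mem (f1 i)).1 hx), ← f2,
      mem_normalizer_iff.1 (O_norm _ (f1 i).1)]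
    refine iff_of_eq (congrArg _ ?_); group
  rw [e]
  refine sb_card f (fun i => le (f1 i)) (fun i j k => Subtype.ext ?_) fun x hx => ?_
  · rw [key i _ (f1 j).1, f2] at k
    exact (mul_inv_eq_one.1 ((TT.inf_eq_bot_of_odd (O_odd _) (syl_isPGroup Nat.prime_two hT)).le
      ⟨k, T.mul_mem j.2.1 (inv_mem i.2.1)⟩)).symm
  · obtain ⟨s, hs, o, k⟩ := hc.to_syl hT leT (ord2_conj hv x) (mul_mem (mul_mem (le' hx) va) (inv_mem (le' hx)))
    exact ⟨⟨s, hs, o⟩, (key _ _ (le' hx)).2 k⟩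

theorem l_odd (hS : IsPiHallOf {2} S ⊤) (d : l ∣ nI S) : l ≠ 2 := by
  obtain ⟨a, b, ne⟩ := h.nt
  obtain ⟨v, hv, va⟩ := h.ex_inv a
  rintro rfl
  rw [h.idx_Y hc hS hv va ne le_rfl inf_le_left] at d
  exact Nat.not_even_iff_odd.2 (h.odd ne) (even_iff_two_dvd.2 (d.trans (relIndex_dvd_card' _ _)))

/-- (F2) -/
theorem f2 (hS : IsPiHallOf {2} S ⊤) (hl : l.Prime) (d : l ∣ nI S) (ne : a ≠ b)
    (hP : IsPiHallOf {l} P (stabilizer G a ⊓ stabilizer G b)) : Free a P := fun v va hv k => by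
  rw [h.idx_Y hc hS hv va ne le_rfl inf_le_left] at d
  exact syl_not_dvd hl hP (d.trans (relIndex_dvd_of_le_left _ fun x hx => (h.mem_Y hv va).2 ⟨(hP.le hx).1, k x hx⟩))

/-- the counting argument -/
theorem count (hS : IsPiHallOf {2} S ⊤) (hl : l.Prime) (d : l ∣ nI S) (hs : orderOf s = 2) (sc : s • c = c)
    (ne : a ≠ s • a) (hP : IsPiHallOf {l} P (stabilizer G a ⊓ stabilizer G (s • a))) (n : s ∈ N[P])
    (le : P ≤ stabilizer G c) : False := by
  have := h.nt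
  obtain ⟨c', nc⟩ := exists_ne c
  have oP := odd_card_of_le (h.odd ne) hP.le
  have nR : zpowers s ≤ N[O[stabilizer G c]] := zp_norm (O_norm _ sc)
  obtain ⟨Q, hQ, nQ, leQ⟩ := coprime_exists_syl_ge hl (.inl (O_solv _)) nR (cop2 (O_odd _) hs)
    (X := P ⊓ O[stabilizer G c]) inf_le_right ((syl_isPGroup hl hP).to_le inf_le_left) (le_norm_inf (zp_norm n) nR)
  have hC := coprime_syl_inf_cent hl (.inl (O_solv _)) nR (cop2 (O_odd _) hs) hQ nQ
  rw [cent_zpowers] at hC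
  have e1 : (C1[s]).relIndex P ≤ (C1[s]).relIndex Q := by
    rw [← sb_inv oP hs n, ← sb_inv (odd_card_of_le (O_odd _) hQ.le) hs (nQ (mem_zpowers s))]
    refine Nat.card_mono (Set.toFinite _) fun k hk => ⟨leQ ⟨hk.1, ?_⟩, hk.2⟩
    have e : k * s * k⁻¹ * s⁻¹ = k * k := by
      rw [show k * s * k⁻¹ * s⁻¹ = k * (s * k * s⁻¹)⁻¹ by group, hk.2, inv_inv]
    have := h.f1 hc hs sc (le hk.1) (e ▸ odd_ord oP (mul_mem hk.1 hk.1))
    obtain ⟨j, o⟩ := odd_ord oP hk.1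
    rw [show k = (k * k) ^ (j + 1) by
      rw [← sq, ← pow_mul, show 2 * (j + 1) = 2 * j + 1 + 1 by ring, pow_succ, ← o, pow_orderOf_eq_one, one_mul]]
    exact pow_mem (e ▸ this) _
  have pw : ∀ X : Subgroup G, IsPGroup l X → ∃ i, (C1[s]).relIndex X = l ^ i := fun X p => by
    have := Fact.mk hl
    obtain ⟨i, e⟩ := p.exists_card_eq
    exact ((Nat.dvd_prime_pow hl).1 (e ▸ relIndex_dvd_card' _ _)).imp fun _ k => k.2
  obtain ⟨i, ei⟩ := pw P (syl_isPGroup hl hP)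
  obtain ⟨j, ej⟩ := pw Q (syl_isPGroup hl hQ)
  have two : ∀ X Y : Subgroup G, X ≤ Y → (C1[s]).relIndex X * X.relIndex Y =
      (X ⊓ C1[s]).relIndex (Y ⊓ C1[s]) * (C1[s]).relIndex Y := fun X Y le => by
    rw [← inf_relIndex_left X C1[s], ← inf_relIndex_left Y C1[s], relIndex_mul_relIndex _ _ _ inf_le_left le,
      relIndex_mul_relIndex _ _ _ (inf_le_inf_right _ le) inf_le_left]
  have d1 : l ^ j ∣ (C1[s]).relIndex O[stabilizer G c] := ((hl.coprime_iff_not_dvd.2 (syl_not_dvd hl hC)).pow_left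
    j).dvd_of_dvd_mul_left ⟨_, by rw [← two _ _ hQ.le, ej]⟩
  have d2 : l ^ (j + 1) ∣ (C1[s]).relIndex (stabilizer G c) := by
    rw [← relIndex_mul_relIndex _ _ _ (le_sup_right (a := O[stabilizer G c])) (sup_le (O_le _) (h.cent_le hs sc)),
      ← h.idx_Y hc hS hs sc nc.symm inf_le_left le_rfl, sup_comm,
      relIndex_sup_eq_of_norm_or (.inl ((h.cent_le hs sc).trans (O_norm _))), pow_succ]
    exact mul_dvd_mul d1 d
  rw [← h.idx_swap ne hs rfl (by rw [← mul_smul, sq1 hs, one_smul]) sc] at d2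
  have d3 := ((hl.coprime_iff_not_dvd.2 (syl_not_dvd hl hP)).pow_left (j + 1)).dvd_of_dvd_mul_right
    (two _ _ hP.le ▸ d2.mul_left _)
  rw [ei] at d3 e1
  rw [ej] at e1
  have := (Nat.pow_dvd_pow_iff_le_right hl.one_lt).1 d3
  have := (Nat.pow_le_pow_iff_right hl.one_lt).1 e1
  omega

end Ac

end Cfsg.Agent.SE
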