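import Cfsg.Agent.SE.PB3
import Cfsg.Agent.SE.Ind

/-! Strongly embedded subgroups: fusion and transfer (FU), centralisers of odd subgroups (S1). -/

set_option autoImplicit false
set_option linter.unusedSectionVars false
set_option linter.unusedVariables false

namespace Cfsg.Agent.SE.PB

open Cfsg Subgroup MulAction Cfsg.Agent.GT Cfsg.Agent.Cls Cfsg.Agent.GW Cfsg.Agent.WA
open scoped commutatorElement

universe u

variable {G Ω : Type u} [Group G] [Finite G] [MulAction G Ω] {a b c : Ω} {s s' t : G} {N X P A₀ : Subgroup G} {l : ℕ}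

local notation3 "𝐃" => stabilizer G a ⊓ stabilizer G b

theorem idx_orbit (L : Subgroup G) (b : Ω) : (stabilizer G b).relIndex L = (orbit L b).ncard := by
  rw [← index_stabilizer]; rfl

/-- a proper normal supplement from a Sylow subgroup outside the derived group -/
theorem ex_lt {H : Subgroup G} (hl : l.Prime) (NH : N ≤ H) (n : H ≤ N[N]) (hP : IsPiHallOf {l} P N)
    (e : ¬ P ≤ ⁅N, N⁆) : ∃ N', N' < N ∧ H ≤ N[N'] ∧ N ≤ N' ⊔ P := by
  obtain ⟨Y, _, _, f, -, ker⟩ := exists_quo' H ⁅N, N⁆ ((der1_le N).trans NH) (le_norm_commutator n n)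
  have d : (⁅im f N, im f N⁆ : Subgroup Y) = ⊥ := by rw [← im_commutator NH NH, ← ker, im_kr]
  have hO := hall_piCoreOf_compl_of_der1 (p := l) (H := im f N) (d ▸ isPiSubgroup_bot)
  have hP' := hP.im (f := f) NH
  have kN : kr f ≤ N := ker ▸ der1_le N
  have le : pre f (piCoreOf {l}ᶜ (im f N)) ≤ N := pre_le_of_le_im NH kN (piCoreOf_le _ _)
  refine ⟨_, lt_of_le_of_ne le fun e' => e ?_, le_norm_pre le_rfl (le_norm_piCoreOf (im_norm n)), ?_⟩
  · rw [← ker, ← im_eq_bot_iff (hP.le.trans NH)]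
    refine eq_bot_iff.2 ((le_inf le_rfl ((im_le_iff (hP.le.trans NH)).2 (e' ▸ hP.le))).trans ?_)
    exact (hP'.isPi.inf_eq_bot (piCoreOf_isPi _ _)).le
  · rw [← im_le_im_iff_of_le NH (sup_le pre_le (hP.le.trans NH)) (kr_le_pre.trans le_sup_left),
      im_sup pre_le (hP.le.trans NH), im_pre_of_le' (piCoreOf_le _ _), sup_comm, hP'.sup_eq hO]

/-- (FU) -/
theorem fu (w : Tw1 G Ω) (ne : a ≠ b) (NH : N ≤ stabilizer G a) (n : stabilizer G a ≤ N[N]) (h1 : N ⊓ 𝐃 ≠ ⊥)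
    (gd : ∀ (l : ℕ) (X : Subgroup G), l.Prime → IsPGroup l X → X ≠ ⊥ → X ≤ N ⊓ 𝐃 →
      ∃ T : Subgroup G, IsPGroup 2 T ∧ T ≤ N ⊓ C[X] ∧ ∀ c, c ≠ a → X ≤ stabilizer G c → ∃ g ∈ T, g • b = c) :
    ∃ N', N' < N ∧ stabilizer G a ≤ N[N'] ∧ N ≤ N' ⊔ (N ⊓ 𝐃) := by
  have oD : Odd (Nat.card ↥(N ⊓ 𝐃)) := odd_card_of_le (w.odd a b ne) inf_le_right
  have mv : ∀ g ∈ N, g • b ≠ a := fun g hg e => ne (smul_left_cancel g ((NH hg).trans e.symm))
  have lt := commutator_lt_of_solvable (solv_odd oD) h1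
  obtain ⟨l, hl, dv⟩ := Nat.exists_prime_and_dvd (n := (⁅N ⊓ 𝐃, N ⊓ 𝐃⁆ : Subgroup G).relIndex (N ⊓ 𝐃))
    fun e => lt.not_ge (relIndex_eq_one.1 e)
  obtain ⟨P, hP⟩ := exists_syl hl (N ⊓ 𝐃)
  have nP : ¬ P ≤ ⁅N ⊓ 𝐃, N ⊓ 𝐃⁆ := fun e => (syl_le_der1_iff hl hP).1 e dv
  have P1 : P ≠ ⊥ := fun e => nP (e ▸ bot_le)
  have pP := syl_isPGroup hl hP
  have Pb : P ≤ stabilizer G b := hP.le.trans (inf_le_right.trans inf_le_right)
  have l2 : l ≠ 2 := by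
    rintro rfl
    exact P1 (card_eq_one.1 ((Nat.coprime_self _).1 (cop2' (odd_card_of_le oD hP.le) pP)))
  have hN : IsPiHallOf {l} P N := by
    obtain ⟨T, p2, TN, tr⟩ := gd l P hl pP P1 hP.le
    have TL : T ≤ N ⊓ N[P] := TN.trans (inf_le_inf_left _ (centralizer_le_normalizer _))
    have e : (stabilizer G b).relIndex (N ⊓ N[P]) = (stabilizer G b).relIndex T := by
      rw [idx_orbit, idx_orbit]
      congr 1
      refine le_antisymm ?_ ?_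
      · rintro _ ⟨g, rfl⟩
        obtain ⟨k, hk, e⟩ := tr _ (mv g g.2.1) (sb_fixN Pb g.2.2)
        exact ⟨⟨k, hk⟩, e⟩
      · rintro _ ⟨g, rfl⟩
        exact ⟨⟨g, TL g.2⟩, rfl⟩
    refine syl_of_syl_norm hl (syl_trans (K := N ⊓ N[P] ⊓ stabilizer G b) hl (syl_of_le hP
      (le_inf (le_inf (hP.le.trans inf_le_left) le_normalizer) Pb)
      fun x hx => ⟨hx.1.1, NH hx.1.1, hx.2⟩) inf_le_left fun d => ?_)
    rw [inf_relIndex_left, e] at d
    obtain ⟨k, hk⟩ := p2.exists_card_eq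
    exact l2 ((Nat.prime_dvd_prime_iff_eq hl Nat.prime_two).1
      (hl.dvd_of_dvd_pow (hk ▸ d.trans (relIndex_dvd_card' _ _))))
  have fo : P ⊓ ⁅N, N⁆ ≤ ⁅N ⊓ 𝐃, N ⊓ 𝐃⁆ := focal_subgroup_le hl hN fun x hx u hu e => by
    by_cases x1 : x = 1
    · rw [x1, commutatorElement_one_left]; exact one_mem _
    obtain ⟨T, -, TN, tr⟩ := gd l (zpowers x) hl (pP.to_le (zpowers_le.2 hx)) (by simpa using x1)
      (zpowers_le.2 (hP.le hx))
    obtain ⟨k, hk, e'⟩ := tr (u⁻¹ • b) (mv _ (inv_mem hu)) (zpowers_le.2 (by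
      have : (u * x * u⁻¹) • b = b := Pb e
      rw [mem_stabilizer_iff, eq_inv_smul_iff, ← mul_smul, ← mul_smul, this]))
    have m := mul_mem hu (TN hk).1
    have : ⁅x, u⁆ = ⁅x, u * k⁆ := by
      have c := (TN hk).2 x (mem_zpowers x)
      calc _ = x * u * (k * k⁻¹) * x⁻¹ * u⁻¹ := by rw [commutatorElement_def]; group
        _ = x * u * k * (x * k)⁻¹ * u⁻¹ := by group
        _ = _ := by rw [c, commutatorElement_def]; group
    rw [this]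
    exact commutator_mem_commutator (hP.le hx) ⟨m, NH m, show (u * k) • b = b by
      rw [mul_smul, e', smul_inv_smul]⟩
  obtain ⟨N', h1, h2, h3⟩ := ex_lt hl NH n hN fun e => nP ((le_inf le_rfl e).trans fo)
  exact ⟨N', h1, h2, h3.trans (sup_le_sup_left hP.le _)⟩

theorem cl_sub (h : Cl2 G Ω) : Cl2 N (orbit N c) := fun d v v' o o' e e' => by
  have m := h d v v' ((orderOf_coe v).trans o) ((orderOf_coe v').trans o') (congrArg Subtype.val e)
    (congrArg Subtype.val e')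
  have : ((v * v' * v * v' : N) : G) ∈ O[N ⊓ stabilizer G (d : Ω)] :=
    le_O (X := N ⊓ O[stabilizer G (d : Ω)]) (inf_le_inf_left _ (O_le _))
      (le_norm_inf (inf_le_left.trans le_normalizer) (inf_le_right.trans (O_norm _)))
      (odd_card_of_le (O_odd _) inf_le_right) ⟨(v * v' * v * v').2, m⟩
  rw [← O_orbit] at this
  obtain ⟨y, hy, e⟩ := this
  rwa [← Subtype.ext e]

variable (h : Tw2 G Ω) (fa : Fa G Ω)
include h fa

theorem eqA (mA : ∀ x, x ∈ A₀ ↔ x = 1 ∨ orderOf x = 2 ∧ x • a = a) : A₀ = A h fa a := by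
  ext x
  rw [mA]
  refine ⟨?_, fun hx => or_iff_not_imp_left.2 fun x1 => ⟨ord2 hx.1 x1, hx.2⟩⟩
  rintro (rfl | ⟨o, e⟩)
  exacts [one_mem _, memA2 h fa o e]

/-- (S1) -/
theorem s1 (ih : ∀ (G' Ω' : Type u) [Group G'] [Finite G'] [MulAction G' Ω'], Nat.card G' < Nat.card G →
      Ac2 G' Ω' → Cl2 G' Ω' → ∀ (a : Ω') (S : Subgroup G'), IsPiHallOf {2} S (stabilizer G' a) →
        (∀ b c, b ≠ a → c ≠ a → ∃ h ∈ S, h • b = c) ∧
          ∀ h ∈ S, ∀ s : G', orderOf s = 2 → s • a = a → ∀ d : Ω', (h * s * h⁻¹) • d = s • d)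
    (ne : a ≠ b) (mA : ∀ x, x ∈ A₀ ↔ x = 1 ∨ orderOf x = 2 ∧ x • a = a)
    (hl : l.Prime) (hX : IsPGroup l X) (X1 : X ≠ ⊥) (XD : X ≤ 𝐃) (c2 : Nat.card ↥(A₀ ⊓ C[X]) ≠ 2) :
    ∃ T : Subgroup G, IsPGroup 2 T ∧ T ≤ (stabilizer G a ⊓ C[A₀ ⊓ C[X]]) ⊓ C[X] ∧
      ∀ c, c ≠ a → X ≤ stabilizer G c → ∃ g ∈ T, g • b = c := by
  obtain rfl := eqA h fa mA
  by_cases e : A h fa a ⊓ C[X] = ⊥
  · exact ⟨⊥, IsPGroup.of_bot, bot_le, fun c ca hc =>
      ⟨1, one_mem _, (one_smul _ _).trans ((fixl h fa ne hl hX XD e hc).resolve_left ca).symm⟩⟩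
  obtain ⟨s, hs, s1⟩ := exists_ne_one_of_ne_bot e
  have o := ord2 hs.1.1 s1
  obtain ⟨s', hs', n'⟩ := SetLike.not_le_iff_exists.1 (show ¬ A h fa a ⊓ C[X] ≤ zpowers s from fun e' => c2 (by
    rw [le_antisymm e' (zpowers_le.2 hs), Nat.card_zpowers, o]))
  have o' := ord2 hs'.1.1 fun e => n' (e ▸ one_mem _)
  have ss : s ≠ s' := fun e => n' (e ▸ mem_zpowers s)
  have orb : ∀ d, X ≤ stabilizer G d → d ∈ orbit C[X] a := fun d hd => by
    by_cases da : d = a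
    · exact da ▸ mem_orbit_self _
    have e' : A h fa d ⊓ C[X] ≠ ⊥ := fun e' => by
      have k := fun c => fixl h fa (c := c) da hl hX (le_inf hd (XD.trans inf_le_left)) e'
      have k1 := (k b (XD.trans inf_le_right)).resolve_right ne.symm
      have k2 := (k _ (sb_fixN (XD.trans inf_le_right) (centralizer_le_normalizer _ hs.2))).resolve_right
        fun e => ne (smul_left_cancel s (hs.1.2.trans e.symm))
      exact ne (uniq h.toTw1 o hs.1.2 (k2.trans k1.symm))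
    obtain ⟨v, hv, v1⟩ := exists_ne_one_of_ne_bot e'
    exact h.toTw1.home hs.2 o hs.1.2 hv.2 (ord2 hv.1.1 v1) hv.1.2
  have nt : C[X] ≠ ⊤ := fun e => X1 (eq_bot_iff.2 fun x hx => mem_bot.2 (fa x fun d => by
    obtain ⟨g, rfl⟩ := h.ac.tr a d
    exact sb_fixN (XD.trans inf_le_left) (centralizer_le_normalizer _ (e ▸ mem_top g : g ∈ C[X])) hx))
  have hb := orb b (XD.trans inf_le_right)
  have nl : ¬ C[X] ≤ stabilizer G a := fun e => by
    obtain ⟨g, k⟩ := hb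
    exact ne ((e g.2).symm.trans k)
  obtain ⟨S, hS⟩ := exists_syl Nat.prime_two (stabilizer C[X] (⟨a, mem_orbit_self a⟩ : orbit C[X] a))
  obtain ⟨t1, t2⟩ := ih _ _ (card_lt_of_ne_top nt) (h.toTw1.sub nl hs.2 hs'.2 o o' ss
    (comm h fa o o' hs.1.2 hs'.1.2) hs.1.2) (cl_sub h.cl) _ S hS
  refine ⟨S.map C[X].subtype, (syl_isPGroup Nat.prime_two hS).map _, ?_, fun c ca hc => ?_⟩
  · rintro _ ⟨g, hg, rfl⟩
    have ga : (g : G) • a = a := congrArg Subtype.val (hS.le hg)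
    refine ⟨⟨ga, fun v hv => ?_⟩, g.2⟩
    by_cases v1 : v = 1
    · rw [v1, one_mul, mul_one]
    have k : ((g : G) * v * (g : G)⁻¹) • b = v • b := congrArg Subtype.val
      (t2 g hg ⟨v, hv.2⟩ ((orderOf_mk _ _).trans (ord2 hv.1.1 v1)) (Subtype.ext hv.1.2) ⟨b, hb⟩)
    have m := (A h fa a).mul_mem ((A h fa a).inv_mem hv.1) (conj_mem_of_le_norm (nA h fa) ga hv.1)
    have : v⁻¹ * ((g : G) * v * (g : G)⁻¹) = 1 := by
      by_contra n1
      exact ne (uniq h.toTw1 (ord2 m.1 n1) m.2 (by rw [mul_smul, k, inv_smul_smul]))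
    show v * g = g * v
    rw [← mul_inv_eq_iff_eq_mul.1 (eq_of_inv_mul_eq_one this).symm]
  · obtain ⟨g, hg, k⟩ := t1 ⟨b, hb⟩ ⟨c, orb c hc⟩ (fun e => ne (congrArg Subtype.val e).symm)
      fun e => ca (congrArg Subtype.val e)
    exact ⟨g, ⟨g, hg, rfl⟩, congrArg Subtype.val k⟩

end Cfsg.Agent.SE.PB

namespace Cfsg.Agent.SE

open Cfsg Subgroup MulAction Cfsg.Agent.GT Cfsg.Agent.Cls Cfsg.Agent.GW Cfsg.Agent.WA

universe u

variable {G Ω : Type u} [Group G] [Finite G] [MulAction G Ω] {a b : Ω} {t : G} {A K : Subgroup G}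

theorem St.s1 (S : St a b t A K) (l : ℕ) (X : Subgroup G) (hl : l.Prime) (hX : IsPGroup l X) (X1 : X ≠ ⊥)
    (XD : X ≤ stabilizer G a ⊓ stabilizer G b) (c2 : Nat.card ↥(A ⊓ C[X]) ≠ 2) :
    ∃ T : Subgroup G, IsPGroup 2 T ∧ T ≤ (stabilizer G a ⊓ C[A ⊓ C[X]]) ⊓ C[X] ∧
      ∀ c, c ≠ a → X ≤ stabilizer G c → ∃ g ∈ T, g • b = c :=
  PB.s1 S.tw S.fa (fun G' Ω' _ _ _ lt ac cl => (S.ih G' Ω' lt ac cl).2) S.ne S.memA hl hX X1 XD c2

end Cfsg.Agent.SE
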