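import Cfsg.Agent.SE.GV1

/-! Strongly embedded subgroups: counting elements of even order, and the contradiction. -/

set_option autoImplicit false
set_option linter.unusedSectionVars false
set_option linter.unusedVariables false

namespace Cfsg.Agent.SE

open Cfsg Subgroup Cfsg.Agent.GT Cfsg.Agent.Char Cfsg.Agent.B84C Cfsg.Agent.BS
open scoped ComplexConjugate Classical

universe u

namespace GV

variable {G : Type u} [Group G] [Fintype G] {H A O F P D : Subgroup G} {s u h : G} {χ : G → ℂ}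

theorem card_ite (K : Subgroup G) : (Nat.card K : ℝ) = ∑ g, if g ∈ K then 1 else 0 :=
  natCard_subtype_eq_sum_ite (· ∈ K) ℝ

theorem card_sub (K : Subgroup G) (x : G) :
    (Nat.card K : ℝ) - 1 = ∑ a, if x * a * x⁻¹ ∈ K ∧ a ≠ 1 then 1 else 0 := by
  have one : (∑ x : G, if x = 1 then 1 else 0) = (1 : ℝ) := by simp
  rw [card_ite, sub_eq_iff_eq_add]
  refine Eq.trans ?_ (congrArg _ one)
  rw [← Finset.sum_add_distrib]
  refine (Fintype.sum_equiv (MulAut.conj x).toEquiv _ _ fun a => ?_).symm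
  by_cases e : a = 1
  · simp [e]
  · simp only [e, ne_eq, not_false_eq_true, and_true, if_false, add_zero]
    rfl

theorem inv_pow' {g : G} (h : ¬ Odd (orderOf g)) : ∃ m : ℕ, orderOf (g ^ m) = 2 := by
  obtain ⟨k, hk⟩ := Nat.not_odd_iff_even.1 h
  have := orderOf_pos g
  exact ⟨k, by rw [orderOf_pow_of_dvd (by omega) ⟨2, by omega⟩, hk, ← two_mul, Nat.mul_div_cancel _ (by omega)]⟩

theorem ev_G (fus : ∀ z ∈ H, orderOf z = 2 → ∀ g, g * z * g⁻¹ ∈ H → g ∈ H) :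
    Nat.card G * (∑ g, if g ∈ H then ev g else 0) ≤ (∑ g : G, ev g) * Nat.card H := by
  have e : ∀ x : G, (∑ g, if g ∈ H then ev g else 0) = ∑ g, if x * g * x⁻¹ ∈ H then ev g else 0 := fun x =>
    (Fintype.sum_equiv (MulAut.conj x).toEquiv _ _ fun g => by simp [ev_conj]).symm
  rw [Nat.card_eq_fintype_card, ← nsmul_eq_mul, ← Finset.card_univ, ← Finset.sum_const,
    Finset.sum_congr rfl fun x _ => e x, Finset.sum_comm, Finset.sum_mul]
  refine Finset.sum_le_sum fun g _ => ?_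
  by_cases o : Odd (orderOf g)
  · simp [ev, o]
  by_cases n : ∃ y : G, y * g * y⁻¹ ∈ H
  swap
  · rw [Finset.sum_eq_zero fun x _ => if_neg fun m => n ⟨x, m⟩]
    exact mul_nonneg (ev_nonneg g) (Nat.cast_nonneg _)
  obtain ⟨y, hy⟩ := n
  obtain ⟨m, hm⟩ := inv_pow' o
  rw [card_ite, ← Equiv.sum_comp (Equiv.mulRight y⁻¹) (fun x => if x ∈ H then (1 : ℝ) else 0), Finset.mul_sum]
  refine Finset.sum_le_sum fun x _ => ?_
  split_ifs with a b b
  · simp
  · have k : ∀ x : G, x * g * x⁻¹ ∈ H → x * g ^ m * x⁻¹ ∈ H := fun x h => by rw [← conj_pow]; exact pow_mem h m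
    refine (b (fus (y * g ^ m * y⁻¹) (k y hy) ((orderOf_conj' _ _).trans hm) _ ?_)).elim
    simpa [mul_assoc] using k x a
  · simpa using ev_nonneg g
  · simp

theorem coset (A2 : ∀ a ∈ A, a * a = 1) (h : G) :
    (Nat.card A - ∑ a, if a ∈ A then ev (h * a) else 0) * (Nat.card ↥(A ⊓ C1[h]) : ℝ) ≤ Nat.card A := by
  have cm : ∀ a ∈ A, ∀ b ∈ A, Commute a b := fun a ha b hb => by
    have := A2 _ (mul_mem ha hb)
    rw [← inv_eq_iff_mul_eq_one, mul_inv_rev, inv_eq_of_mul_eq_one_right (A2 a ha),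
      inv_eq_of_mul_eq_one_right (A2 b hb)] at this
    exact this.symm
  let f : {a // a ∈ A ∧ Odd (orderOf (h * a))} × ↥(A ⊓ C1[h]) → A := fun p => ⟨p.1 * p.2, mul_mem p.1.2.1 p.2.2.1⟩
  have pw : ∀ p : {a // a ∈ A ∧ Odd (orderOf (h * a))} × ↥(A ⊓ C1[h]), ∀ m, Odd m → orderOf (h * p.1) ∣ m →
      (h * (f p : G)) ^ m = p.2 := fun p m ⟨k, hk⟩ d => by
    have c : Commute (h * p.1) p.2 := (show Commute h p.2 from (mem_cent1.1 p.2.2.2).symm).mul_left
      (cm _ p.1.2.1 _ p.2.2.1)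
    rw [← mul_assoc, c.mul_pow, orderOf_dvd_iff_pow_eq_one.1 d, one_mul, hk, pow_succ, pow_mul, sq, A2 _ p.2.2.1,
      one_pow, one_mul]
  have inj : Function.Injective f := fun p p' e => by
    have o := p.1.2.2.mul p'.1.2.2
    have := (pw p _ o (dvd_mul_right _ _)).symm.trans (e ▸ pw p' _ o (dvd_mul_left _ _))
    have e' : (p.1 : G) * p.2 = p'.1 * p'.2 := congrArg Subtype.val e
    exact Prod.ext (Subtype.ext (mul_right_cancel (this ▸ e'))) (Subtype.ext this)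
  have := Nat.card_le_card_of_injective f inj
  rw [Nat.card_prod] at this
  refine le_trans (le_of_eq ?_) (Nat.cast_le.2 this)
  rw [Nat.cast_mul, natCard_subtype_eq_sum_ite (fun a => a ∈ A ∧ Odd (orderOf (h * a))), card_ite A,
    ← Finset.sum_sub_distrib]
  congr 1
  refine Finset.sum_congr rfl fun a _ => ?_
  by_cases m : a ∈ A <;> by_cases o : Odd (orderOf (h * a)) <;> simp [ev, m, o]

theorem ev_H (AH : A ≤ H) (A2 : ∀ a ∈ A, a * a = 1) {c : ℝ} (hc : ∀ a ∈ A, a ≠ 1 → C1[a] ≤ H ∧ Nat.card C1[a] = c)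
    (cH : Nat.card H = (Nat.card A - 1) * c) :
    (Nat.card H : ℝ) ≤ Nat.card A * (∑ g, if g ∈ H then ev g else 0) ∧
    2 * (Nat.card H : ℝ) - (Nat.card A - 1) * Nat.card ↥(H ⊓ C[A]) ≤
      Nat.card A * ∑ g, if g ∈ H then ev g else 0 := by
  have e1 : Nat.card A * (∑ g, if g ∈ H then ev g else 0) =
      ∑ h, if h ∈ H then ∑ a, (if a ∈ A then ev (h * a) else 0) else 0 := by
    rw [card_ite A, Finset.sum_mul]
    simp only [← Finset.sum_filter]
    rw [Finset.sum_comm]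
    simp only [Finset.sum_filter]
    refine Finset.sum_congr rfl fun a _ => ?_
    split_ifs with m
    · rw [one_mul]
      exact (Fintype.sum_equiv (Equiv.mulRight a) _ _ fun g => by simp [mul_mem_cancel_right (AH m)]).symm
    · simp
  have e2 : (Nat.card H : ℝ) = ∑ h, if h ∈ H then (Nat.card ↥(A ⊓ C1[h]) : ℝ) - 1 else 0 := by
    have k : ∀ K : Subgroup G, (Nat.card K : ℝ) - 1 = ∑ a, if a ∈ K ∧ a ≠ 1 then 1 else 0 := fun K => by
      simpa only [one_mul, inv_one, mul_one] using card_sub K 1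
    simp only [k] at cH ⊢
    rw [cH, Finset.sum_mul]
    simp only [← Finset.sum_filter (fun h => h ∈ H)]
    rw [Finset.sum_comm]
    refine Finset.sum_congr rfl fun a _ => ?_
    split_ifs with m
    · rw [one_mul, ← (hc a m.1 m.2).2, card_ite, Finset.sum_filter]
      refine Finset.sum_congr rfl fun h _ => ?_
      by_cases n : h ∈ C1[a]
      · simp [n, (hc a m.1 m.2).1 n, m.1, m.2, mem_cent1_comm.1 n]
      · simp [n, mt mem_cent1_comm.1 n]
    · rw [zero_mul, Finset.sum_eq_zero fun h _ => if_neg fun n => m ⟨n.1.1, n.2⟩]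
  have k : ∀ h (l : ℝ), l * Nat.card ↥(A ⊓ C1[h]) ≤ Nat.card A →
      l * ((Nat.card ↥(A ⊓ C1[h]) : ℝ) - 1) ≤ ∑ a, if a ∈ A then ev (h * a) else 0 := fun h l hl => by
    have := coset A2 h
    have p : (1 : ℝ) ≤ Nat.card ↥(A ⊓ C1[h]) := Nat.one_le_cast.2 Nat.card_pos
    refine le_of_mul_le_mul_right ?_ (zero_lt_one.trans_le p)
    nlinarith
  have k1 := fun h => k h 1 (by rw [one_mul]; exact Nat.cast_le.2 (card_le_of_le inf_le_left))
  rw [e1]
  refine ⟨e2.trans_le (Finset.sum_le_sum fun h _ => ?_), ?_⟩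
  · split_ifs
    exacts [by simpa using k1 h, le_rfl]
  rw [e2, card_ite (H ⊓ C[A]), Finset.mul_sum, Finset.mul_sum, ← Finset.sum_sub_distrib]
  refine Finset.sum_le_sum fun h _ => ?_
  by_cases m : h ∈ H
  swap
  · simp [m]
  by_cases n : h ∈ C[A]
  · have := k1 h
    have e : A ⊓ C1[h] = A := inf_eq_left.2 fun a ha => mem_cent1.2 (mem_centralizer_iff.1 n a ha)
    rw [e] at this ⊢
    simp only [m, n, mem_inf, and_self, if_true]
    linarith
  · have l : A ⊓ C1[h] < A := lt_of_le_of_ne inf_le_left fun e => n (mem_centralizer_iff.2 fun a ha =>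
      mem_cent1.1 (e.ge ha).2)
    have := card_mul_relIndex l.le
    have i1 : (A ⊓ C1[h]).relIndex A ≠ 1 := fun e => l.not_ge (relIndex_eq_one.1 e)
    have i0 : (A ⊓ C1[h]).relIndex A ≠ 0 := fun e => by
      rw [e, mul_zero] at this; exact Nat.card_pos.ne this
    have := k h 2 (by
      rw [← this, mul_comm]
      exact_mod_cast Nat.mul_le_mul_left _ (by omega))
    simpa [m, n] using this

theorem ar {e : ℕ} (h : 3 ≤ e) : 125 * e ^ 2 * 2 ^ e + 384 * 2 ^ e < 192 * (2 ^ e) ^ 2 + 192 := by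
  rcases h.eq_or_lt with rfl | h
  · norm_num
  have : ∀ k, 125 * (k + 4) ^ 2 + 384 ≤ 192 * 2 ^ (k + 4) := fun k => by
    induction k with
    | zero => norm_num
    | succ k ih => rw [show k + 1 + 4 = k + 4 + 1 by ring, pow_succ 2]; nlinarith
  obtain ⟨k, rfl⟩ : ∃ k, e = k + 4 := ⟨e - 4, by omega⟩
  have := Nat.mul_le_mul_right (2 ^ (k + 4)) (this k)
  nlinarith

theorem arith {q r E h c W : ℝ} {n : ℕ} (r0 : 0 ≤ r) (q4 : 4 ≤ q) (H0 : 0 < h) (big : q * (2 * q - 1) ≤ W)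
    (I2 : r ^ 2 ≤ 1 / W + r * (n / (q - 1))) (h1 : h ≤ q * E) (h2 : 2 * h - (q - 1) * c ≤ q * E) (h4 : E ≤ r ^ 2 * h)
    (he : n = 1 ∨ (3 ≤ n ∧ q = 2 ^ n ∧ 3 * (q - 1) * c ≤ h)) : False := by
  have p0 : 0 < q * (2 * q - 1) := mul_pos (by linarith) (by linarith)
  replace I2 := I2.trans (add_le_add (one_div_le_one_div_of_le p0 big) le_rfl)
  have fin : ∀ l y : ℝ, 0 < l → l ≤ q * r ^ 2 → 0 ≤ y → y < 1 → 1 ≤ (1 - y) * l * (2 * q - 1) →
      y ^ 2 * l * (q - 1) ^ 2 ≤ n ^ 2 * q := fun l y l0 h y0 y1 h' => by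
    have r1 : 0 < r := lt_of_le_of_ne r0 fun e => by rw [← e] at h; simp at h; linarith
    have a : 1 / (q * (2 * q - 1)) ≤ (1 - y) * r ^ 2 := by
      rw [div_le_iff₀ p0]
      have := mul_le_mul_of_nonneg_right (mul_le_mul_of_nonneg_left h (sub_pos.2 y1).le) (by linarith : 0 ≤ 2 * q - 1)
      linarith
    have b : y * r ≤ n / (q - 1) := le_of_mul_le_mul_left (by linarith) r1
    rw [le_div_iff₀ (by linarith)] at b
    have c := pow_le_pow_left₀ (mul_nonneg (mul_nonneg y0 r0) (by linarith)) b 2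
    have d := mul_le_mul_of_nonneg_left h (mul_nonneg (sq_nonneg y) (sq_nonneg (q - 1)))
    have := mul_le_mul_of_nonneg_right c (by linarith : 0 ≤ q)
    linarith
  have h5 := mul_le_mul_of_nonneg_left h4 (by linarith : 0 ≤ q)
  rcases he with rfl | ⟨e3, eq, c0⟩
  · have := fin 1 (6 / 7) one_pos (le_of_mul_le_mul_right (by linarith) H0) (by norm_num) (by norm_num) (by linarith)
    push_cast at this
    nlinarith
  · have q8 : 8 ≤ q := by
      rw [eq, show (8 : ℝ) = 2 ^ 3 by norm_num]; exact pow_le_pow_right₀ one_le_two e3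
    have := fin (5 / 3) (24 / 25) (by norm_num) (le_of_mul_le_mul_right (by linarith) H0) (by norm_num) (by norm_num)
      (by linarith)
    have a : (125 * n ^ 2 * 2 ^ n + 384 * 2 ^ n : ℝ) < 192 * (2 ^ n) ^ 2 + 192 := by exact_mod_cast ar e3
    rw [← eq] at a
    linarith

theorem cardH (fus : ∀ z ∈ H, orderOf z = 2 → ∀ g, g * z * g⁻¹ ∈ H → g ∈ H) (AH : A ≤ H) (nA : H ≤ N[A])
    (tr : ∀ a ∈ A, ∀ b ∈ A, a ≠ 1 → b ≠ 1 → ∃ h ∈ H, h * a * h⁻¹ = b) (sA : s ∈ A) (hs : orderOf s = 2) :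
    (Nat.card H : ℝ) = (Nat.card A - 1) * Nat.card C1[s] := by
  have s1 := ne_one_of_orderOf_two hs
  rw [card_sub A 1, Finset.sum_mul, card_ite H]
  have : ∀ a, (if 1 * a * 1⁻¹ ∈ A ∧ a ≠ 1 then (1 : ℝ) else 0) * Nat.card C1[s] =
      ∑ x, if x⁻¹ * s * x = a then (if a ∈ A ∧ a ≠ 1 then 1 else 0) else 0 := fun a => by
    simp only [one_mul, inv_one, mul_one]
    split_ifs with m
    · obtain ⟨x, -, e⟩ := tr s sA a m.1 s1 m.2
      rw [one_mul, ← card_conj_eq_of_isConj (isConj_iff.2 ⟨x, e⟩), natCard_subtype_eq_sum_ite _ ℝ]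
    · simp
  simp only [this]
  rw [Finset.sum_comm]
  refine Finset.sum_congr rfl fun x _ => ?_
  rw [Finset.sum_ite_eq, if_pos (Finset.mem_univ _)]
  refine if_congr ⟨fun m => ⟨by simpa using (mem_normalizer_iff.1 (nA (inv_mem m)) s).1 sA, fun e => s1 (by
    rw [show s = x * (x⁻¹ * s * x) * x⁻¹ by group, e]; group)⟩,
    fun m => inv_mem_iff.1 (fus s (AH sA) hs _ (by simpa using AH m.1))⟩ rfl rfl

theorem cnt (cz : ∀ z ∈ H, orderOf z = 2 → C1[z] ≤ H) (inv : ∀ z ∈ H, orderOf z = 2 → z ∈ A) (sH : s ∈ H)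
    (hs : orderOf s = 2) (w : G) (hw : IsConj s w) :
    ∑ u, (if IsConj s u then ev (u * w) else 0) ≤ Nat.card A - 1 := by
  obtain ⟨x, rfl⟩ := isConj_iff.1 hw
  rw [card_sub A x⁻¹]
  refine Finset.sum_le_sum fun u _ => ?_
  by_cases c : IsConj s u
  swap
  · rw [if_neg c]; split_ifs <;> norm_num
  rw [if_pos c, ev]
  split_ifs with o m m
  · norm_num
  · norm_num
  · norm_num
  obtain ⟨y, rfl⟩ := isConj_iff.1 c
  have t2 : ∀ y : G, orderOf (y * s * y⁻¹) = 2 := fun y => (orderOf_conj' _ _).trans hs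
  obtain ⟨j, -, j2, c1, c2⟩ := central_of_even (mul_self_of_orderOf (t2 y)) (mul_self_of_orderOf (t2 x))
    (Nat.not_odd_iff_even.1 o)
  generalize (y * s * y⁻¹ * (x * s * x⁻¹)) ^ j = z at *
  have zH : x⁻¹ * z * x⁻¹⁻¹ ∈ H := cz s sH hs (mem_cent1.2 (by
    rw [show x⁻¹ * z * x⁻¹⁻¹ * s = x⁻¹ * (z * (x * s * x⁻¹)) * x by group, c2]; group))
  refine (m ⟨inv _ (cz _ zH ((orderOf_conj' _ _).trans j2) (mem_cent1.2 ?_)) ((orderOf_conj' _ _).trans (t2 y)),
    ne_one_of_orderOf_two (t2 y)⟩).elim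
  rw [conj_mul, conj_mul, c1]

theorem deg' [IsSimpleGroup G] (cz : ∀ z ∈ H, orderOf z = 2 → C1[z] ≤ H)
    (F1 : F ≠ ⊥) (oF : Odd (Nat.card F)) (aF : F ≤ C[F]) (nF : H ≤ N[F])
    (pP : IsPGroup 2 P) (PH : P ≤ H) (PF : P ≤ C[F])
    (DF : D ≤ N[F]) (fp : ∀ d ∈ D, ∀ f ∈ F, Commute d f → d = 1 ∨ f = 1) (χ : G → ℂ) (h : χ ∈ B0 G)
    (h1 : χ ≠ fun _ => 1) : (Nat.card P * Nat.card D : ℝ) ≤ (χ 1).re := by
  have hχ := B0_irr h
  have : ¬ F ≤ chKer χ := fun le => by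
    rcases (chKer_normal hχ.isClassFunction).eq_bot_or_eq_top with e | e
    · exact F1 (eq_bot_iff.2 (e ▸ le))
    · exact h1 (hχ.eq_one_of_forall fun g => apply_eq_of_mem_chKer (e ▸ mem_top g))
  obtain ⟨f, hf, n⟩ := SetLike.not_le_iff_exists.1 this
  refine deg hχ.isCharacter aF PF DF fp (fun u hu u1 f hf => ?_) hf (mt hχ.isCharacter.mem_chKer_iff.2 n)
  have pu : PiNat {2} (orderOf u) := fun p hp d =>
    isPi_of_isPGroup Nat.prime_two pP p hp (d.trans (orderOf_dvd_card_of_mem hu))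
  refine B0_apply_mul_odd' pu F (fun o ho => mem_centralizer_iff.1 (PF hu) o ho) (fun c hc o ho => ?_) oF h hf
  obtain ⟨m, hm⟩ := inv_pow' (g := u) fun o => u1 (by
    simpa using (mem_zpowers_pow_odd pu o))
  exact (mem_normalizer_iff.1 (nF (cz _ (pow_mem (PH hu) m) hm
    (mem_cent1.2 ((show Commute c u from hc).pow_right m)))) o).1 ho

end GV

open GV

theorem gv_false {G : Type u} [Group G] [Finite G] [IsSimpleGroup G] {H A O F P D : Subgroup G} {e : ℕ}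
    (fus : ∀ z ∈ H, orderOf z = 2 → ∀ g, g * z * g⁻¹ ∈ H → g ∈ H)
    (AH : A ≤ H) (A2 : ∀ a ∈ A, a * a = 1) (nA : H ≤ N[A]) (inv : ∀ z ∈ H, orderOf z = 2 → z ∈ A)
    (tr : ∀ a ∈ A, ∀ b ∈ A, a ≠ 1 → b ≠ 1 → ∃ h ∈ H, h * a * h⁻¹ = b) (q4 : 4 ≤ Nat.card A)
    (OA : O ≤ C[A]) (nO : H ≤ N[O]) (oO : Odd (Nat.card O))
    (F1 : F ≠ ⊥) (oF : Odd (Nat.card F)) (aF : F ≤ C[F]) (nF : H ≤ N[F])
    (pP : IsPGroup 2 P) (PH : P ≤ H) (PF : P ≤ C[F])
    (DF : D ≤ N[F]) (fp : ∀ d ∈ D, ∀ f ∈ F, Commute d f → d = 1 ∨ f = 1)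
    (cH : Nat.card H ≤ Nat.card O * Nat.card P * Nat.card D * e)
    (big : Nat.card A * (2 * Nat.card A - 1) ≤ H.index)
    (he : e = 1 ∨ (3 ≤ e ∧ Nat.card A = 2 ^ e ∧ 3 * (Nat.card A - 1) * Nat.card ↥(H ⊓ C[A]) ≤ Nat.card H)) :
    False := by
  have := Fintype.ofFinite G
  obtain ⟨s, sA, s1⟩ := (bot_or_exists_ne_one A).resolve_left fun e => by simp [e] at q4
  have o2 : ∀ a ∈ A, a ≠ 1 → orderOf a = 2 := fun a h h1 => orderOf_eq_two_of (A2 a h) h1
  have hs := o2 s sA s1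
  have cz : ∀ z ∈ H, orderOf z = 2 → C1[z] ≤ H := fun z hz o c hc =>
    fus z hz o c (by rw [mem_cent1.1 hc, mul_inv_cancel_right]; exact hz)
  have cs := cz s (AH sA) hs
  have hc : ∀ a ∈ A, a ≠ 1 → C1[a] ≤ H ∧ (Nat.card C1[a] : ℝ) = Nat.card C1[s] := fun a h h1 => by
    obtain ⟨x, -, rfl⟩ := tr s sA a h s1 h1
    exact ⟨cz _ (AH h) (o2 _ h h1), by rw [← conj_cent1, card_conj]⟩
  have cH' := cardH fus AH nA tr sA hs
  have M0 : (0 : ℝ) < Nat.card P * Nat.card D := mul_pos (card_pos_real P) (card_pos_real D)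
  have O0 := card_pos_real O
  have I := ineq (B := Nat.card C1[s] / Nat.card O) hs M0 (deg' cz F1 oF aF nF pP PH PF DF fp)
    ((le_div_iff₀ O0).2 (sumsq hs (OA.trans (cent_le_cent1 sA)) (cs.trans nO) oO)) (cnt cz inv (AH sA) hs)
  obtain ⟨h1, h2⟩ := ev_H AH A2 hc cH'
  have ix : (C1[s].index : ℝ) = (Nat.card A - 1) * H.index := by
    apply mul_right_cancel₀ (card_ne_zero_real C1[s])
    rw [mul_right_comm, ← cH']
    exact_mod_cast C1[s].index_mul_card.trans (H.card_mul_index).symm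
  have G0 := card_pos_real G
  have q4' : (4 : ℝ) ≤ Nat.card A := by exact_mod_cast q4
  have cH2 : (Nat.card H : ℝ) ≤ Nat.card O * Nat.card P * Nat.card D * e := by exact_mod_cast cH
  have hr := Real.sq_sqrt (div_nonneg (Finset.sum_nonneg fun (g : G) (_ : g ∈ Finset.univ) => ev_nonneg g) G0.le)
  refine arith (W := H.index) (Real.sqrt_nonneg ((∑ g : G, ev g) / Nat.card G)) q4' (card_pos_real H) ?_ ?_ h1 h2 ?_
    (he.imp_right fun ⟨a, b, c⟩ => ⟨a, by exact_mod_cast b, ?_⟩)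
  · have := (Nat.cast_le (α := ℝ)).2 big
    rwa [Nat.cast_mul, Nat.cast_sub (by omega), Nat.cast_mul, Nat.cast_one] at this
  · rw [hr]
    refine I.trans (add_le_add (le_of_eq ?_) ?_)
    · rw [ix, ← div_div, div_self (by linarith)]
    · rw [mul_div_assoc]
      refine mul_le_mul_of_nonneg_left ?_ (Real.sqrt_nonneg _)
      rw [div_div, div_le_div_iff₀ (mul_pos O0 M0) (by linarith)]
      linarith
  · rw [hr, div_mul_eq_mul_div, le_div_iff₀ G0, mul_comm]; exact ev_G fus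
  · have := (Nat.cast_le (α := ℝ)).2 c
    rwa [Nat.cast_mul, Nat.cast_mul, Nat.cast_sub (by omega), Nat.cast_one] at this

end Cfsg.Agent.SE
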