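import Cfsg.Agent.B84C.A
import Cfsg.Agent.BS.Block2
import Cfsg.Agent.BS.Invol

/-! Strongly embedded subgroups: the principal 2-block inequality. -/

set_option autoImplicit false
set_option linter.unusedSectionVars false
set_option linter.unusedVariables false

namespace Cfsg.Agent.SE.GV

open Cfsg Subgroup Cfsg.Agent.GT Cfsg.Agent.Char Cfsg.Agent.B84C Cfsg.Agent.BS
open scoped ComplexConjugate Classical

universe u

variable {G : Type u} [Group G] [Fintype G] {H A O F P D : Subgroup G} {s u : G} {χ : G → ℂ}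

theorem deg (hχ : IsCharacter G χ) (aF : F ≤ C[F]) (PF : P ≤ C[F]) (DF : D ≤ N[F])
    (fp : ∀ d ∈ D, ∀ f ∈ F, Commute d f → d = 1 ∨ f = 1)
    (v : ∀ u ∈ P, u ≠ 1 → ∀ f ∈ F, χ (u * f) = χ u) {f : G} (hf : f ∈ F) (n : χ f ≠ χ 1) :
    (Nat.card P * Nat.card D : ℝ) ≤ (χ 1).re := by
  have cF := isMulCommutative_iff_le_cent.2 aF
  have := Fintype.ofFinite F
  have := Fintype.ofFinite P
  have := Fintype.ofFinite D
  have hφ := hχ.restrict F
  set φ : F → ℂ := fun f => χ f with eφ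
  have ex := hφ.isClassFunction.apply_eq_sum_irr
  choose! m hm using fun θ (h : IsIrrCharacter F θ) => hφ.ci_irr_nat h
  obtain ⟨θ, hθ, θ1, m0⟩ : ∃ θ, IsIrrCharacter F θ ∧ θ ≠ (fun _ => 1) ∧ m θ ≠ 0 := by
    by_contra k
    push Not at k
    refine n ((ex ⟨f, hf⟩).trans (Eq.trans ?_ (ex 1).symm))
    refine Finset.sum_congr rfl fun θ h => ?_
    by_cases e : θ = fun _ => 1
    · rw [e]
    · rw [hm θ (mem_Irr.1 h), k θ (mem_Irr.1 h) e]; simp
  have mP : Nat.card P ≤ m θ := by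
    let j : P × F →* G := MonoidHom.noncommCoprod P.subtype F.subtype fun a b =>
      (mem_centralizer_iff.1 (PF a.2) b b.2).symm
    have jv : ∀ a b, j (a, b) = a * b := fun _ _ => rfl
    obtain ⟨k, hk⟩ := (hχ.comp j).ci_irr_nat (hθ.comp_surjective (MonoidHom.snd P F) Prod.snd_surjective)
    have z : ∑ f, conj (θ f) = 0 := by
      simpa using (card_mul_ci (fun _ => 1) θ).symm.trans (by rw [isIrrCharacter_one.ci_of_ne hθ θ1.symm, mul_zero])
    have e := card_mul_ci (fun p => χ (j p)) fun p => θ (MonoidHom.snd P F p)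
    rw [hk, Fintype.sum_prod_type, Finset.sum_eq_single 1, Nat.card_prod] at e
    · have e2 := card_mul_ci φ θ
      rw [hm θ hθ] at e2
      have : (Nat.card F : ℂ) * (Nat.card P * k) = Nat.card F * m θ := by
        rw [e2]; refine Eq.trans (by push_cast; ring) (e.trans ?_); simp [jv, eφ]
      have : Nat.card P * k = m θ := by exact_mod_cast mul_left_cancel₀ (card_ne_zero_complex F) this
      exact Nat.le_of_dvd (Nat.pos_of_ne_zero m0) ⟨k, this.symm⟩
    · intro a _ a1
      rw [Finset.sum_congr rfl (g := fun f => χ a * conj (θ f)) fun f _ => by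
        simp [jv, v a a.2 (fun e => a1 (Subtype.ext e)) f f.2], ← Finset.mul_sum, z, mul_zero]
    · simp
  let σ : D →* MulAut F := F.normalizerMonoidHom.comp (inclusion DF)
  have σv : ∀ d f, (σ d f : G) = d * f * (d : G)⁻¹ := fun _ _ => rfl
  let τ : D → F → ℂ := fun d f => θ (σ d f)
  have τi : ∀ d, IsIrrCharacter F (τ d) := fun d => hθ.comp_equiv (σ d)
  have τm : ∀ d, m (τ d) = m θ := fun d => by
    have := ci_comp_equiv (σ d).toEquiv φ θ
    rw [hm θ hθ, show φ ∘ (σ d).toEquiv = φ from funext fun f => hχ.isClassFunction f d] at this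
    exact_mod_cast (hm _ (τi d)).symm.trans this
  have inj : Function.Injective τ := fun d d' e => by
    by_contra ne
    refine θ1 (eq_one_of_brauer (σ (d * d'⁻¹)) (fun _ h => h.comp_equiv _) (fun g k => ?_) hθ (funext fun g => ?_))
    · obtain ⟨c, k⟩ := isConj_iff.1 k
      rw [cF.is_comm.comm c, mul_inv_cancel_right, Subtype.ext_iff, σv, mul_inv_eq_iff_eq_mul] at k
      exact Subtype.ext ((fp _ (d * d'⁻¹).2 _ g.2 k).resolve_left fun e => ne (mul_inv_eq_one.1 (Subtype.ext e)))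
    · simpa [τ] using congrFun e (σ d'⁻¹ g)
  have e : χ 1 = (∑ θ ∈ Irr F, m θ : ℕ) := by
    rw [show χ 1 = φ 1 from rfl, ex 1, Nat.cast_sum]
    exact Finset.sum_congr rfl fun θ h => by rw [hm θ (mem_Irr.1 h), (mem_Irr.1 h).degree_one_of_comm, mul_one]
  rw [e, Complex.natCast_re]
  have : ∑ θ ∈ Finset.univ.image τ, m θ ≤ ∑ θ ∈ Irr F, m θ := Finset.sum_le_sum_of_subset fun _ h => by
    obtain ⟨d, -, rfl⟩ := Finset.mem_image.1 h
    exact mem_Irr.2 (τi d)
  rw [Finset.sum_image fun _ _ _ _ h => inj h] at this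
  simp only [τm, Finset.sum_const, Finset.card_univ, smul_eq_mul, ← Nat.card_eq_fintype_card] at this
  exact_mod_cast (Nat.mul_le_mul_right _ mP).trans ((mul_comm _ _).trans_le this)

theorem sumsq (hs : orderOf s = 2) (Os : O ≤ C1[s]) (nO : C1[s] ≤ N[O]) (oO : Odd (Nat.card O)) :
    (∑ χ ∈ B0 G, ‖χ s‖ ^ 2) * Nat.card O ≤ Nat.card C1[s] := by
  have := Fintype.ofFinite O
  have pw : ∀ o : O, (s * o) ^ Nat.card O = s := fun o => by
    obtain ⟨k, hk⟩ := oO
    rw [(show Commute s o from (mem_cent1.1 (Os o.2)).symm).mul_pow, ← coe_pow, pow_card_eq_one', coe_one, mul_one, hk,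
      pow_succ, pow_mul, ← hs, pow_orderOf_eq_one, one_pow, one_mul]
  have k1 : ∑ χ ∈ Irr G, ‖∑ o : O, χ (s * o)‖ ^ 2 =
      ∑ o : O, ∑ o' : O, (Nat.card {x : G // x⁻¹ * (s * o) * x = s * o'} : ℝ) := by
    apply Complex.ofReal_injective
    push_cast
    simp only [← Complex.mul_conj', map_sum, Finset.sum_mul_sum, ← sum_irr_mul_conj]
    rw [Finset.sum_comm]
    exact Finset.sum_congr rfl fun _ _ => Finset.sum_comm
  have k2 : ∀ o : O, ∑ o' : O, (Nat.card {x : G // x⁻¹ * (s * o) * x = s * o'} : ℝ) ≤ Nat.card C1[s] := fun o => by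
    simp only [natCard_subtype_eq_sum_ite _ ℝ]
    rw [Finset.sum_comm]
    refine Finset.sum_le_sum fun x _ => ?_
    split_ifs with m
    · rw [Finset.sum_boole, Nat.cast_le_one, Finset.card_le_one]
      intro a ha b hb
      exact Subtype.ext (mul_left_cancel ((Finset.mem_filter.1 ha).2.symm.trans (Finset.mem_filter.1 hb).2))
    · refine (Finset.sum_eq_zero fun o' _ => if_neg fun e => m ?_).le
      have := congrArg (· ^ Nat.card O) e
      simp only [pw] at this
      rw [show x⁻¹ * (s * o) * x = x⁻¹ * (s * o) * x⁻¹⁻¹ by group, conj_pow, pw] at this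
      exact mem_cent1.2 (by rw [← this]; nth_rw 2 [this]; group)
  have k3 : ∑ χ ∈ B0 G, ‖∑ o : O, χ (s * o)‖ ^ 2 = (∑ χ ∈ B0 G, ‖χ s‖ ^ 2) * Nat.card O * Nat.card O := by
    rw [mul_assoc, Finset.sum_mul]
    refine Finset.sum_congr rfl fun χ h => ?_
    rw [Finset.sum_congr rfl fun (o : O) _ => B0_apply_mul_odd hs O (fun o h => mem_cent1.1 (Os h))
      (fun c hc o ho => (mem_normalizer_iff.1 (nO (mem_cent1.2 hc)) o).1 ho) oO h o.2]
    simp [Nat.card_eq_fintype_card]; ring
  have k4 : ∑ χ ∈ B0 G, ‖∑ o : O, χ (s * o)‖ ^ 2 ≤ ∑ χ ∈ Irr G, ‖∑ o : O, χ (s * o)‖ ^ 2 :=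
    Finset.sum_le_sum_of_subset_of_nonneg (fun _ h => mem_Irr.2 (B0_irr h)) fun _ _ _ => by positivity
  rw [k3, k1] at k4
  refine le_of_mul_le_mul_right (k4.trans ((Finset.sum_le_sum fun o _ => k2 o).trans ?_)) (card_pos_real O)
  simp [Nat.card_eq_fintype_card, mul_comm]

/-- indicator of the elements of even order -/
noncomputable def ev {X : Type u} [Group X] (g : X) : ℝ := if Odd (orderOf g) then 0 else 1

theorem ev_nonneg (g : G) : 0 ≤ ev g := by unfold ev; split_ifs <;> norm_num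

theorem ev_conj (g x : G) : ev (x * g * x⁻¹) = ev g := by simp only [ev, orderOf_conj']

theorem ineq (hs : orderOf s = 2) {M B n : ℝ} (M0 : 0 < M)
    (dg : ∀ χ ∈ B0 G, χ ≠ (fun _ => 1) → M ≤ (χ 1).re) (hB : ∑ χ ∈ B0 G, ‖χ s‖ ^ 2 ≤ B)
    (hn : ∀ w, IsConj s w → ∑ u, (if IsConj s u then ev (u * w) else 0) ≤ n) :
    (∑ g : G, ev g) / Nat.card G ≤ n / C1[s].index + √((∑ g : G, ev g) / Nat.card G) * B / M := by
  set δ : ℝ := (∑ g : G, ev g) / Nat.card G with hδ
  let Θ : G → ℂ := fun g => ev g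
  have cΘ : IsClassFunction G Θ := fun g x => by simp only [Θ, ev_conj]
  have m1 : ⟪Θ, fun _ => 1⟫ = δ := by rw [ci_one_right, hδ]; push_cast; ring
  have nΘ : nsq Θ = δ := by
    rw [nsq, hδ, div_eq_inv_mul]
    congr 1
    refine Finset.sum_congr rfl fun g _ => ?_
    simp only [Θ, ev]
    split_ifs <;> simp
  have m0 : ∀ χ ∈ Irr G, χ ∉ B0 G → ⟪Θ, χ⟫ = 0 := fun χ h n => by
    have od : ∀ x : G, Odd (orderOf x) ↔ constt {2} x = 1 := fun x => by
      refine ⟨fun o => by simpa using constt_two_mul' (t := 1) (w := x) (by simpa using PiNat.one) (by simp) o,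
        fun e => ?_⟩
      have := constt_mul_constt_compl {2} x
      rw [e, one_mul] at this
      rw [← this]; exact piNat_two_compl.1 (piNat_constt _ _)
    have := ci_mul_eq_zero_of_not_mem (F := Θ) (fun x y k => by
      simp only [Θ, ev, od]
      congr 1
      exact if_congr ⟨fun e => by simpa [e, eq_comm] using k, fun e => by simpa [e] using k⟩ rfl rfl) one_mem_B0 (mem_Irr.1 h) n
    rwa [show Θ * (fun _ => 1) = Θ from funext fun _ => mul_one _] at this
  have i0 : (0 : ℝ) < C1[s].index := Nat.cast_pos.2 (Nat.pos_of_ne_zero index_ne_zero_of_finite)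
  have ex : cZ s Θ = δ * C1[s].index ^ 2 + ∑ χ ∈ (B0 G).erase fun _ => 1, ⟪Θ, χ⟫ * cZ s χ := by
    rw [← cZ_one, ← m1, Finset.add_sum_erase _ (fun χ => ⟪Θ, χ⟫ * cZ s χ) one_mem_B0,
      Finset.sum_subset (fun _ h => mem_Irr.2 (B0_irr h)) fun χ h n => by rw [m0 χ h n, zero_mul]]
    simp only [cZ_eq, Finset.mul_sum]
    rw [Finset.sum_comm]
    exact Finset.sum_congr rfl fun y _ => by
      rw [cΘ.apply_eq_sum_irr y, Finset.sum_mul]; exact Finset.sum_congr rfl fun _ _ => mul_assoc _ _ _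
  have b1 : (cZ s Θ).re ≤ C1[s].index * n := by
    have e : (C1[s].index : ℝ) = ∑ w, if IsConj s w then 1 else 0 := by
      have := congrArg Complex.re (sum_cI (t := s) (isClassFunction_const (1 : ℂ)))
      simpa [cI, apply_ite] using this.symm
    rw [e, cZ, Complex.re_sum, Finset.sum_mul]
    refine Finset.sum_le_sum fun w _ => ?_
    by_cases c : IsConj s w
    · rw [cI, if_pos c, if_pos c, one_mul, one_mul, Complex.re_sum]
      refine le_trans (Finset.sum_le_sum fun u _ => ?_) (hn w c)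
      rw [cI]
      split_ifs <;> simp [Θ]
    · rw [cI, if_neg c, if_neg c]; simp
  have b2 : ∀ χ ∈ (B0 G).erase fun _ => 1, ‖⟪Θ, χ⟫ * cZ s χ‖ ≤ √δ * C1[s].index ^ 2 / M * ‖χ s‖ ^ 2 := fun χ h => by
    obtain ⟨h1, h⟩ := Finset.mem_erase.1 h
    have a := norm_ci_sq_le Θ χ
    rw [nΘ, (B0_irr h).nsq, mul_one] at a
    have c := congrArg norm (cZ_sirr (t := s) (B0_irr h).isSIrr)
    have d := (dg χ h h1).trans (Complex.re_le_norm _)
    simp only [norm_mul, norm_pow, Complex.norm_natCast] at c ⊢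
    rw [div_mul_eq_mul_div, le_div_iff₀ M0, mul_assoc, mul_assoc, ← c]
    exact mul_le_mul (Real.le_sqrt_of_sq_le a) (mul_comm _ M ▸ mul_le_mul_of_nonneg_right d (norm_nonneg _))
      (by positivity) (by positivity)
  have b3 := (norm_sum_le _ _).trans (Finset.sum_le_sum b2)
  rw [← Finset.mul_sum] at b3
  have b4 := b3.trans (mul_le_mul_of_nonneg_left ((Finset.sum_le_sum_of_subset_of_nonneg (Finset.erase_subset _ _)
    fun _ _ _ => by positivity).trans hB) (by positivity))
  have b5 := congrArg Complex.re ex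
  have b6 := (neg_le_abs _).trans ((Complex.abs_re_le_norm _).trans b4)
  rw [Complex.add_re, ← Complex.ofReal_natCast, ← Complex.ofReal_pow, ← Complex.ofReal_mul, Complex.ofReal_re] at b5
  refine le_of_mul_le_mul_right ?_ (pow_pos i0 2)
  have : (n / C1[s].index + √δ * B / M) * C1[s].index ^ 2 = C1[s].index * n + √δ * C1[s].index ^ 2 / M * B := by
    field_simp
  linarith

end Cfsg.Agent.SE.GV
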