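import Cfsg.Agent.SE.TI
import Cfsg.Agent.PG.Critical

/-! Strongly embedded subgroups: a semiregular `O_p(G_a)` is centralised by the involutions of `G_a`. -/

set_option autoImplicit false
set_option linter.unusedSectionVars false
set_option linter.unusedVariables false

namespace Cfsg.Agent.SE.LB

open Cfsg Subgroup MulAction Cfsg.Agent.GT Cfsg.Agent.Cls Cfsg.Agent.GW Cfsg.Agent.WA
open scoped commutatorElement

universe u

variable {G Ω : Type u} [Group G] [Finite G] [MulAction G Ω] {a b c d : Ω} {s s' t v x y k g : G}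
  {P Q S X Y M N H Z A : Subgroup G} {l p : ℕ}

theorem idx_le (h : ∀ x ∈ X, ⁅x, k⁆ ∈ Z) : (C1[k]).relIndex X ≤ Nat.card Z :=
  Nat.card_le_card_of_injective (α := X ⧸ (C1[k]).subgroupOf X) (fun q => ⟨⁅(q.out : G), k⁆, h _ q.out.2⟩)
    fun q q' e => by
      rw [← q.out_eq, ← q'.out_eq]
      refine QuotientGroup.eq.2 (mem_subgroupOf.2 (mem_cent1.2 ?_))
      have e : ⁅(q.out : G), k⁆ = ⁅(q'.out : G), k⁆ := congrArg Subtype.val e
      rw [commutatorElement_def, commutatorElement_def, mul_left_inj] at e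
      show (q.out : G)⁻¹ * q'.out * k = k * ((q.out : G)⁻¹ * q'.out)
      calc _ = (q.out : G)⁻¹ * (q'.out * k * (q'.out : G)⁻¹) * q'.out := by group
        _ = _ := by rw [← e]; group

/-- the abstract lemma -/
theorem abs (hp : p.Prime) (p2 : p ≠ 2) (hM : IsPGroup p M) (nM : H ≤ N[M]) (MH : M ≤ H) (cH : C1[t] ≤ H) (os : orderOf s = 2) (sH : s ∈ H)
    (os' : orderOf s' = 2) (sH' : s' ∈ H) (ne : s ≠ s') (cm : s * s' = s' * s) (ht : orderOf t = 2) (tH : t ∈ H)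
    (cj : ∀ v ∈ H, orderOf v = 2 → ∃ g ∈ H, g * t * g⁻¹ = v) (kH : k ∈ H) (pk : IsPGroup p (zpowers k))
    (kt : k ∈ M ⊔ C1[t]) (cy : IsCyclic ↥(C1[k] ⊓ M)) : M ≤ C1[t] := by
  have := Fact.mk hp
  by_contra nl
  obtain ⟨B, BM, nB, -, ex, -, cr⟩ := PG.exists_critical_odd p2 hM
  have oM := odd_p hp p2 hM
  obtain ⟨A, ⟨AB, nA, nA1⟩, -, mn⟩ := exists_minimal_le (S := {A | A ≤ B ∧ H ≤ N[A] ∧ ¬ A ≤ C1[t]})
    ⟨le_rfl, nM.trans nB, fun e => nl (by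
      rw [← cent_zpowers] at e ⊢
      exact le_cent_symm (cr _ (zp_norm (nM tH)) (by
        rw [Nat.card_zpowers, ht]; exact (Nat.coprime_primes Nat.prime_two hp).2 p2.symm) (le_cent_symm e)))⟩
  have AM := AB.trans BM
  have pA := hM.to_le AM
  have oA := odd_card_of_le oM AM
  have A1 : A ≠ ⊥ := fun e => nA1 (e ▸ bot_le)
  obtain ⟨Z, hZ⟩ : ∃ Z, Z = ⁅A, M⁆ := ⟨_, rfl⟩
  have ZA : Z < A := hZ ▸ PG.commutator_lt hM pA (MH.trans nA) A1
  have nZ : H ≤ N[Z] := hZ ▸ le_norm_commutator nA nM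
  have Zt : Z ≤ C1[t] := by
    by_contra e
    exact ZA.ne (mn Z ⟨ZA.le.trans AB, nZ, e⟩ ZA.le)
  have tA := zp_norm (nA tH)
  have tZ := zp_norm (nZ tH)
  obtain ⟨S, hS⟩ : ∃ S, S = M ⊔ zpowers t := ⟨_, rfl⟩
  have SH : S ≤ H := hS ▸ sup_le MH (zpowers_le.2 tH)
  obtain ⟨Q, hQ⟩ : ∃ Q, Q = zpowers k ⊔ M := ⟨_, rfl⟩
  have pQ : IsPGroup p Q := hQ ▸ pk.to_sup_of_normal_right' hM (zp_norm (nM kH))
  have QH : Q ≤ H := hQ ▸ sup_le (zpowers_le.2 kH) MH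
  have MQ : M ≤ Q := hQ ▸ le_sup_right
  have kQ : k ∈ Q := hQ ▸ mem_sup_left (mem_zpowers k)
  have QS : Q ≤ N[S] := by
    have h1 : M ≤ N[S] := (hS ▸ le_sup_left : M ≤ S).trans le_normalizer
    rw [hQ]
    refine sup_le (zpowers_le.2 (sup_le h1 ?_ kt)) h1
    rw [hS]
    exact le_norm_sup (cH.trans nM) (le_norm_of_cent (cent_zpowers t).ge)
  have c1 : ¬ A ⊓ PG.centMod S Z ≤ Z := fun e => by
    have h1 : A ⊓ C1[t] ≤ Z := le_trans (le_inf inf_le_left (PG.le_centMod_iff.2 ⟨inf_le_left.trans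
      ((AM.trans MH).trans nZ), hS ▸ PG.commutator_sup_le' (MH.trans nZ) tZ (hZ ▸ commutator_mono inf_le_left le_rfl)
        ((le_cent_iff_commutator_eq_bot.1 (inf_le_right.trans (cent_zpowers t).ge)).le.trans bot_le)⟩)) e
    have h2 : ∀ v ∈ H, orderOf v = 2 → A ⊓ C1[v] ≤ Z := fun v hv ov => by
      obtain ⟨g, hg, rfl⟩ := cj v hv ov
      rw [← conj_cent1, ← conj_eq_self (nA hg), ← conj_inf, ← conj_eq_self (nZ hg)]
      exact conj_mono g h1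
    exact ZA.not_ge (gen3 os' os ne cm oA (nA sH') (nA sH) (h2 _ sH' os') (h2 _ sH os)
      (h2 _ (mul_mem sH' sH) (ord2_mul os' os ne cm)))
  obtain ⟨B', hB'⟩ : ∃ B', B' = ⁅A, zpowers t⁆ ⊔ Z := ⟨_, rfl⟩
  have tAA : ⁅A, zpowers t⁆ ≤ A := commutator_le_of_le_norm_left tA
  have B'A : B' ≤ A := hB' ▸ sup_le tAA ZA.le
  have ZB' : Z ≤ B' := hB' ▸ le_sup_right
  have c2 : ¬ B' ≤ Z := fun e => nA1 (by
    rw [← cent_zpowers] at Zt ⊢
    exact coprime_le_cent_of_commutator_le_cent tA (cop2 oA ht) ((le_sup_left.trans (hB' ▸ e)).trans Zt))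
  have tT : zpowers t ≤ N[⁅A, zpowers t⁆] := le_norm_commutator tA le_normalizer
  have eB : B' = ⁅A, S⁆ ⊔ Z := le_antisymm (hB' ▸ sup_le_sup_right (commutator_mono le_rfl (hS ▸ le_sup_right)) _)
    (sup_le (hS ▸ PG.commutator_sup_le' (le_normalizer_iff_commutator_le_left.2
      ((commutator_mono B'A le_rfl).trans (hZ ▸ ZB'))) (hB' ▸ le_norm_sup tT tZ) (hZ ▸ ZB') (hB' ▸ le_sup_left)) ZB')
  have c3 : ∀ x ∈ B', x ∈ PG.centMod S Z → x ∈ Z := fun x hx hx' => by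
    obtain ⟨n, hn, c, hc, rfl⟩ := exists_mul_cent_of_commutator_mem (.inl (solv_odd (odd_card_of_le oA ZA.le))) tZ
      (cop2 (odd_card_of_le oA ZA.le) ht) fun a ha => (PG.mem_centMod.1 hx').2 a (hS ▸ mem_sup_right ha)
    refine mul_mem hn ?_
    have h1 : c ∈ B' ⊓ C[zpowers t] := ⟨(mul_mem_cancel_left (ZB' hn)).1 hx, hc⟩
    have o := odd_card_of_le oA (inf_le_right.trans ZA.le : ⁅A, zpowers t⁆ ⊓ Z ≤ A)
    rw [hB', coprime_cent_sup_of_norm (.inl (solv_odd o)) tT tZ (cop2 o ht) (.inl (tAA.trans ((AM.trans MH).trans nZ)))] at h1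
    exact sup_le ((coprime_commutator_inf_cent_le tA (cop2 oA ht)).trans (hZ ▸ commutator_mono le_rfl AM)) inf_le_left h1
  obtain ⟨x, hx, xZ, -, cx⟩ := PG.exists_not_mem_centMod pQ (inf_le_left.trans (AM.trans MQ))
    (le_norm_inf (QH.trans nA) (PG.le_norm_centMod QS (QH.trans nZ))) (QH.trans nZ) c1
  obtain ⟨y, hy, yZ, -, cy'⟩ := PG.exists_not_mem_centMod pQ (B'A.trans (AM.trans MQ))
    (eB ▸ le_norm_sup (le_norm_commutator (QH.trans nA) QS) (QH.trans nZ)) (QH.trans nZ) c2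
  obtain ⟨A1, hA1⟩ : ∃ A1, A1 = A ⊓ PG.centMod Q Z := ⟨_, rfl⟩
  have mem : ∀ x ∈ A, (∀ g ∈ Q, ⁅x, g⁆ ∈ Z) → x ∈ A1 := fun x hx h =>
    hA1 ▸ ⟨hx, PG.mem_centMod.2 ⟨nZ (MH (AM hx)), h⟩⟩
  have A1A : A1 ≤ A := hA1 ▸ inf_le_left
  have l1 : Z < A1 ⊓ PG.centMod S Z := lt_of_le_of_ne (le_inf (hA1 ▸ le_inf ZA.le (PG.le_centMod_self (QH.trans nZ)))
    (PG.le_centMod_self (SH.trans nZ))) fun e => xZ (e ▸ ⟨mem x hx.1 cx, hx.2⟩)
  have l2 : A1 ⊓ PG.centMod S Z < A1 := lt_of_le_of_ne inf_le_left fun e =>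
    yZ (c3 y hy (inf_eq_left.1 e (mem y (B'A hy) cy')))
  have i1 := PG.mul_card_le_card_of_lt ((pA.to_le A1A).to_le inf_le_left) l1
  have i2 := PG.mul_card_le_card_of_lt (pA.to_le A1A) l2
  have i3 := idx_le (X := A1) (Z := Z) (k := k) fun x hx => (PG.mem_centMod.1 (hA1 ▸ hx).2).2 k kQ
  have i4 : Nat.card ↥(C1[k] ⊓ A1) ≤ p := by
    obtain ⟨g, hg⟩ := PG.isCyclic_iff_exists.1 (PG.isCyclic_of_le' cy (inf_le_inf_left _ (A1A.trans AM)))
    rw [← hg, Nat.card_zpowers]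
    exact Nat.le_of_dvd hp.pos (orderOf_dvd_of_pow_eq_one (ex g (AB (A1A (hg ▸ mem_zpowers g : g ∈ _ ⊓ A1).2))))
  have i5 := card_inf_mul_relIndex C1[k] A1
  have : 0 < Nat.card Z := Nat.card_pos
  have := hp.two_le
  have i6 := Nat.mul_le_mul i4 i3
  nlinarith

/-- an equivariant family of semiregular `p`-subgroups. -/
structure F0 (G : Type u) {Ω : Type u} [Group G] [MulAction G Ω] (p : ℕ) (E : Ω → Subgroup G) : Prop where
  pp : p.Prime
  p2 : p ≠ 2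
  pg : ∀ a, IsPGroup p (E a)
  eqv : ∀ (g : G) a, cj[g] (E a) = E (g • a)
  le : ∀ a, E a ≤ stabilizer G a
  semi : ∀ a, ∀ y ∈ E a, y ≠ 1 → ∀ b, y • b = b → b = a

namespace F0
variable {E : Ω → Subgroup G} (f : F0 G p E)
include f

theorem norm (a : Ω) : stabilizer G a ≤ N[E a] := fun g hg => by
  rw [← conj_eq_self_iff, f.eqv, show g • a = a from hg]

theorem cmem (hy : y ∈ E a) (g : G) : g * y * g⁻¹ ∈ E (g • a) := f.eqv g a ▸ ⟨y, hy, rfl⟩

theorem ti (hy : y ∈ E a) (y1 : y ≠ 1) (e : g * y * g⁻¹ ∈ stabilizer G a) : g • a = a :=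
  (f.semi _ _ (f.cmem hy g) (fun h => y1 (by simpa using h)) a e).symm

theorem c1 (hy : y ∈ E a) (y1 : y ≠ 1) : C1[y] ≤ stabilizer G a := fun g hg =>
  f.ti hy y1 (by rw [mem_cent1.1 hg, mul_inv_cancel_right]; exact f.le a hy)

theorem pfix (hP : IsPGroup p P) (hy : y ∈ E a) (y1 : y ≠ 1) (yP : y ∈ P) : P ≤ stabilizer G a := by
  by_contra h
  have lt : P ⊓ stabilizer G a < P := lt_of_le_of_ne inf_le_left fun e => h (inf_eq_left.1 e)
  obtain ⟨g, ⟨gP, gn⟩, ng⟩ := SetLike.exists_of_lt (lt_inf_norm_of_isPGroup f.pp hP lt)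
  exact ng ⟨gP, f.ti hy y1 (conj_mem_of_mem_norm gn ⟨yP, f.le a hy⟩).2⟩

/-- (O) -/
theorem odd_le (o : Odd (Nat.card Y)) (nc : ¬ IsCyclic ↥(Y ⊓ E a)) : Y ≤ stabilizer G a := by
  have := Fact.mk f.pp
  obtain ⟨B, BE, -, he, cB⟩ := PG.exists_normal_elemAb_sq' f.p2 ((f.pg a).to_le inf_le_right) nc
  have ncB := PG.not_isCyclic_of_elemAb_sq f.pp he cB
  have pB := isPGroup_of_elementary he
  obtain ⟨y, hy, y1⟩ := (B.bot_or_exists_ne_one).resolve_left fun e => ncB (by rw [e]; infer_instance)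
  have FG : fittingOf Y ≤ stabilizer G a := fittingOf_le_of_forall_piCoreOf fun q hq => by
    have n : B ≤ N[piCoreOf {q} Y] := (BE.trans inf_le_left).trans (self_le_norm_piCoreOf _ _)
    have pq := (isPiSubgroup_single_iff hq).1 (piCoreOf_isPi {q} Y)
    by_cases e : q = p
    · subst e
      exact le_sup_right.trans (f.pfix (pB.to_sup_of_normal_right' pq n) (BE hy).2 y1 (mem_sup_left hy))
    · have := Fact.mk hq
      exact coprime_abelian_gen_cent1 he.1 ncB n (IsPGroup.coprime_card_of_ne q p e _ _ pq pB)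
        fun z hz z1 => inf_le_right.trans (f.c1 (BE hz).2 z1)
  intro g hg
  have Fd : fittingOf Y ≤ stabilizer G (g • a) := sb_fixN FG (self_le_norm_fittingOf Y hg)
  by_contra ne
  have : B ≤ C[fittingOf Y] := le_cent_iff_commutator_eq_bot.2 (eq_bot_iff.2 fun z hz => by
    have h1 := commutator_le_of_le_norm_right ((BE.trans inf_le_left).trans (self_le_norm_fittingOf Y)) hz
    have h2 := commutator_le_of_le_norm_left (FG.trans (f.norm a))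
      (commutator_mono (BE.trans inf_le_right) le_rfl hz)
    by_contra z1
    exact ne (f.semi a z h2 z1 _ (Fd h1)))
  exact ne (f.semi a y (BE hy).2 y1 _ (Fd (le_fittingOf_of_le_cent (solv_odd o) (BE.trans inf_le_left) this hy)))

end F0

local notation3 "𝐌[" a "]" => piCoreOf {p} O[stabilizer G a]

theorem p_ne (hp : p.Prime) (h : 𝐌[a] ≠ ⊥) : p ≠ 2 := by
  rintro rfl
  exact absurd ((odd_card_of_le (O_odd _) (piCoreOf_le _ _)).of_dvd_nat
    (prime_dvd_card_of_isPGroup hp (piCoreOf_isPGroup hp _) h)) (by decide)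

/-- (LB') -/
theorem cen (w : Tw1 G Ω) (hp : p.Prime) (semi : ∀ a b : Ω, a ≠ b → 𝐌[a] ⊓ stabilizer G b = ⊥)
    (os : orderOf s = 2) (sc : s • c = c) : 𝐌[c] ≤ C1[s] := by
  by_contra nl
  have M1 : 𝐌[c] ≠ ⊥ := fun e => nl (e ▸ bot_le)
  have pM : ∀ a : Ω, IsPGroup p 𝐌[a] := fun a => piCoreOf_isPGroup hp _
  have f : F0 G p fun a : Ω => 𝐌[a] := ⟨hp, p_ne hp M1, pM, NA.eqvP p, fun a => PG.leM, fun a y hy y1 b e => by
    by_contra ne
    exact y1 (mem_bot.1 (semi a b (Ne.symm ne) ▸ (⟨hy, e⟩ : y ∈ _ ⊓ stabilizer G b)))⟩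
  have := w.ac.nt
  obtain ⟨a, ha⟩ := exists_ne c
  have ne := ha.symm
  obtain ⟨t, ht, ta, tb⟩ := PG.swap w ne
  have cs := PB.cent_le w os sc
  obtain ⟨B, hB⟩ : ∃ B, B = 𝐌[c] ⊔ C1[s] := ⟨_, rfl⟩
  have Bc : B ≤ stabilizer G c := hB ▸ sup_le PG.leM cs
  have sB : C1[s] ≤ B := hB ▸ le_sup_right
  obtain ⟨E, hE⟩ : ∃ E, E = (stabilizer G c ⊓ stabilizer G a ⊓ B) ⊓ cj[t] (stabilizer G c ⊓ stabilizer G a ⊓ B) :=
    ⟨_, rfl⟩
  have ED : E ≤ stabilizer G c ⊓ stabilizer G a ⊓ B := hE ▸ inf_le_left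
  have tE : t ∈ N[E] := conj_eq_self_iff.1 (by
    have := conj_inv_conj t (stabilizer G c ⊓ stabilizer G a ⊓ B)
    rw [inv2 ht] at this
    rw [hE, conj_inf, this, inf_comm])
  have oE := odd_card_of_le (w.odd c a ne) (ED.trans inf_le_left)
  have e1 : Nat.card (B85.Inv E t) = (C1[s]).relIndex B := by
    refine sb_card (fun i => (i : G)) (fun i => (ED i.2.1).2) (fun i j k => Subtype.ext ?_) fun x hx => ?_
    · have ja : (j : G) ∈ stabilizer G c := (ED j.2.1).1.1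
      refine (w.kk c a t _ _ ne ht ta tb os (ord2_conj os j) sc (mul_mem (mul_mem ja sc) (inv_mem ja))).unique
        ⟨(ED i.2.1).1.1, (ED i.2.1).1.2, by simpa only [inv2 ht] using i.2.2, ?_⟩
        ⟨ja, (ED j.2.1).1.2, by simpa only [inv2 ht] using j.2.2, rfl⟩
      nth_rw 1 [← TT.commute_iff_conj.1 (mem_cent1.1 k)]; group
    · obtain ⟨k, ⟨k1, k2, k3, k4⟩, -⟩ := w.kk c a t _ _ ne ht ta tb os (ord2_conj os x) sc
        (mul_mem (mul_mem (Bc hx) sc) (inv_mem (Bc hx)))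
      have m : k⁻¹ * x ∈ C1[s] := mem_cent1.2 (TT.commute_iff_conj.2 (by
        rw [show k⁻¹ * x * s * (k⁻¹ * x)⁻¹ = k⁻¹ * (x * s * x⁻¹) * k by group, ← k4]; group))
      have kB : k ∈ stabilizer G c ⊓ stabilizer G a ⊓ B :=
        ⟨⟨k1, k2⟩, (inv_mem_iff (H := B)).1 ((B.mul_mem_cancel_right hx).1 (sB m))⟩
      refine ⟨⟨k, hE ▸ ⟨kB, ?_⟩, by rwa [inv2 ht]⟩, m⟩
      have := conj_mem_conj (g := t).2 (inv_mem kB)
      rwa [← k3, inv2 ht, mul_assoc t k, ← mul_assoc t t, sq1 ht, one_mul, mul_assoc, sq1 ht, mul_one] at this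
  have dv : p ∣ (C1[t]).relIndex E := by
    rw [← sb_inv oE ht tE, e1]
    by_contra dv
    obtain ⟨P, hP⟩ := exists_syl hp C1[s]
    have h := syl_trans hp hP sB dv
    exact nl ((le_syl_of_norm hp h (pM c) (hB ▸ le_sup_left) (h.le.trans (Bc.trans PG.nM))).trans hP.le)
  obtain ⟨T, hT, nT⟩ := coprime_exists_syl hp (.inl (solv_odd oE)) (zp_norm tE) (cop2 oE ht)
  obtain ⟨y, hy, ny⟩ := SetLike.not_le_iff_exists.1 fun e : T ≤ C1[t] =>
    syl_not_dvd hp hT (dv.trans (relIndex_dvd_of_le_left _ e))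
  have oT := odd_card_of_le oE hT.le
  obtain ⟨k, ⟨hk, ik⟩, cm⟩ := B85.dec oT (sq1 ht) (nT (mem_zpowers t)) hy
  have k1 : k ≠ 1 := fun e => ny (mem_cent1.2 (by simpa [e] using cm.eq))
  have pk := (syl_isPGroup hp hT).to_le (zpowers_le.2 hk)
  have kD := ED (hT.le hk)
  have key : ∀ d e : Ω, k • d = d → d ≠ e → ¬ C1[k] ≤ stabilizer G e := fun d e kd n le => by
    have M1 : 𝐌[d] ≠ ⊥ := by
      obtain ⟨g, rfl⟩ := w.ac.tr c d
      rwa [← NA.eqvP, Ne, conj_eq_bot_iff]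
    refine inf_cent_ne_bot_of_isPGroup hp (pM d) pk ((zpowers_le.2 kd).trans PG.nM) M1 (eq_bot_iff.2 ?_)
    rw [← semi d e n, cent_zpowers]
    exact inf_le_inf_left _ le
  obtain ⟨e, te, -⟩ := w.ac.fix t ht
  have o : Odd (Nat.card C1[k]) := by
    by_contra ev
    exact key c e kD.1.1 (fun h => ne (by rw [← ta, h, te])) (NA.even_cent w ht te ik (odd_ord oT hk) k1 ev)
  obtain ⟨u, u', ou, ou', uu, cu, uc, uc'⟩ := PG.two_inv w c
  refine nl (abs hp f.p2 (pM c) PG.nM PG.leM cs ou uc ou' uc' uu cu os sc (fun v hv ov => ?_) kD.1.1 pk (hB ▸ kD.2) ?_)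
  · obtain ⟨g, hg, e⟩ := w.ac.ac.tr_inv ne os ov sc hv
    exact ⟨g, hg.1, e⟩
  · by_contra nc
    exact key a c kD.1.2 ha (f.odd_le o nc)

end Cfsg.Agent.SE.LB
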