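import Cfsg.Agent.SE.Def
import Cfsg.Agent.BG.S03g

/-! Strongly embedded subgroups, no inner elements: an abstract lemma on fixed point free elements. -/

set_option autoImplicit false
set_option linter.unusedSectionVars false
set_option linter.unusedVariables false

namespace Cfsg.Agent.SE.NA

open Cfsg Subgroup MulAction Cfsg.Agent.GT Cfsg.Agent.Cls Cfsg.Agent.GW Cfsg.Agent.WA
open scoped commutatorElement

universe u

variable {G : Type u} [Group G] [Finite G] {W D A A0 B M : Subgroup G} {t k x y z a : G} {p r : ℕ}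

theorem pinv (h : t * k * t⁻¹ = k⁻¹) (n : ℕ) : t * k ^ n * t⁻¹ = (k ^ n)⁻¹ := by
  rw [← conj_pow, h, inv_pow]

theorem mzp : y ∈ zpowers a ↔ ∃ n : ℕ, a ^ n = y := mem_powers_iff_mem_zpowers.symm

theorem zpr (hr : r.Prime) (ha : a ^ r = 1) (hy : y ∈ zpowers a) (y1 : y ≠ 1) : a ∈ zpowers y := by
  obtain ⟨i, rfl⟩ := mzp.1 hy
  have := Fact.mk hr
  have a1 : a ≠ 1 := by rintro rfl; simp at y1
  rw [mem_zpowers_pow_iff, orderOf_eq_prime ha a1]
  exact ((Nat.Prime.coprime_iff_not_dvd hr).2 fun ⟨j, e⟩ => y1 (by rw [e, pow_mul, ha, one_pow])).symm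

theorem zinv (h : t * k * t⁻¹ = k⁻¹) (hy : y ∈ zpowers k) : t * y * t⁻¹ = y⁻¹ := by
  obtain ⟨i, rfl⟩ := mzp.1 hy
  exact pinv h i

theorem c1le (hy : y ∈ zpowers a) : C1[a] ≤ C1[y] := by
  rw [← cent_zpowers, ← cent_zpowers]
  exact centralizer_le (zpowers_le.2 hy)

theorem oddr (hr : r.Prime) (r2 : r ≠ 2) (h : k ^ r = 1) : Odd (orderOf k) :=
  (hr.odd_of_ne_two r2).of_dvd_nat (orderOf_dvd_of_pow_eq_one h)

/-- the extraspecial configuration -/
theorem ext (hp : p.Prime) (hr : r.Prime) (pr : p ≠ r) (r2 : r ≠ 2) (hW : IsPGroup p W) (W1 : W ≠ ⊥)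
    (nD : D ≤ N[W]) (fp : ∀ y ∈ D, t * y * t⁻¹ = y⁻¹ → y ≠ 1 → W ⊓ C1[y] = ⊥)
    (hk : k ∈ D) (hx : x ∈ D) (ik : t * k * t⁻¹ = k⁻¹) (ix : t * x * t⁻¹ = x⁻¹) (ok : k ^ r = 1)
    (ox : x ^ r = 1) (z1 : ⁅x, k⁆ ≠ 1) (zx : Commute ⁅x, k⁆ x) (zk : Commute ⁅x, k⁆ k)
    (zt : Commute ⁅x, k⁆ t) : False := by
  have := Fact.mk hr
  have zr : ⁅x, k⁆ ^ r = 1 := by rw [← commutatorElement_pow_right_of_commute zk, ok]; simp
  have k1 : k ≠ 1 := by rintro rfl; simp at z1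
  have LD : zpowers x ⊔ zpowers k ≤ D := V_le hx hk
  have xL : x ∈ zpowers x ⊔ zpowers k := mem_sup_left (mem_zpowers x)
  have kL : k ∈ zpowers x ⊔ zpowers k := mem_sup_right (mem_zpowers k)
  have zL : ⁅x, k⁆ ∈ zpowers x ⊔ zpowers k := mul_mem (mul_mem (mul_mem xL kL) (inv_mem xL)) (inv_mem kL)
  have xkx : x * k * x⁻¹ = ⁅x, k⁆ * k := by rw [commutatorElement_def]; group
  generalize ⁅x, k⁆ = z at *
  obtain ⟨M, MW, hM⟩ := exists_minNormal_le W1 (LD.trans nD)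
  have he := hM.elementary_of_isPGroup hp (hW.to_le MW)
  have Lz : zpowers x ⊔ zpowers k ≤ C1[z] := V_le (mem_cent1.2 zx.symm) (mem_cent1.2 zk.symm)
  have fm : ∀ y ∈ D, t * y * t⁻¹ = y⁻¹ → y ≠ 1 → M ⊓ C1[y] = ⊥ := fun y hy i y1 =>
    eq_bot_iff.2 ((inf_le_inf_right _ MW).trans (fp y hy i y1).le)
  rcases hM.eq_bot_or_eq inf_le_left (le_norm_inf hM.norm (le_norm_cent1 Lz)) with e | e
  · have cm : IsMulCommutative ↥(zpowers k ⊔ zpowers z) := V_comm zk.eq
    have mem : ∀ a ∈ zpowers k ⊔ zpowers z, ∃ i j : ℕ, a = z ^ j * k ^ i := fun a ha => by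
      obtain ⟨u, hu, v, hv, rfl⟩ := (mem_sup_of_le_norm (le_norm_of_cent (by
        rw [cent_zpowers, zpowers_le]; exact mem_cent1.2 zk.symm.eq))).1 ha
      obtain ⟨i, rfl⟩ := mzp.1 hu
      obtain ⟨j, rfl⟩ := mzp.1 hv
      exact ⟨i, j, (zk.pow_pow j i).eq.symm⟩
    have ex : ∀ a ∈ zpowers k ⊔ zpowers z, a ^ r = 1 := fun a ha => by
      obtain ⟨i, j, rfl⟩ := mem a ha
      rw [(zk.pow_pow j i).mul_pow, ← pow_mul, ← pow_mul, mul_comm j, mul_comm i, pow_mul, pow_mul, zr, ok]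
      simp
    have nc : ¬ IsCyclic ↥(zpowers k ⊔ zpowers z) := fun h => by
      obtain ⟨a, ha⟩ := (Subgroup.isCyclic_iff_exists_zpowers_eq_top _).1 h
      have h1 := zpr hr (ex a (ha ▸ mem_zpowers a)) (ha ▸ mem_sup_left (mem_zpowers k)) k1
      have h2 : z ∈ zpowers k := zpowers_le.2 h1 (ha ▸ mem_sup_right (mem_zpowers z))
      exact z1 (eq1_of_inv_fix (oddr hr r2 zr) (zinv ik h2) (mem_cent1.2 zt.eq))
    have pg : IsPGroup r ↥(zpowers k ⊔ zpowers z) := PG.isPGroup_of_forall_pow ex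
    have := Fact.mk hp
    obtain ⟨a, ha, a1, ne⟩ := coprime_abelian_exists_cent1_ne_bot cm nc ((V_le kL zL).trans hM.norm)
      (IsPGroup.coprime_card_of_ne p r pr _ _ (hW.to_le MW) pg) hM.ne_bot
    obtain ⟨i, j, rfl⟩ := mem a ha
    by_cases ki : k ^ i = 1
    · rw [ki, mul_one] at a1 ne
      exact ne (eq_bot_iff.2 ((inf_le_inf_left _ (c1le (zpr hr zr (pow_mem (mem_zpowers z) j) a1))).trans e.le))
    · have zi : z ^ i ≠ 1 := fun h => ki (by
        rw [← orderOf_dvd_iff_pow_eq_one, orderOf_eq_prime zr z1] at h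
        rwa [← orderOf_dvd_iff_pow_eq_one, orderOf_eq_prime ok k1])
      obtain ⟨n, hn⟩ := mzp.1 (pow_mem (zpr hr zr (pow_mem (mem_zpowers z) i) zi) j)
      have c1 : ∀ n : ℕ, x ^ n * k * (x ^ n)⁻¹ = z ^ n * k := fun n => by
        induction n with
        | zero => simp
        | succ n ih =>
          rw [pow_succ', show x * x ^ n * k * (x * x ^ n)⁻¹ = x * (x ^ n * k * (x ^ n)⁻¹) * x⁻¹ by group, ih,
            show x * (z ^ n * k) * x⁻¹ = x * z ^ n * x⁻¹ * (x * k * x⁻¹) by group, xkx,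
            ← (zx.pow_left n).eq, pow_succ]
          group
      have c2 : x ^ n * k ^ i * (x ^ n)⁻¹ = z ^ j * k ^ i := by
        rw [← conj_pow, c1, (zk.pow_left n).mul_pow, ← hn, ← pow_mul, ← pow_mul, mul_comm i]
      apply ne
      rw [← c2, ← conj_cent1, ← conj_eq_self (hM.norm (pow_mem xL n)), ← conj_inf,
        fm _ (pow_mem hk i) (pinv ik i) ki, Subgroup.map_bot]
  · have zM : z ∈ C[M] := mem_cent_iff.2 (inf_eq_left.1 e)
    have := he.1
    obtain ⟨K, _, _, ι, inj, hι⟩ := hM.exists_field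
    let φ := (conjEnd M).toHomUnits
    have nx := hM.norm xL
    have nk := hM.norm kL
    have nz := hM.norm zL
    have fz : φ ⟨z, nz⟩ = 1 := Units.ext ((conjEnd_eq_one_iff M ⟨z, nz⟩).2 zM)
    have cxk : Commute (φ ⟨x, nx⟩) (φ ⟨k, nk⟩) := by
      have : (⟨x, nx⟩ * ⟨k, nk⟩ : ↥(N[M])) = ⟨z, nz⟩ * (⟨k, nk⟩ * ⟨x, nx⟩) :=
        Subtype.ext (by simp only [coe_mul]; rw [← mul_assoc, ← xkx]; group)
      rw [commute_iff_eq, ← map_mul, this, map_mul, fz, one_mul, map_mul]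
    have key : ∀ u : (Module.End ℤ (AbV M))ˣ, Commute u (φ ⟨x, nx⟩) → Commute u (φ ⟨k, nk⟩) →
        (u : Module.End ℤ (AbV M)) ∈ ι.range := fun u h1 h2 => (hι _).2 fun a ha => by
      have le : zpowers x ⊔ zpowers k ≤ ((centralizer {u}).comap φ).map (N[M]).subtype :=
        V_le ⟨⟨x, nx⟩, mem_cent1.2 h1.symm.eq, rfl⟩ ⟨⟨k, nk⟩, mem_cent1.2 h2.symm.eq, rfl⟩
      obtain ⟨b, hb, rfl⟩ := le ha
      have : φ b * u = u * φ b := mem_cent1.1 hb
      exact (congrArg Units.val this).symm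
    obtain ⟨α, hα⟩ := key _ (Commute.refl _) cxk
    obtain ⟨κ, hκ⟩ := key _ cxk.symm (Commute.refl _)
    have pw : ∀ (g : G) (ng : g ∈ N[M]) (γ : K), g ^ r = 1 → ι γ = φ ⟨g, ng⟩ → γ ^ r = 1 := fun g ng γ h1 h2 =>
      inj (by
        rw [map_pow, h2, ← Units.val_pow_eq_pow_val, ← map_pow, map_one,
          show (⟨g, ng⟩ : ↥(N[M])) ^ r = 1 from Subtype.ext h1, map_one, Units.val_one])
    have κ1 : κ ≠ 1 := by
      rintro rfl
      rw [map_one] at hκ
      have : k ∈ C[M] := (conjEnd_eq_one_iff M ⟨k, nk⟩).1 hκ.symm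
      exact hM.ne_bot (by rw [← fm k hk ik k1, eq_comm, inf_eq_left]; exact mem_cent_iff.1 this)
    have prim : IsPrimitiveRoot κ r := by
      rw [← orderOf_eq_prime (pw k nk κ ok hκ) κ1]; exact IsPrimitiveRoot.orderOf κ
    have : NeZero r := ⟨hr.ne_zero⟩
    obtain ⟨i, -, hi⟩ := prim.eq_pow_of_pow_eq_one (pw x nx α ox hα)
    obtain ⟨m, hm⟩ := hr.odd_of_ne_two r2
    have yD : k ^ (i * m) * x * k ^ (i * m) ∈ D := mul_mem (mul_mem (pow_mem hk _) hx) (pow_mem hk _)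
    have iy : t * (k ^ (i * m) * x * k ^ (i * m)) * t⁻¹ = (k ^ (i * m) * x * k ^ (i * m))⁻¹ := by
      rw [show t * (k ^ (i * m) * x * k ^ (i * m)) * t⁻¹ =
        t * k ^ (i * m) * t⁻¹ * (t * x * t⁻¹) * (t * k ^ (i * m) * t⁻¹) by group, pinv ik, ix]
      group
    have y1 : k ^ (i * m) * x * k ^ (i * m) ≠ 1 := fun e1 => by
      have : x = (k ^ (i * m))⁻¹ * (k ^ (i * m))⁻¹ := by
        calc x = (k ^ (i * m))⁻¹ * (k ^ (i * m) * x * k ^ (i * m)) * (k ^ (i * m))⁻¹ := by group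
          _ = _ := by rw [e1, mul_one]
      have c : Commute x k := by
        rw [this]; exact ((Commute.refl k).pow_left _).inv_left.mul_left ((Commute.refl k).pow_left _).inv_left
      rw [c.eq, mul_inv_cancel_right] at xkx
      exact z1 (by simpa using xkx.symm)
    have : (φ (⟨k, nk⟩ ^ (i * m) * ⟨x, nx⟩ * ⟨k, nk⟩ ^ (i * m)) : Module.End ℤ (AbV M)) = 1 := by
      rw [map_mul, map_mul, map_pow, Units.val_mul, Units.val_mul, Units.val_pow_eq_pow_val, ← hα, ← hκ,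
        ← map_pow, ← map_mul, ← map_mul, ← hi, ← pow_add, ← pow_add,
        show i * m + i + i * m = r * i by rw [hm]; ring, pow_mul, prim.pow_eq_one, one_pow, map_one]
    have hy := (conjEnd_eq_one_iff M _).1 this
    exact hM.ne_bot (by rw [← fm _ yD iy y1, eq_comm, inf_eq_left]; exact mem_cent_iff.1 hy)

theorem abs (hp : p.Prime) (hW : IsPGroup p W) (W1 : W ≠ ⊥) (nD : D ≤ N[W]) (oD : Odd (Nat.card D))
    (ht : orderOf t = 2) (fp : ∀ y ∈ D, t * y * t⁻¹ = y⁻¹ → y ≠ 1 → W ⊓ C1[y] = ⊥)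
    (hk : k ∈ D) (ik : t * k * t⁻¹ = k⁻¹) (hr : r.Prime) (ok : k ^ r = 1) (k1 : k ≠ 1)
    (AD : A0 ≤ D) (tA : t ∈ N[A0]) (kA : k ∈ N[A0]) (nA : ¬ A0 ≤ C1[t])
    (hx : ∀ x ∈ A0, t * x * t⁻¹ = x⁻¹ → Commute x k → x = 1) : False := by
  have := Fact.mk hr
  have okr := orderOf_eq_prime ok k1
  have ook := odd_ord oD hk
  have r2 : r ≠ 2 := by rintro rfl; rw [okr] at ook; exact absurd ook (by decide)
  have pk : IsPGroup r (zpowers k) := isPGroup_of_card_eq_prime (by rw [Nat.card_zpowers, okr])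
  have pr : p ≠ r := by
    rintro rfl
    exact inf_cent_ne_bot_of_isPGroup hp hW pk (zp_norm (nD hk)) W1 (by rw [cent_zpowers]; exact fp k hk ik k1)
  obtain ⟨A, ⟨AA, n, nc⟩, -, mn⟩ := exists_minimal_le
    (S := {A : Subgroup G | A ≤ A0 ∧ zpowers t ⊔ zpowers k ≤ N[A] ∧ ¬ A ≤ C1[t]}) (H := A0) ⟨le_rfl, V_le tA kA, nA⟩
  have oA := odd_card_of_le oD (AA.trans AD)
  have nt : t ∈ N[A] := n (mem_sup_left (mem_zpowers t))
  have nk : k ∈ N[A] := n (mem_sup_right (mem_zpowers k))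
  have A1 : A ≠ ⊥ := by rintro rfl; exact nc bot_le
  have small : ∀ B, B < A → zpowers t ⊔ zpowers k ≤ N[B] → B ≤ C[zpowers t ⊔ zpowers k] := fun B lt nB => by
    have h1 : B ≤ C1[t] := by
      by_contra h
      exact lt.ne (mn B ⟨lt.le.trans AA, nB, h⟩ lt.le)
    have h2 : t ∈ C[B] := mem_cent_iff.2 h1
    have h3 := conj_mem_of_mem_norm (inv_mem (le_norm_cent nB (mem_sup_right (mem_zpowers k)))) h2
    have h4 := inv_mem (mul_mem h3 (inv_mem h2))
    rw [show (k⁻¹ * t * k⁻¹⁻¹ * t⁻¹)⁻¹ = (t * k * t⁻¹)⁻¹ * k by group, ik, inv_inv] at h4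
    exact le_cent_symm (V_le h2 (PG.mem_of_sq_mem_of_odd ook h4))
  have ct : C[zpowers t ⊔ zpowers k] ≤ C[zpowers t] := cent_anti le_sup_left
  have ck : C[zpowers t ⊔ zpowers k] ≤ C[zpowers k] := cent_anti le_sup_right
  have nc' : ¬ A ≤ C[zpowers t ⊔ zpowers k] := fun h => nc (cent_zpowers t ▸ h.trans ct)
  obtain ⟨x, xA, ix, x1⟩ : ∃ x ∈ A, t * x * t⁻¹ = x⁻¹ ∧ x ≠ 1 := by
    by_contra h
    push Not at h
    refine nc fun y hy => ?_
    obtain ⟨c, hc, a, ha, ia, rfl⟩ := dec2 (sq1 ht) nt oA hy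
    rw [h a (commutator_le_of_le_norm_left (zp_norm nt) ha) ia, mul_one]
    exact hc.2
  have xk : ¬ Commute x k := fun c => x1 (hx x (AA xA) ix c)
  have nck : ¬ A ≤ C[zpowers k] := fun h => xk (mem_cent1.1 (cent_zpowers k ▸ h xA))
  have nzk : zpowers t ⊔ zpowers k ≤ N[zpowers k] :=
    V_le (mem_normalizer_of_conj_le (by rw [conj_zpowers, ik, zpowers_inv])) (le_normalizer (mem_zpowers k))
  have AG : ⁅zpowers t ⊔ zpowers k, A⁆ = A := by
    by_contra h
    have h1 := small _ (lt_of_le_of_ne (commutator_le_of_le_norm_right n) h) (le_norm_commutator le_normalizer n)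
    refine nc (cent_zpowers t ▸ coprime_le_cent_of_commutator_le_cent (zp_norm nt) (cop2 oA ht) ?_)
    rw [commutator_comm]
    exact ((commutator_mono le_sup_left le_rfl).trans h1).trans ct
  have cen : ∀ B, B < A → zpowers t ⊔ zpowers k ≤ N[B] → A ≤ N[B] → A ≤ C[B] := fun B lt nB aB => by
    have h1 := small B lt nB
    nth_rw 1 [← AG]
    exact commutator_le_cent_of_le_cent ((commutator_le_of_le_norm_right aB).trans h1)
      (by rw [le_cent_iff_commutator_eq_bot.1 h1]; exact bot_le)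
  have nil : Group.IsNilpotent A := nilpotent_of_commutator_le_cent (le_cent_symm
    (cen _ (commutator_lt_of_solvable (solv_odd oA) A1) (le_norm_commutator n n)
      (le_norm_commutator le_normalizer le_normalizer)))
  by_cases e1 : piCoreOf {r}ᶜ A = A
  · have cop : (Nat.card A).Coprime (Nat.card (zpowers k)) :=
      (e1 ▸ piCoreOf_isPi {r}ᶜ A : IsPiSubgroup {r}ᶜ A).coprime' (isPi_of_isPGroup hr pk)
    have e2 : ⁅A, zpowers k⁆ = A := by
      by_contra h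
      exact nck (coprime_le_cent_of_commutator_le_cent (zp_norm nk) cop ((small _ (lt_of_le_of_ne
        (commutator_le_of_le_norm_left (zp_norm nk)) h) (le_norm_commutator n nzk)).trans ck))
    obtain ⟨M, MW, hM⟩ := exists_minNormal_le W1 ((sup_le (AA.trans AD) (zpowers_le.2 hk)).trans nD)
    have h1 := BG.odd_prime_cent1_minNormal hp hM (hM.elementary_of_isPGroup hp (hW.to_le MW)) (zp_norm nk)
      (solv_odd oA) cop oA (by rwa [Nat.card_zpowers]) (by rwa [Nat.card_zpowers, okr])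
      (by rw [Nat.card_zpowers, okr, Nat.prime_dvd_prime_iff_eq hp hr]; exact pr)
      (eq_bot_iff.2 (by rw [cent_zpowers, ← fp k hk ik k1]; exact inf_le_inf_right _ MW))
    rw [e2] at h1
    exact hM.ne_bot (eq_bot_iff.2 (by
      rw [← fp x (AD (AA xA)) ix x1]; exact le_inf MW (mem_cent_iff.1 (h1 xA))))
  have e2 : piCoreOf {r} A = A := by
    by_contra e2
    refine nc' ((fittingOf_eq_self nil).ge.trans ((fittingOf_le_sup_piCoreOf {r}).trans (sup_le ?_ ?_)))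
    · exact small _ (lt_of_le_of_ne (piCoreOf_le _ _) e2) (le_norm_piCoreOf n)
    · exact small _ (lt_of_le_of_ne (piCoreOf_le _ _) e1) (le_norm_piCoreOf n)
  have pA : IsPGroup r A := (isPiSubgroup_single_iff hr).1 (e2 ▸ piCoreOf_isPi {r} A)
  have lt : ⁅A, A ⊔ zpowers k⁆ < A := lt_of_le_of_lt (commutator_mono le_rfl (sup_comm A _).le)
    (GT.commutator_lt_of_nilpotent (nilpotent_of_isPGroup hr (pk.to_sup_of_normal_right' pA (zp_norm nk)))
      le_sup_right (sup_le (zp_norm nk) le_normalizer) A1)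
  have nB := le_norm_commutator n (le_norm_sup n nzk)
  have zB : ⁅x, k⁆ ∈ ⁅A, A ⊔ zpowers k⁆ := commutator_mem_commutator xA (mem_sup_right (mem_zpowers k))
  have h1 := small _ lt nB zB
  rw [cent_V] at h1
  have h2 := cen _ lt nB (normalizer_commutator_ge_left _ _) xA
  have zx : Commute ⁅x, k⁆ x := h2 _ zB
  have zk : Commute ⁅x, k⁆ k := mem_cent1.1 h1.2
  have zr : ⁅x, k⁆ ^ r = 1 := by rw [← commutatorElement_pow_right_of_commute zk, ok]; simp
  have xr : x ^ r = 1 := hx _ (AA (pow_mem xA r)) (pinv ix r) (by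
    have h3 : Commute ⁅k, x⁆ x := by rw [← commutatorElement_inv]; exact zx.inv_left
    have h4 := commutatorElement_pow_right_of_commute h3 r
    rw [← commutatorElement_inv x k, inv_pow, zr, inv_one, commutatorElement_eq_one_iff_commute] at h4
    exact h4.symm)
  exact ext hp hr pr r2 hW W1 nD fp hk (AD (AA xA)) ik ix ok xr
    (fun e => xk (commutatorElement_eq_one_iff_commute.1 e)) zx zk (mem_cent1.1 h1.1)

end Cfsg.Agent.SE.NA
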