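import Cfsg.Agent.SE.NA1
import Cfsg.Agent.SE.PB1
import Cfsg.Agent.SE.FL
import Cfsg.Agent.SE.PG

/-! Strongly embedded subgroups, no inner elements: a noncyclic semiregular normal `p`-subgroup. -/

set_option autoImplicit false
set_option linter.unusedSectionVars false
set_option linter.unusedVariables false

namespace Cfsg.Agent.SE.NA

open Cfsg Subgroup MulAction Cfsg.Agent.GT Cfsg.Agent.Cls Cfsg.Agent.GW Cfsg.Agent.WA
open scoped commutatorElement

universe u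

variable {G Ω : Type u} [Group G] [Finite G] [MulAction G Ω] {a b c d : Ω} {s s' t u k x y g : G}
  {P X Y : Subgroup G} {p : ℕ} {E : Ω → Subgroup G}

theorem tinv (ht : orderOf t = 2) : t * k * t = k⁻¹ ↔ t * k * t⁻¹ = k⁻¹ := by rw [inv2 ht]

theorem fix_inv (e : x • a = a) : x⁻¹ • a = a := inv_smul_eq_iff.2 e.symm

theorem ord_mul (ht : orderOf t = 2) (ix : t * x * t⁻¹ = x⁻¹) (o : Odd (orderOf x)) : orderOf (t * x) = 2 := by
  refine ord2 ?_ fun e => ?_
  · rw [show t * x * (t * x) = t * x * t⁻¹ * (t * t) * x by group, sq1 ht, ix]; group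
  · rw [eq_inv_of_mul_eq_one_right e, orderOf_inv, ht] at o
    exact absurd o (by decide)

theorem norm_c1 (ix : t * x * t⁻¹ = x⁻¹) : t ∈ N[C1[x]] := by
  rw [← conj_eq_self_iff, conj_cent1, ix, ← cent_zpowers, ← cent_zpowers, zpowers_inv]

/-- an involution in an odd coset -/
theorem coset_inv (ht : orderOf t = 2) (o : Odd (Nat.card Y)) (n : t ∈ N[Y]) (hg : g ∈ Y) (e : (g * t) • a = a) :
    ∃ y ∈ Y, orderOf (y * t) = 2 ∧ (y * t) • a = a := by
  have h1 : g * t * (g * t) ∈ Y := by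
    have := mul_mem hg (conj_mem_of_mem_norm n hg)
    rwa [inv2 ht, ← mul_assoc, ← mul_assoc, mul_assoc (g * t)] at this
  obtain ⟨j, hj⟩ := odd_ord o h1
  have e1 : (g * t * (g * t)) ^ j * g * t = (g * t) ^ (2 * j + 1) := by
    rw [pow_succ, pow_mul, sq, mul_assoc]
  refine ⟨(g * t * (g * t)) ^ j * g, mul_mem (pow_mem h1 j) hg, ord2 ?_ fun e2 => ?_, ?_⟩
  · rw [e1, ← hj, ← sq, ← pow_mul, mul_comm, pow_mul, sq, pow_orderOf_eq_one]
  · have : t ∈ Y := by
      rw [eq_inv_of_mul_eq_one_right e2]; exact inv_mem (mul_mem (pow_mem h1 j) hg)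
    have := odd_ord o this
    rw [ht] at this
    exact absurd this (by decide)
  · rw [e1]; exact pow_mem (show g * t ∈ stabilizer G a from e) _

/-- an element inverted by `t` with a centraliser of even order -/
theorem even_cent (h : Tw1 G Ω) (ht : orderOf t = 2) (tc : t • c = c) (ik : t * k * t⁻¹ = k⁻¹)
    (o : Odd (orderOf k)) (k1 : k ≠ 1) (ev : ¬ Odd (Nat.card C1[k])) : C1[k] ≤ stabilizer G c := by
  have key : ∀ u ∈ C1[k], orderOf u = 2 → u • c = c := fun u hu ou => by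
    obtain ⟨d, ud, -⟩ := h.ac.fix u ou
    by_cases e : d = c
    · exact e ▸ ud
    obtain ⟨-, v, hv, ov, e1, -⟩ := h.mid d c u t e ou ht ud tc
    have := conj_mem_of_mem_norm (V_le (le_normalizer hu) (norm_c1 ik) hv) hu
    rw [inv2 ov, e1] at this
    exact absurd (eq1_of_inv_fix o ik (mem_cent1_comm.1 this)) k1
  obtain ⟨u, hu, ou⟩ := exists_inv (Nat.not_odd_iff_even.1 ev)
  intro y hy
  exact PB.uniq h (ord2_conj ou y) (PB.cj_fix (key u hu ou) y)
    (key _ (mul_mem (mul_mem hy hu) (inv_mem hy)) (ord2_conj ou y))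

theorem notle (h : Tw1 G Ω) (ne : a ≠ b) (ht : orderOf t = 2) (ta : t • a = b) (tb : t • b = a) (tc : t • c = c) :
    ¬ stabilizer G a ⊓ stabilizer G b ≤ stabilizer G c := fun le => by
  have ca : c ≠ a := by rintro rfl; exact ne (tc.symm.trans ta)
  have e := FL.card_eq h.ac.ac ca ht tc
  rw [ta] at e
  have e1 := eq_of_le_of_card_ge (le_inf le inf_le_left) e.le
  obtain ⟨s, s', os, os', n, cm, sc, sc'⟩ := PG.two_inv h c
  obtain ⟨k, hk, rfl⟩ := h.ac.ac.tr_inv ca os ht sc tc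
  obtain ⟨g, hg, e2⟩ := h.ac.ac.tr_inv ca ht (ord2_conj os' k) tc (by
    have := PB.cj_fix sc' k; rwa [show k • c = c from hk.1] at this)
  rw [← e1] at hg
  have h1 := mul_mem hg (conj_mem_of_mem_norm (sb_swap_norm ta tb) (inv_mem hg))
  rw [show g * (k * s * k⁻¹ * g⁻¹ * (k * s * k⁻¹)⁻¹) = g * (k * s * k⁻¹) * g⁻¹ * (k * s * k⁻¹)⁻¹ by group, e2,
    show k * s' * k⁻¹ * (k * s * k⁻¹)⁻¹ = k * (s' * s⁻¹) * k⁻¹ by group, inv2 os] at h1
  have h2 := odd_ord (h.odd a b ne) h1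
  rw [orderOf_conj, ord2_mul os' os n cm] at h2
  exact absurd h2 (by decide)

/-- an equivariant family of noncyclic semiregular `p`-subgroups centralised by the involutions. -/
structure Fam (G : Type u) {Ω : Type u} [Group G] [MulAction G Ω] (p : ℕ) (E : Ω → Subgroup G) : Prop where
  tw : Tw1 G Ω
  pp : p.Prime
  p2 : p ≠ 2
  pg : ∀ a, IsPGroup p (E a)
  eqv : ∀ (g : G) a, cj[g] (E a) = E (g • a)
  le : ∀ a, E a ≤ stabilizer G a
  cen : ∀ a s, orderOf s = 2 → s • a = a → E a ≤ C1[s]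
  semi : ∀ a, ∀ y ∈ E a, y ≠ 1 → ∀ b, y • b = b → b = a
  nc : ∀ a, ¬ IsCyclic (E a)

namespace Fam
variable (f : Fam G p E)
include f

theorem ne (a : Ω) : E a ≠ ⊥ := fun e => f.nc a (by rw [e]; infer_instance)

theorem norm (a : Ω) : stabilizer G a ≤ N[E a] := fun g hg => by
  rw [← conj_eq_self_iff, f.eqv, show g • a = a from hg]

theorem cmem (hy : y ∈ E a) (g : G) : g * y * g⁻¹ ∈ E (g • a) := f.eqv g a ▸ ⟨y, hy, rfl⟩

theorem ti (hy : y ∈ E a) (y1 : y ≠ 1) (e : g * y * g⁻¹ ∈ stabilizer G a) : g • a = a :=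
  (f.semi _ _ (f.cmem hy g) (fun h => y1 (by simpa using h)) a e).symm

theorem c1 (hy : y ∈ E a) (y1 : y ≠ 1) : C1[y] ≤ stabilizer G a := fun g hg =>
  f.ti hy y1 (by rw [mem_cent1.1 hg, mul_inv_cancel_right]; exact f.le a hy)

theorem pfix (hP : IsPGroup p P) (hy : y ∈ E a) (y1 : y ≠ 1) (yP : y ∈ P) : P ≤ stabilizer G a := by
  by_contra h
  have lt : P ⊓ stabilizer G a < P := lt_of_le_of_ne inf_le_left fun e => h (inf_eq_left.1 e)
  obtain ⟨g, ⟨gP, gn⟩, ng⟩ := SetLike.exists_of_lt (lt_inf_norm_of_isPGroup f.pp hP lt)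
  exact ng ⟨gP, f.ti hy y1 (conj_mem_of_mem_norm gn ⟨yP, f.le a hy⟩).2⟩

/-- (O) -/
theorem odd_le (o : Odd (Nat.card Y)) (nc : ¬ IsCyclic ↥(Y ⊓ E a)) : Y ≤ stabilizer G a := by
  have := Fact.mk f.pp
  obtain ⟨B, BE, -, he, cB⟩ := PG.exists_normal_elemAb_sq' f.p2 ((f.pg a).to_le inf_le_right) nc
  have ncB := PG.not_isCyclic_of_elemAb_sq f.pp he cB
  have pB := isPGroup_of_elementary he
  obtain ⟨y, hy, y1⟩ := (B.bot_or_exists_ne_one).resolve_left fun e => ncB (by rw [e]; infer_instance)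
  have FG : fittingOf Y ≤ stabilizer G a := fittingOf_le_of_forall_piCoreOf fun q hq => by
    have n : B ≤ N[piCoreOf {q} Y] := (BE.trans inf_le_left).trans (self_le_norm_piCoreOf _ _)
    have pq := (isPiSubgroup_single_iff hq).1 (piCoreOf_isPi {q} Y)
    by_cases e : q = p
    · subst e
      exact le_sup_right.trans (f.pfix (pB.to_sup_of_normal_right' pq n) (BE hy).2 y1 (mem_sup_left hy))
    · have := Fact.mk hq
      exact coprime_abelian_gen_cent1 he.1 ncB n (IsPGroup.coprime_card_of_ne q p e _ _ pq pB)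
        fun z hz z1 => inf_le_right.trans (f.c1 (BE hz).2 z1)
  intro g hg
  have Fd : fittingOf Y ≤ stabilizer G (g • a) := sb_fixN FG (self_le_norm_fittingOf Y hg)
  by_contra ne
  have : B ≤ C[fittingOf Y] := le_cent_iff_commutator_eq_bot.2 (eq_bot_iff.2 fun z hz => by
    have h1 := commutator_le_of_le_norm_right ((BE.trans inf_le_left).trans (self_le_norm_fittingOf Y)) hz
    have h2 := commutator_le_of_le_norm_left (FG.trans (f.norm a))
      (commutator_mono (BE.trans inf_le_right) le_rfl hz)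
    by_contra z1
    exact ne (f.semi a z h2 z1 _ (Fd h1)))
  exact ne (f.semi a y (BE hy).2 y1 _ (Fd (le_fittingOf_of_le_cent (solv_odd o) (BE.trans inf_le_left) this hy)))

/-- an inner element centralises `E c` -/
theorem inner (ht : orderOf t = 2) (tc : t • c = c) (ix : t * x * t⁻¹ = x⁻¹) (o : Odd (orderOf x))
    (xc : x • c = c) : E c ≤ C1[x] := fun y hy => by
  have := c1_mul (f.cen c t ht tc hy) (f.cen c _ (ord_mul ht ix o) (by rw [mul_smul, xc, tc]) hy)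
  rwa [tt (sq1 ht)] at this

/-- (K) -/
theorem kfp (ne : a ≠ b) (ht : orderOf t = 2) (ta : t • a = b) (tb : t • b = a)
    (hk : k ∈ stabilizer G a ⊓ stabilizer G b) (ik : t * k * t⁻¹ = k⁻¹) (k1 : k ≠ 1) : E a ⊓ C1[k] = ⊥ := by
  rw [eq_bot_iff]
  intro y ⟨hy, yk⟩
  by_contra y1
  have ok := odd_ord (f.tw.odd a b ne) hk
  by_cases o : Odd (Nat.card C1[k])
  · have nt := norm_c1 ik
    obtain ⟨P, hP, yP⟩ := exists_syl_ge f.pp ((f.pg a).to_le (zpowers_le.2 hy)) (zpowers_le.2 yk)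
    have Pa := f.pfix (syl_isPGroup f.pp hP) hy y1 (yP (mem_zpowers y))
    have hy' := f.cmem hy t
    obtain ⟨g, hg, le⟩ := syl_exists_conj_le f.pp hP ((f.pg _).to_le (zpowers_le.2 hy'))
      (zpowers_le.2 (conj_mem_of_mem_norm nt yk))
    have e : (g * t) • a = a := f.ti hy y1 (Pa (le ⟨_, mem_zpowers _, by simp [mul_assoc]⟩))
    obtain ⟨z, hz, oz, za⟩ := coset_inv ht o nt hg e
    have iz : z * t * k * (z * t)⁻¹ = k⁻¹ := by
      rw [show z * t * k * (z * t)⁻¹ = z * (t * k * t⁻¹) * z⁻¹ by group, ik, ← conj_inv, mem_cent1.1 hz,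
        mul_inv_cancel_right]
    have := f.odd_le o (by rw [inf_eq_right.2 (f.inner oz za iz ok hk.1)]; exact f.nc a) hz
    rw [mul_smul, ta] at za
    exact ne (smul_left_cancel z ((show z • a = a from this).trans za.symm))
  · obtain ⟨c, tc, -⟩ := f.tw.ac.fix t ht
    have := f.semi a y hy y1 c (even_cent f.tw ht tc ik ok k1 o yk)
    subst this
    exact ne (tc.symm.trans ta)

/-- an inner element fixing a second point acts without fixed points there -/
theorem inner2 (ht : orderOf t = 2) (tc : t • c = c) (ix : t * x * t⁻¹ = x⁻¹) (xd : x • d = d) (ne : d ≠ c)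
    (x1 : x ≠ 1) : E d ⊓ C1[x] = ⊥ :=
  f.kfp (b := t • d) (fun e => ne (PB.uniq f.tw ht e.symm tc)) ht rfl (by rw [← mul_smul, sq1 ht, one_smul])
    ⟨xd, show x • t • d = t • d by
      rw [← mul_smul, show x * t = (t * x * t⁻¹)⁻¹⁻¹⁻¹⁻¹ * (t * x * t⁻¹)⁻¹ * x * t by group, ix,
        show x⁻¹⁻¹⁻¹⁻¹⁻¹ * x⁻¹⁻¹ * x * t = x⁻¹⁻¹ * t by group, ← ix,
        show (t * x * t⁻¹)⁻¹ * t = t * x⁻¹ by group, mul_smul, fix_inv xd]⟩ ix x1

theorem inner3 (ht : orderOf t = 2) (tc : t • c = c) (ix : t * x * t⁻¹ = x⁻¹) (o : Odd (orderOf x))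
    (xc : x • c = c) (cm : Commute x k) (ne : k • c ≠ c) : x = 1 := by
  by_contra x1
  have h1 := f.inner2 (ord2_conj ht k) (PB.cj_fix tc k) (x := x) (by
    rw [show k * t * k⁻¹ * x * (k * t * k⁻¹)⁻¹ = k * (t * (k⁻¹ * x * k) * t⁻¹) * k⁻¹ by group, mul_assoc k⁻¹, cm.eq,
      inv_mul_cancel_left, ix, ← cm.inv_left.eq, mul_inv_cancel_right]) xc ne.symm x1
  exact f.ne c (by rw [← h1, eq_comm, inf_eq_left]; exact f.inner ht tc ix o xc)

theorem ni' (ne : a ≠ b) (ht : orderOf t = 2) (ta : t • a = b) (tb : t • b = a) (tc : t • c = c)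
    (hx : x ∈ stabilizer G a ⊓ stabilizer G b) (ix : t * x * t⁻¹ = x⁻¹) (xc : x • c = c) : x = 1 := by
  by_contra x1
  have oD := f.tw.odd a b ne
  have tD := sb_swap_norm ta tb
  have ox := odd_ord oD hx
  have DG := notle f.tw ne ht ta tb tc
  obtain ⟨N, ⟨ND, nN, NG⟩, -, mn⟩ := exists_minimal_le
    (S := {N : Subgroup G | N ≤ stabilizer G a ⊓ stabilizer G b ∧ zpowers t ⊔ zpowers x ≤ N[N] ∧
      ¬ N ≤ stabilizer G c}) (H := stabilizer G a ⊓ stabilizer G b) ⟨le_rfl, V_le tD (le_normalizer hx), DG⟩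
  have oN := odd_card_of_le oD ND
  have nt : t ∈ N[N] := nN (mem_sup_left (mem_zpowers t))
  have nx : x ∈ N[N] := nN (mem_sup_right (mem_zpowers x))
  have lt := commutator_lt_of_solvable (solv_odd oN) (by rintro rfl; exact NG bot_le)
  have N' : ⁅N, N⁆ ≤ stabilizer G c := by
    by_contra h
    exact lt.ne (mn _ ⟨lt.le.trans ND, le_norm_commutator nN nN, h⟩ lt.le)
  have inv : ∀ τ : G, orderOf τ = 2 → τ • c = c → τ ∈ N[N] → ∀ n ∈ N, τ • n • c = n⁻¹ • c := fun τ oτ τc nτ n hn => by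
    obtain ⟨v, hv, i, hi, ii, rfl⟩ := dec2 (sq1 oτ) nτ oN hn
    have hi' := commutator_le_of_le_norm_left (zp_norm nτ) hi
    have vc := PB.cent_le f.tw oτ τc hv.2
    have := mul_mem (mul_mem vc vc) (N' (commutator_mem_commutator (inv_mem hv.1) hi'))
    rw [eq_inv_smul_iff, ← mul_smul, ← mul_smul, show v * i * τ * (v * i) = v * v * ⁅v⁻¹, i⁆ * τ by
      rw [commutatorElement_def, ← ii, ← mul_assoc, mul_assoc _ τ v, ← mem_cent1.1 hv.2]; group, mul_smul, τc]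
    exact this
  let A0 := (stabilizer G a ⊓ stabilizer G b) ⊓ ⨅ n ∈ N, stabilizer G (n • c)
  have mA : ∀ y, y ∈ A0 ↔ y ∈ stabilizer G a ⊓ stabilizer G b ∧ ∀ n ∈ N, y • n • c = n • c := fun y => by
    simp only [A0, mem_inf, mem_iInf, mem_stabilizer_iff]
  have xA : x ∈ A0 := (mA x).2 ⟨hx, fun n hn => by
    rw [← tt (sq1 ht) x, mul_smul, inv _ (ord_mul ht ix ox) (by rw [mul_smul, xc, tc]) (mul_mem nt nx) n hn,
      inv t ht tc nt _ (inv_mem hn), inv_inv]⟩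
  have nA : ∀ g ∈ N[stabilizer G a ⊓ stabilizer G b], (∀ n ∈ N, ∃ m ∈ N, g⁻¹ • n • c = m • c) → g ∈ N[A0] :=
    fun g hg h => mem_normalizer_of_conj_le (conj_le_iff_forall.2 fun y hy => (mA _).2
      ⟨conj_mem_of_mem_norm hg ((mA y).1 hy).1, fun n hn => by
        obtain ⟨m, hm, e⟩ := h n hn
        rw [mul_smul, mul_smul, e, ((mA y).1 hy).2 m hm, ← e, smul_inv_smul]⟩)
  have ex : ∃ m, ∃ k ∈ N, t * k * t⁻¹ = k⁻¹ ∧ k • c ≠ c ∧ orderOf k = m := by
    obtain ⟨n, hn, nc⟩ := SetLike.not_le_iff_exists.1 NG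
    obtain ⟨v, hv, i, hi, ii, rfl⟩ := dec2 (sq1 ht) nt oN hn
    exact ⟨_, i, commutator_le_of_le_norm_left (zp_norm nt) hi, ii,
      fun e => nc (mul_mem (PB.cent_le f.tw ht tc hv.2) e), rfl⟩
  classical
  obtain ⟨k, hk, ik, kc, ok⟩ := Nat.find_spec ex
  have k1 : k ≠ 1 := by rintro rfl; exact kc (one_smul _ _)
  obtain ⟨r, hr, dr⟩ := Nat.exists_prime_and_dvd (fun e => k1 (orderOf_eq_one_iff.1 e))
  have kr : k ^ r = 1 := f.inner3 ht tc (pinv ik r) (odd_ord oN (pow_mem hk r)) (by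
    by_contra h
    have := Nat.find_min' ex ⟨_, pow_mem hk r, pinv ik r, h, rfl⟩
    rw [← ok, orderOf_pow_of_dvd hr.ne_zero dr] at this
    exact absurd (Nat.div_lt_self (orderOf_pos k) hr.one_lt) (not_lt.2 this)) ((Commute.refl k).pow_left r) kc
  refine abs f.pp (f.pg a) (f.ne a) (inf_le_left.trans (f.norm a)) oD ht (fun y hy iy y1 => f.kfp ne ht ta tb hy iy y1)
    (ND hk) ik hr kr k1 (A0 := A0) inf_le_left
    (nA t tD fun n hn => ⟨n⁻¹, inv_mem hn, by rw [inv2 ht, inv t ht tc nt n hn]⟩)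
    (nA k (le_normalizer (ND hk)) fun n hn => ⟨k⁻¹ * n, mul_mem (inv_mem hk) hn, (mul_smul _ _ _).symm⟩)
    (fun h => x1 (eq1_of_inv_fix ox ix (h xA))) fun y hy iy cm => ?_
  exact f.inner3 ht tc iy (odd_ord oD ((mA y).1 hy).1) (by simpa using ((mA y).1 hy).2 1 (one_mem _)) cm kc

theorem ni : NI G Ω := fun c d s s' os os' sc sc' ne e => by
  by_contra dc
  have ix : s * (s * s') * s⁻¹ = (s * s')⁻¹ := by rw [tt (sq1 os), mul_inv_rev, inv2 os']
  refine ne ?_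
  have := f.ni' (a := d) (b := s • d) (fun e => dc (PB.uniq f.tw os e.symm sc)) os rfl
    (by rw [← mul_smul, sq1 os, one_smul]) sc ⟨e, show (s * s') • s • d = s • d by
      rw [mul_smul, ← mul_smul s', show s' * s = (s * s')⁻¹ by rw [mul_inv_rev, inv2 os, inv2 os'], fix_inv e]⟩ ix
    (by rw [mul_smul, sc', sc])
  rw [← inv2 os', eq_inv_iff_mul_eq_one, this]

end Fam

theorem eqvP (p : ℕ) (g : G) (a : Ω) :
    cj[g] (piCoreOf {p} O[stabilizer G a]) = piCoreOf {p} O[stabilizer G (g • a)] := by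
  rw [conj_piCoreOf, conj_piCoreOf, sb_conj_st]

/-- (A2) -/
theorem a2 (w : Tw1 G Ω) (a : Ω) (JR : ∀ (a : Ω) (s : G), orderOf s = 2 → s • a = a → O[stabilizer G a] ≤ C1[s])
    (hp : p.Prime) (nc : ¬ IsCyclic (piCoreOf {p} O[stabilizer G a]))
    (semi : ∀ a b : Ω, a ≠ b → piCoreOf {p} O[stabilizer G a] ⊓ stabilizer G b = ⊥) : NI G Ω := by
  have pg : ∀ a : Ω, IsPGroup p (piCoreOf {p} O[stabilizer G a]) := fun a =>
    (isPiSubgroup_single_iff hp).1 (piCoreOf_isPi _ _)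
  refine Fam.ni (p := p) (E := fun a => piCoreOf {p} O[stabilizer G a]) ⟨w, hp, ?_, pg, eqvP p,
    fun a => (piCoreOf_le _ _).trans (O_le _), fun a s os sa => (piCoreOf_le _ _).trans (JR a s os sa),
    fun a y hy y1 b e => ?_, fun b => ?_⟩
  · rintro rfl
    have := prime_dvd_card_of_isPGroup hp (pg a) fun e => nc (by rw [e]; infer_instance)
    exact absurd ((odd_card_of_le (O_odd _) (piCoreOf_le _ _)).of_dvd_nat this) (by decide)
  · by_contra ne
    exact y1 (mem_bot.1 (semi a b (Ne.symm ne) ▸ (⟨hy, e⟩ : y ∈ _ ⊓ stabilizer G b)))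
  · obtain ⟨g, rfl⟩ := w.ac.tr a b
    rwa [← eqvP, isCyclic_conj_iff]

end Cfsg.Agent.SE.NA
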