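import Cfsg.Agent.SE.PB1
import Cfsg.Agent.WA.SMA

/-! Strongly embedded subgroups, PB (B)-(E). -/

set_option autoImplicit false
set_option linter.unusedSectionVars false
set_option linter.unusedVariables false

namespace Cfsg.Agent.SE.PB

open Cfsg Subgroup MulAction Cfsg.Agent.GT Cfsg.Agent.Cls Cfsg.Agent.GW Cfsg.Agent.WA
open scoped commutatorElement

universe u

variable {G Ω : Type u} [Group G] [Finite G] [MulAction G Ω] {a b c d : Ω} {s s' t v x y z k g : G}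
  {P Q S X Y M V D : Subgroup G} {l p : ℕ}

/-- the preimage of `F(D / C_D(V))`. -/
structure ZZ (V D Z : Subgroup G) : Prop where
  le : Z ≤ D
  nZ : D ≤ N[Z]
  der : ⁅Z, Z⁆ ≤ D ⊓ C[V]
  gen : ∃ g ∈ Z, Z = D ⊓ C[V] ⊔ zpowers g
  semi : ∀ z ∈ Z, ∀ v ∈ V, Commute z v → z ∈ C[V] ∨ v = 1
  cent : ∀ d ∈ D, (∀ z ∈ Z, d * z * d⁻¹ * z⁻¹ ∈ D ⊓ C[V]) → d ∈ Z
  max : ∀ M ≤ D, D ≤ N[M] → ⁅M, M⁆ ≤ D ⊓ C[V] → M ≤ Z

theorem exZ (el : ∀ v ∈ V, v * v = 1) (ne : V ≠ ⊥) (nV : D ≤ N[V]) (odd : Odd (Nat.card D))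
    (tr : ∀ v ∈ V, ∀ w ∈ V, v ≠ 1 → w ≠ 1 → ∃ b ∈ D, b * v * b⁻¹ = w) : ∃ Z, ZZ V D Z := by
  have VY : V ≤ V ⊔ D := le_sup_left
  have DY : D ≤ V ⊔ D := le_sup_right
  obtain ⟨X, _, _, f, -, ker⟩ := exists_quo' (V ⊔ D) (D ⊓ C[V]) (inf_le_left.trans DY)
    (sup_le (le_norm_of_cent (le_cent_symm inf_le_right)) (le_norm_inf (le_norm_self le_rfl) (le_norm_cent nV)))
  have inj : ∀ v (hv : v ∈ V), f ⟨v, VY hv⟩ = 1 → v = 1 := fun v hv e =>
    eq1_of_odd (odd_ord odd (ker ▸ (mem_kr' _).2 e : v ∈ D ⊓ C[V]).1) (el v hv)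
  have key : ∀ d (hd : d ∈ D) v (hv : v ∈ V), Commute (f ⟨d, DY hd⟩) (f ⟨v, VY hv⟩) → Commute d v := by
    intro d hd v hv e
    rw [← commutatorElement_eq_one_iff_commute] at e ⊢
    rw [← map_commutatorElement] at e
    exact inj _ (mul_mem (conj_mem_of_le_norm nV hd hv) (inv_mem hv)) e
  have T : SM.TA (im f V) (im f D) (im f D) := by
    refine ⟨?_, ?_, im_norm nV, odd.of_dvd_nat card_im_dvd, le_rfl, eq_bot_iff.2 fun x hx => ?_, ?_⟩
    · intro v hv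
      obtain ⟨v, hv', hv0, rfl⟩ := mem_im.1 hv
      rw [← map_mul, ← map_one f]; exact congrArg f (Subtype.ext (el v hv0))
    · obtain ⟨v, hv, v1⟩ := exists_ne_one_of_ne_bot ne
      exact ne_bot_of_mem (mem_im_of_mem (VY hv) hv) fun e => v1 (inj v hv e)
    · obtain ⟨d, hd', hd, rfl⟩ := mem_im.1 hx.1
      refine mem_bot.2 ((mem_kr' hd').1 (ker ▸ ⟨hd, fun v hv => ?_⟩))
      exact (key d hd v hv (Commute.symm (hx.2 _ (mem_im_of_mem (VY hv) hv)))).eq.symm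
    · intro v hv w hw v1 w1
      obtain ⟨v, hv', hv0, rfl⟩ := mem_im.1 hv
      obtain ⟨w, hw', hw0, rfl⟩ := mem_im.1 hw
      obtain ⟨b, hb, e⟩ := tr v hv0 w hw0 (fun e => v1 (by subst e; exact map_one f))
        (fun e => w1 (by subst e; exact map_one f))
      refine ⟨_, mem_im_of_mem (DY hb) hb, ?_⟩
      rw [← map_inv, ← map_mul, ← map_mul]
      exact congrArg f (Subtype.ext e)
  have kD : kr f ≤ D := ker ▸ inf_le_left
  have le : pre f (fittingOf (im f D)) ≤ D := pre_le_of_le_im DY kD (fittingOf_le _)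
  have e : im f (pre f (fittingOf (im f D))) = fittingOf (im f D) := im_pre_of_le' (fittingOf_le _)
  refine ⟨pre f (fittingOf (im f D)), le, le_norm_pre DY (self_le_norm_fittingOf _), ?_, ?_, ?_, ?_, ?_⟩
  · rw [← ker, ← im_le_cent_iff pre_le pre_le, e]; exact T.fit_comm
  · rw [← ker]
    exact PG.exists_sup_zpowers_of_isCyclic_im' pre_le kr_le_pre (e.symm ▸ T.fit_cyc)
  · intro z hz v hv c
    refine (T.fit_semi ((mem_pre' (DY (le hz))).1 hz) (mem_im_of_mem (VY hv) hv)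
      (Commute.map (M := ↥(V ⊔ D)) (Subtype.ext c.eq) f)).imp (fun e => ?_) (inj v hv)
    exact (ker ▸ (mem_kr' _).2 e : z ∈ D ⊓ C[V]).2
  · intro d hd c
    refine (mem_pre' (DY hd)).2 (T.fit_cent ⟨mem_im_of_mem _ hd, fun z hz => ?_⟩)
    rw [← e] at hz
    obtain ⟨z, hz', hz0, rfl⟩ := mem_im.1 hz
    have := c z hz0
    rw [← ker, mem_kr' (kr_le this)] at this
    refine Eq.symm (commutatorElement_eq_one_iff_mul_comm.1 ?_)
    rw [← map_commutatorElement]; exact this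
  · intro M hM n c
    rw [← im_le_iff (hM.trans DY)]
    refine comm_le_fittingOf (im_mono hM) (im_norm n) (isMulCommutative_iff_le_cent.2 ?_)
    rwa [im_le_cent_iff (hM.trans DY) (hM.trans DY), ker]

variable (h : Tw2 G Ω) (fa : Fa G Ω)

/-- the involutions of `G_c` with the identity -/
def A (c : Ω) : Subgroup G where
  carrier := {x | x * x = 1 ∧ x • c = c}
  one_mem' := ⟨one_mul 1, one_smul _ _⟩
  inv_mem' := fun {x} hx => by rwa [inv_eq_of_mul_eq_one_right hx.1]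
  mul_mem' := fun {x y} hx hy => ⟨by
    by_cases x1 : x = 1
    · rw [x1, one_mul, hy.1]
    by_cases y1 : y = 1
    · rw [y1, mul_one, hx.1]
    rw [mul_assoc, ← mul_assoc y, ← comm h fa (ord2 hx.1 x1) (ord2 hy.1 y1) hx.2 hy.2, mul_assoc, hy.1,
      mul_one, hx.1], by rw [mul_smul, hy.2, hx.2]⟩

local notation3 "𝐀" => A h fa
local notation3 "𝐃" => stabilizer G a ⊓ stabilizer G b

theorem memA : x ∈ 𝐀 c ↔ x * x = 1 ∧ x • c = c := Iff.rfl

theorem memA2 (o : orderOf x = 2) (e : x • c = c) : x ∈ 𝐀 c := ⟨sq1 o, e⟩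

theorem nA : stabilizer G c ≤ N[𝐀 c] := fun g hg =>
  mem_normalizer_of_conj_le (conj_le_iff_forall.2 fun x hx =>
    ⟨sq_conj hx.1 g, by have := cj_fix hx.2 g; rwa [show g • c = c from hg] at this⟩)

theorem pA : IsPGroup 2 (𝐀 c) := fun v => ⟨1, Subtype.ext (by simpa [pow_two] using v.2.1)⟩

theorem RA : O[stabilizer G c] ≤ C[𝐀 c] := fun r hr x hx => by
  by_cases x1 : x = 1
  · rw [x1, one_mul, mul_one]
  exact (mem_cent1.1 (R_le h fa (ord2 hx.1 x1) hx.2 hr)).symm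

include h

theorem two_inv (c : Ω) : ∃ s s' : G, orderOf s = 2 ∧ orderOf s' = 2 ∧ s ≠ s' ∧ s * s' = s' * s ∧
    s • c = c ∧ s' • c = c := by
  obtain ⟨s, s', o, o', ne, cm⟩ := h.ac.rk
  obtain ⟨e, he, -⟩ := h.ac.fix s o
  obtain ⟨g, rfl⟩ := h.ac.tr e c
  refine ⟨_, _, ord2_conj o g, ord2_conj o' g, fun e => ne (by simpa using e), ?_, cj_fix he g,
    cj_fix (comm_fix h.toTw1 o he cm.symm) g⟩
  calc _ = g * (s * s') * g⁻¹ := by group
    _ = _ := by rw [cm]; group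

include fa

theorem exS (c : Ω) : ∃ S : Subgroup G, IsPiHallOf {2} S ⊤ ∧ nI S + 1 = Nat.card (𝐀 c) := by
  classical
  obtain ⟨S, hS, le⟩ := exists_syl_ge Nat.prime_two (pA h fa (c := c)) le_top
  obtain ⟨s, -, o, -, -, -, sc, -⟩ := two_inv h c
  have p2 := syl_isPGroup Nat.prime_two hS
  have hs := le (memA2 h fa o sc)
  obtain ⟨z, hz, oz⟩ := exists_mem_orderOf_eq Nat.prime_two (prime_dvd_card_of_isPGroup Nat.prime_two
    (p2.to_le inf_le_left) (inf_cent_ne_bot_of_isPGroup Nat.prime_two p2 p2 le_normalizer (ne_bot_of_mem hs (ne1 o))))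
  have zc : z • c = c := comm_fix h.toTw1 o sc (hz.2 s hs).symm
  refine ⟨S, hS, ?_⟩
  rw [← Nat.card_congr (Equiv.optionSubtypeNe (1 : 𝐀 c)), Finite.card_option]
  congr 1
  exact Nat.card_congr ⟨fun x => ⟨⟨x.1, memA2 h fa x.2.2 (comm_fix h.toTw1 oz zc (hz.2 _ x.2.1))⟩,
    fun e => ne1 x.2.2 (congrArg Subtype.val e)⟩,
    fun x => ⟨x.1.1, le x.1.2, ord2 x.1.2.1 fun e => x.2 (Subtype.ext e)⟩, fun _ => rfl, fun _ => rfl⟩

/-- free lemma -/
theorem fixl (ne : a ≠ b) (hl : l.Prime) (hP : IsPGroup l P) (hD : P ≤ 𝐃) (e : 𝐀 a ⊓ C[P] = ⊥)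
    (hc : P ≤ stabilizer G c) : c = a ∨ c = b := by
  have := Fact.mk hl
  refine or_iff_not_imp_left.2 fun ca => ?_
  obtain ⟨S, hS, cd⟩ := exS h fa a
  have m := PG.card_modEq_card_inf_cent hP ((hD.trans inf_le_left).trans (nA h fa))
  rw [e, card_bot, ← cd] at m
  refine h.free a S P l hS hl (by simpa using (Nat.modEq_iff_dvd' (Nat.le_add_left 1 _)).1 m.symm) hP
    (hD.trans inf_le_left) (fun v hv o e' => ?_) c b ca ne.symm hc (hD.trans inf_le_right)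
  have vA := memA2 h fa o hv
  refine ne1 o (mem_bot.1 (e ▸ ⟨vA, fun x hx => ?_⟩))
  have := eq1_of_odd (odd_ord (O_odd _) (e' x hx))
    (mul_mem (conj_mem_of_le_norm (nA h fa) (hD hx).1 vA) (inv_mem vA)).1
  exact commutatorElement_eq_one_iff_mul_comm.1 this

theorem trD (ne : a ≠ b) (ht : orderOf t = 2) (ta : t • a = b) (tb : t • b = a) :
    ∀ v ∈ 𝐀 a, ∀ w ∈ 𝐀 a, v ≠ 1 → w ≠ 1 → ∃ k ∈ 𝐃, k * v * k⁻¹ = w := fun v hv w hw v1 w1 =>
  let ⟨k, ⟨k1, k2, _, k4⟩, _⟩ := h.kk a b t v w ne ht ta tb (ord2 hv.1 v1) (ord2 hw.1 w1) hv.2 hw.2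
  ⟨k, ⟨k1, k2⟩, k4⟩

/-- (B) -/
theorem wle (ne : a ≠ b) (ht : orderOf t = 2) (ta : t • a = b) (tb : t • b = a) :
    𝐃 ⊓ C[𝐀 b] ≤ C[𝐀 a] := by
  intro w hw s hs
  by_contra e
  have s1 : s ≠ 1 := fun e' => e (by rw [e', one_mul, mul_one])
  have n : 𝐃 ≤ N[𝐃 ⊓ C[𝐀 b]] := le_norm_inf le_normalizer (le_norm_cent (inf_le_right.trans (nA h fa)))
  obtain ⟨l, hl, dv⟩ := Nat.exists_prime_and_dvd (n := (C1[s]).relIndex (𝐃 ⊓ C[𝐀 b])) fun e' =>
    e (mem_cent1.1 (relIndex_eq_one.1 e' hw)).symm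
  obtain ⟨P, hP⟩ := exists_syl hl (𝐃 ⊓ C[𝐀 b])
  have PD := hP.le.trans inf_le_left
  have e0 : 𝐀 a ⊓ C[P] = ⊥ := eq_bot_iff.2 fun v hv => by
    by_contra v1
    obtain ⟨k, hk, rfl⟩ := trD h fa ne ht ta tb s hs v hv.1 s1 v1
    rw [← relIndex_conj k, conj_cent1, conj_eq_self (n hk)] at dv
    exact syl_not_dvd hl hP (dv.trans (relIndex_dvd_of_le_left _ fun x hx => mem_cent1.2 (hv.2 x hx)))
  obtain ⟨v, -, o, -, -, -, vb, -⟩ := two_inv h b
  have : P ≤ stabilizer G (v • a) := sb_fixN (PD.trans inf_le_left)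
    (le_norm_of_cent (le_cent_symm (hP.le.trans inf_le_right)) (memA2 h fa o vb))
  rcases fixl h fa ne hl (syl_isPGroup hl hP) PD e0 this with e | e
  · exact ne (uniq h.toTw1 o e vb)
  · exact ne (smul_left_cancel v (e.trans vb.symm))

theorem wle' (ne : a ≠ b) (ht : orderOf t = 2) (ta : t • a = b) (tb : t • b = a) :
    𝐃 ⊓ C[𝐀 a] ≤ C[𝐀 b] := by
  rw [inf_comm (stabilizer G a)]; exact wle h fa ne.symm ht tb ta

/-- a swapper lies in the group generated by `A_a` and `A_b` -/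
theorem sw_mem (ne : a ≠ b) (ht : orderOf t = 2) (ta : t • a = b) (tb : t • b = a) : t ∈ 𝐀 a ⊔ 𝐀 b := by
  obtain ⟨s, -, o, -, -, -, sa, -⟩ := two_inv h a
  have sb := cj_fix sa t
  rw [ta] at sb
  obtain ⟨-, u, hu, ou, e, ua, ub⟩ := h.mid a b s _ ne o (ord2_conj o t) sa sb
  have : t * u = 1 := (h.kk a b t s s ne ht ta tb o o sa sa).unique
    ⟨by rw [mul_smul, ua, tb], by rw [mul_smul, ub, ta], by
      rw [← mul_assoc, sq1 ht, one_mul, mul_inv_rev, inv2 ht, inv2 ou], by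
      rw [mul_inv_rev, inv2 ou, show t * u * s * (u * t⁻¹) = t * (u * s * u) * t⁻¹ by group, e, ← inv2 ht]
      rw [inv_inv, inv2 ht, ← mul_assoc, ← mul_assoc, sq1 ht, one_mul, mul_assoc, sq1 ht, mul_one]⟩
    ⟨one_smul _ _, one_smul _ _, by rw [mul_one, sq1 ht, inv_one], by group⟩
  rw [eq_inv_of_mul_eq_one_left this, inv2 ou]
  exact sup_le_sup (zpowers_le.2 (memA2 h fa o sa)) (zpowers_le.2 (memA2 h fa (ord2_conj o t) sb)) hu

theorem W_t (ne : a ≠ b) (ht : orderOf t = 2) (ta : t • a = b) (tb : t • b = a) : 𝐃 ⊓ C[𝐀 a] ≤ C1[t] := by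
  have : 𝐀 a ⊔ 𝐀 b ≤ C[𝐃 ⊓ C[𝐀 a]] := sup_le (le_cent_symm inf_le_right) (le_cent_symm (wle' h fa ne ht ta tb))
  exact fun w hw => mem_cent1.2 (this (sw_mem h fa ne ht ta tb) w hw)

theorem W_k (ne : a ≠ b) (ht : orderOf t = 2) (ta : t • a = b) (tb : t • b = a) (hk : k ∈ 𝐃)
    (e : t * k * t = k⁻¹) : 𝐃 ⊓ C[𝐀 a] ≤ C1[k] := by
  intro w hw
  have ka : (t * k) • a = b := by rw [mul_smul, hk.1, ta]
  have h1 := mem_cent1.1 (W_t h fa ne (t := t * k) (ord2 (by rw [← mul_assoc, e, inv_mul_cancel])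
    fun e' => ne (by rw [← ka, e', one_smul])) ka (by rw [mul_smul, hk.2, tb]) hw)
  rw [← mul_assoc, mem_cent1.1 (W_t h fa ne ht ta tb hw), mul_assoc, mul_assoc, mul_right_inj] at h1
  exact mem_cent1.2 h1

/-- (C) -/
theorem semi (sub : PSub.{u}) (ih : IH2.{u} (Nat.card G)) (hy : y ∈ fittingOf O[stabilizer G a]) (y1 : y ≠ 1)
    (yb : y • b = b) : b = a := by
  by_contra ne
  have Fa : fittingOf O[stabilizer G a] ≤ stabilizer G a := (fittingOf_le _).trans (O_le _)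
  have nF : stabilizer G a ≤ N[fittingOf O[stabilizer G a]] := le_norm_fittingOf (O_norm _)
  obtain ⟨s, s', o, o', ss, cm, sa, sa'⟩ := two_inv h a
  obtain ⟨v, -, ov, -, -, -, vb, -⟩ := two_inv h b
  obtain ⟨-, t, -, ht, -, ta, tb⟩ := h.mid a b s v (Ne.symm ne) o ov sa vb
  obtain ⟨U, hU⟩ : ∃ U, U = fittingOf O[stabilizer G a] ⊓ stabilizer G b := ⟨_, rfl⟩
  have UF : U ≤ fittingOf O[stabilizer G a] := hU ▸ inf_le_left
  have UW : U ≤ 𝐃 ⊓ C[𝐀 a] := le_inf (hU ▸ inf_le_inf_right _ Fa) ((UF.trans (fittingOf_le _)).trans (RA h fa))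
  have U1 : U ≠ ⊥ := ne_bot_of_mem (hU ▸ ⟨hy, yb⟩) y1
  have na : 𝐀 a ≤ N[U] := le_norm_of_cent (le_cent_symm (UW.trans inf_le_right))
  have nb : 𝐀 b ≤ N[U] := le_norm_of_cent (le_cent_symm (UW.trans (wle' h fa (Ne.symm ne) ht ta tb)))
  have nt := sup_le na nb (sw_mem h fa (Ne.symm ne) ht ta tb)
  obtain ⟨-, -, k, -⟩ := sub G Ω h.ac h.cl ih N[U] a s s' (fun e => ne (only h fa (e ▸ le_top) U1 (UF.trans Fa)
    (hU ▸ inf_le_right))) (fun e => ne (ta.symm.trans (e nt))) (na (memA2 h fa o sa)) (na (memA2 h fa o' sa'))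
    o o' ss cm sa
  have k := k t nt
  rw [ta] at k
  have h1 : fittingOf O[stabilizer G a] ⊓ N[U] ≤ U := by
    nth_rw 2 [hU]
    refine le_inf inf_le_left ((le_O (le_inf inf_le_right (inf_le_left.trans Fa))
      (le_norm_inf (inf_le_right.trans nF) (inf_le_left.trans le_normalizer))
      (odd_card_of_le (O_odd _) (inf_le_left.trans (fittingOf_le _)))).trans k)
  have h2 : U = fittingOf O[stabilizer G a] := by
    by_contra e
    exact (lt_inf_norm_of_nilpotent (fittingOf_nilpotent _) (lt_of_le_of_ne UF e)).not_ge h1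
  exact ne (only h fa nF (h2 ▸ U1) Fa (h2 ▸ hU ▸ inf_le_right))

end Cfsg.Agent.SE.PB
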