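import Cfsg.Agent.SE.PB2

/-! Strongly embedded subgroups, PC: basic facts and the steps (1), (2), (4). -/

set_option autoImplicit false
set_option linter.unusedSectionVars false
set_option linter.unusedVariables false

namespace Cfsg.Agent.SE.PC

open Cfsg Subgroup MulAction Cfsg.Agent.GT Cfsg.Agent.Cls Cfsg.Agent.GW Cfsg.Agent.WA
open scoped commutatorElement

universe u

variable {G Ω : Type u} [Group G] [Finite G] [MulAction G Ω] {a b c : Ω} {t x y z k g d u v : G}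
  {A K B P Q T X M N L R : Subgroup G} {l p : ℕ}

/-- the fields of `St` without the induction hypothesis -/
structure Sx (a b : Ω) (t : G) (A K : Subgroup G) : Prop where
  tw : Tw2 G Ω
  fa : Fa G Ω
  ne : a ≠ b
  ord : orderOf t = 2
  ta : t • a = b
  tb : t • b = a
  memA : ∀ x, x ∈ A ↔ x = 1 ∨ orderOf x = 2 ∧ x • a = a
  four : 4 ≤ Nat.card A
  memK : ∀ k, k ∈ K ↔ k • a = a ∧ k • b = b ∧ t * k * t = k⁻¹
  cyc : IsCyclic K
  cardK : Nat.card K + 1 = Nat.card A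
  DK : stabilizer G a ⊓ stabilizer G b ≤ N[K]
  fix2 : ∀ k ∈ K, k ≠ 1 → ∀ c : Ω, k • c = c → c = a ∨ c = b
  W0 : stabilizer G a ⊓ stabilizer G b ⊓ C[A] ≤ C[K] ⊓ C1[t]
  semi : ∀ y ∈ fittingOf O[stabilizer G a], y ≠ 1 → ∀ c : Ω, y • c = c → c = a

/-- a 2-subgroup of `C_N(X)` is transitive on the fixed points of `X` other than `a` -/
def Gd (a b : Ω) (N X : Subgroup G) : Prop :=
  ∃ T : Subgroup G, IsPGroup 2 T ∧ T ≤ N ⊓ C[X] ∧ ∀ c, c ≠ a → X ≤ stabilizer G c → ∃ g ∈ T, g • b = c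

def HS1 (a b : Ω) (A : Subgroup G) : Prop := ∀ (l : ℕ) (X : Subgroup G), l.Prime → IsPGroup l X → X ≠ ⊥ →
  X ≤ stabilizer G a ⊓ stabilizer G b → Nat.card ↥(A ⊓ C[X]) ≠ 2 → Gd a b (stabilizer G a ⊓ C[A ⊓ C[X]]) X

def HFU (G : Type u) [Group G] [MulAction G Ω] (a b : Ω) : Prop := ∀ N : Subgroup G, N ≤ stabilizer G a →
  stabilizer G a ≤ N[N] → N ⊓ (stabilizer G a ⊓ stabilizer G b) ≠ ⊥ →
  (∀ (l : ℕ) (X : Subgroup G), l.Prime → IsPGroup l X → X ≠ ⊥ → X ≤ N ⊓ (stabilizer G a ⊓ stabilizer G b) →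
    Gd a b N X) →
  ∃ N', N' < N ∧ stabilizer G a ≤ N[N'] ∧ N ≤ N' ⊔ (N ⊓ (stabilizer G a ⊓ stabilizer G b))

def HNC (G : Type u) [Group G] [MulAction G Ω] (a b : Ω) : Prop := ∀ M : Subgroup G, M ≤ stabilizer G a →
  stabilizer G a ≤ N[M] →
  (∀ N, N ≤ M → stabilizer G a ≤ N[N] → M ≤ N ⊔ (M ⊓ (stabilizer G a ⊓ stabilizer G b)) →
    N ⊓ (stabilizer G a ⊓ stabilizer G b) ≠ ⊥ →
    ∃ N', N' < N ∧ stabilizer G a ≤ N[N'] ∧ N ≤ N' ⊔ (N ⊓ (stabilizer G a ⊓ stabilizer G b))) →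
  ∃ N, N ≤ M ∧ stabilizer G a ≤ N[N] ∧ N ⊓ (stabilizer G a ⊓ stabilizer G b) = ⊥ ∧
    M ≤ N ⊔ (M ⊓ (stabilizer G a ⊓ stabilizer G b)) ∧ Group.IsNilpotent N

theorem two_le (o : Odd (Nat.card L)) (n : M ≤ N[N]) (LM : L ≤ M) (le : M ≤ N ⊔ L) (hT : IsPGroup 2 T)
    (TM : T ≤ M) : T ≤ N := by
  have := Fact.mk Nat.prime_two
  have h1 : N.relIndex T ∣ N.relIndex (L ⊔ N) :=
    relIndex_dvd_of_normal (TM.trans (le.trans (sup_comm _ _).le)) (sup_le (LM.trans n) le_normalizer)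
  rw [relIndex_sup_of_le_norm (LM.trans n)] at h1
  obtain ⟨j, hj⟩ := hT.exists_card_eq
  have h2 := relIndex_dvd_card' N T
  rw [hj] at h2
  exact relIndex_eq_one.1 (Nat.eq_one_of_dvd_coprimes
    ((Nat.coprime_two_left.2 o).pow_left j) h2 (h1.trans (relIndex_dvd_card' N L)))

theorem idx_orb (L : Subgroup G) (b : Ω) : (stabilizer G b).relIndex L = (orbit L b).ncard := by
  rw [← index_stabilizer]; rfl

theorem idx_eq (TL : T ≤ L) (h : ∀ g ∈ L, ∃ x ∈ T, x • b = g • b) :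
    (stabilizer G b).relIndex L = (stabilizer G b).relIndex T := by
  rw [idx_orb, idx_orb]
  congr 1
  ext c
  constructor
  · rintro ⟨g, rfl⟩
    obtain ⟨x, hx, e⟩ := h g g.2
    exact ⟨⟨x, hx⟩, e⟩
  · rintro ⟨g, rfl⟩
    exact ⟨⟨g, TL g.2⟩, rfl⟩

local notation3 "𝐇" => stabilizer G a
local notation3 "𝐃" => stabilizer G a ⊓ stabilizer G b

namespace Sx

variable (S : Sx a b t A K)
include S

theorem eqA : A = PB.A S.tw S.fa a := by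
  ext x
  rw [S.memA, PB.memA]
  constructor
  · rintro (rfl | ⟨o, e⟩)
    exacts [⟨one_mul 1, one_smul _ _⟩, ⟨sq1 o, e⟩]
  · exact fun hx => or_iff_not_imp_left.2 fun x1 => ⟨ord2 hx.1 x1, hx.2⟩

theorem A2 (hx : x ∈ A) : x * x = 1 := (S.eqA ▸ hx : x ∈ PB.A S.tw S.fa a).1
theorem AH : A ≤ 𝐇 := fun x hx => (S.eqA ▸ hx : x ∈ PB.A S.tw S.fa a).2
theorem nA : 𝐇 ≤ N[A] := S.eqA ▸ PB.nA S.tw S.fa
theorem pA : IsPGroup 2 A := S.eqA ▸ PB.pA S.tw S.fa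
theorem o2 (hx : x ∈ A) (x1 : x ≠ 1) : orderOf x = 2 := ord2 (S.A2 hx) x1
theorem inA (o : orderOf x = 2) (e : x • a = a) : x ∈ A := (S.memA x).2 (Or.inr ⟨o, e⟩)
theorem oD : Odd (Nat.card ↥(𝐃)) := S.tw.odd a b S.ne
theorem KD : K ≤ 𝐃 := fun k hk => ⟨((S.memK k).1 hk).1, ((S.memK k).1 hk).2.1⟩
theorem KH : K ≤ 𝐇 := S.KD.trans inf_le_left
theorem A1 : A ≠ ⊥ := fun e => by have := S.four; rw [e, card_bot] at this; omega
theorem K3 : 3 ≤ Nat.card K := by have := S.four; have := S.cardK; omega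

theorem fixl (hl : l.Prime) (hP : IsPGroup l P) (hD : P ≤ 𝐃) (e : A ⊓ C[P] = ⊥) (hc : P ≤ stabilizer G c) :
    c = a ∨ c = b := PB.fixl S.tw S.fa S.ne hl hP hD (S.eqA ▸ e) hc

theorem trK (hu : u ∈ A) (hv : v ∈ A) (u1 : u ≠ 1) (v1 : v ≠ 1) : ∃! k, k ∈ K ∧ k * u * k⁻¹ = v := by
  obtain ⟨k, ⟨k1, k2, k3, k4⟩, un⟩ := S.tw.kk a b t u v S.ne S.ord S.ta S.tb (S.o2 hu u1) (S.o2 hv v1)
    (S.AH hu) (S.AH hv)
  exact ⟨k, ⟨(S.memK k).2 ⟨k1, k2, k3⟩, k4⟩, fun j hj =>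
    un j ⟨((S.memK j).1 hj.1).1, ((S.memK j).1 hj.1).2.1, ((S.memK j).1 hj.1).2.2, hj.2⟩⟩

theorem k1 (hk : k ∈ K) (hu : u ∈ A) (u1 : u ≠ 1) (e : k * u * k⁻¹ = u) : k = 1 :=
  (S.trK hu hu u1 u1).unique ⟨hk, e⟩ ⟨one_mem _, by group⟩

theorem k1' (hk : k ∈ K) (hu : u ∈ A) (e : u * k = k * u) : k = 1 ∨ u = 1 :=
  or_iff_not_imp_right.2 fun u1 => S.k1 hk hu u1 (by rw [← e]; group)

theorem amin (hB : B ≤ A) (n : K ≤ N[B]) (ne : B ≠ ⊥) : B = A := by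
  obtain ⟨u, hu, u1⟩ := exists_ne_one_of_ne_bot ne
  refine le_antisymm hB fun v hv => ?_
  by_cases v1 : v = 1
  · rw [v1]; exact one_mem _
  obtain ⟨k, ⟨hk, rfl⟩, -⟩ := S.trK (hB hu) hv u1 v1
  exact conj_mem_of_le_norm n hk hu

/-- an element of `G_a` commuting with `k ∈ K^#` lies in `D` -/
theorem cK (hk : k ∈ K) (k1 : k ≠ 1) (hx : x ∈ 𝐇) (e : x * k = k * x) : x ∈ 𝐃 := by
  refine ⟨hx, (S.fix2 k hk k1 (x • b) ?_).resolve_left fun e' => S.ne ?_⟩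
  · rw [← mul_smul, ← e, mul_smul, show k • b = b from (S.KD hk).2]
  · exact (smul_left_cancel x ((show x • a = a from hx).trans e'.symm))

theorem mv (hg : g ∈ 𝐇) : g • b ≠ a := fun e =>
  S.ne (smul_left_cancel g ((show g • a = a from hg).trans e.symm))

theorem nC : 𝐇 ≤ N[𝐇 ⊓ C[A]] := le_norm_inf le_normalizer (le_norm_cent S.nA)

/-- step (1) -/
theorem step1 (s1 : HS1 a b A) (fu : HFU G a b) (nc : HNC G a b) :
    ∃ Q, Q ≤ 𝐇 ⊓ C[A] ∧ 𝐇 ≤ N[Q] ∧ Q ⊓ (𝐃) = ⊥ ∧ 𝐇 ⊓ C[A] ≤ Q ⊔ (𝐇 ⊓ C[A] ⊓ (𝐃)) ∧ Group.IsNilpotent Q := by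
  refine nc _ inf_le_left S.nC fun N NM n le ne => fu N (NM.trans inf_le_left) n ne fun l X hl hX X1 XN => ?_
  have e : A ⊓ C[X] = A := inf_eq_left.2 (le_cent_symm (XN.trans (inf_le_left.trans (NM.trans inf_le_right))))
  obtain ⟨T, hT, le', tr⟩ := s1 l X hl hX X1 (XN.trans inf_le_right) (by rw [e]; have := S.four; omega)
  rw [e] at le'
  exact ⟨T, hT, le_inf (two_le (odd_card_of_le S.oD inf_le_right) (inf_le_left.trans n) inf_le_left le hT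
    (le'.trans inf_le_left)) (le'.trans inf_le_right), tr⟩

/-- step (2) -/
theorem step2 (s1 : HS1 a b A) (W : 𝐃 ⊓ C[A] ≠ ⊥) : 𝐇 ≤ (𝐇 ⊓ C[A]) ⊔ 𝐃 := by
  obtain ⟨r, hr, dv⟩ := Nat.exists_prime_and_dvd (fun e => W (card_eq_one.1 e))
  obtain ⟨P, hP⟩ := exists_syl hr (𝐃 ⊓ C[A])
  have pP := syl_isPGroup hr hP
  have e : A ⊓ C[P] = A := inf_eq_left.2 (le_cent_symm (hP.le.trans inf_le_right))
  have PD : P ≤ 𝐃 := hP.le.trans inf_le_left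
  obtain ⟨T, hT, le, tr⟩ := s1 r P hr pP ((syl_ne_bot_iff hr hP).2 dv) PD (by rw [e]; have := S.four; omega)
  rw [e] at le
  have key : ∀ g ∈ 𝐇 ⊓ N[P], ∃ x ∈ T, x • b = g • b := fun g hg =>
    tr _ (S.mv hg.1) (sb_fixN (PD.trans inf_le_right) hg.2)
  have r2 : r ≠ 2 := by
    rintro rfl
    exact (Nat.not_even_iff_odd.2 (odd_card_of_le S.oD inf_le_left)) (even_iff_two_dvd.2 dv)
  have hC : IsPiHallOf {r} P (𝐇 ⊓ C[A]) := by
    have PL : P ≤ 𝐇 ⊓ C[A] ⊓ N[P] :=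
      le_inf (le_inf (PD.trans inf_le_left) (hP.le.trans inf_le_right)) le_normalizer
    refine syl_of_syl_norm hr (syl_trans hr (K := stabilizer G b ⊓ (𝐇 ⊓ C[A] ⊓ N[P]))
      (syl_of_le hP (le_inf (PD.trans inf_le_right) PL) fun x hx => ⟨⟨hx.2.1.1, hx.1⟩, hx.2.1.2⟩) inf_le_right ?_)
    rw [inf_relIndex_right, idx_eq (T := T)
      (le_inf (le.trans inf_le_left) (le.trans (inf_le_right.trans (cent_le_norm _))))
      fun g hg => key g ⟨hg.1.1, hg.2⟩]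
    have := Fact.mk Nat.prime_two
    obtain ⟨j, hj⟩ := hT.exists_card_eq
    intro h
    have := h.trans (relIndex_dvd_card' _ T)
    rw [hj] at this
    exact r2 ((Nat.prime_dvd_prime_iff_eq hr Nat.prime_two).1 (hr.dvd_of_dvd_pow this))
  rw [← frattini_arg hr hC inf_le_left S.nC]
  refine sup_le (fun x hx => ?_) fun g hg => ?_
  · rw [frattini_arg hr hC inf_le_left S.nC]; exact mem_sup_left hx
  rw [frattini_arg hr hC inf_le_left S.nC]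
  obtain ⟨x, hx, e⟩ := key g hg
  rw [← mul_inv_cancel_left x g]
  have xH : x ∈ 𝐇 := (le hx).1.1
  have gH : g ∈ 𝐇 := hg.1
  refine mul_mem (mem_sup_left (le hx).1) (mem_sup_right (mem_inf.2 ⟨mul_mem (inv_mem xH) gH, ?_⟩))
  rw [mem_stabilizer_iff, mul_smul, ← e, inv_smul_smul]

/-- step (4) -/
theorem step4 (pk : ∀ h ∈ 𝐇, ∀ u ∈ A, h * (h * u * h⁻¹) * h⁻¹ = u → h * u * h⁻¹ = u) :
    𝐇 ≤ (𝐇 ⊓ C[A]) ⊔ 𝐃 := by
  obtain ⟨Y, _, _, f, sf, ker⟩ := exists_quo' 𝐇 (𝐇 ⊓ C[A]) inf_le_left S.nC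
  have oY : Odd (Nat.card (⊤ : Subgroup Y)) := sb_odd fun y _ o => by
    obtain ⟨h, rfl⟩ := sf y
    have h2 : (h : G) * h ∈ kr f := (mem_kr' (mul_mem h.2 h.2)).2 ((map_mul f h h).trans (sq1 o))
    rw [ker] at h2
    refine ne1 o ((mem_kr' h.2).1 (ker ▸ ⟨h.2, fun u hu => ?_⟩))
    have := pk h h.2 u hu (by
      rw [show (h : G) * (h * u * (h : G)⁻¹) * (h : G)⁻¹ = (h * h) * u * (h * h : G)⁻¹ by group, ← h2.2 u hu]; group)
    nth_rw 1 [← this]; group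
  by_cases tb : (⊤ : Subgroup Y) = ⊥
  · intro x hx
    exact mem_sup_left (ker ▸ (mem_kr' hx).2 (mem_bot.1 (tb ▸ mem_top _)))
  obtain ⟨l, hl, ne⟩ := exists_piCoreOf_single_ne_bot (solv_odd oY) tb
  have := Fact.mk hl
  obtain ⟨M, hM⟩ : ∃ M, M = pre f (piCoreOf {l} ⊤) := ⟨_, rfl⟩
  have MH : M ≤ 𝐇 := hM ▸ pre_le
  have nM : 𝐇 ≤ N[M] := hM ▸ dom_le_norm_pre (le_top.trans (self_le_norm_piCoreOf _ _))
  have iM : im f M = piCoreOf {l} ⊤ := hM ▸ im_pre_of_surj sf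
  have sup : ∀ P, IsPiHallOf {l} P M → M ≤ P ⊔ (𝐇 ⊓ C[A]) := fun P hP => by
    rw [← ker, ← im_le_im_iff MH (hP.le.trans MH)]
    exact ((hP.im MH).eq_self (iM ▸ piCoreOf_isPi _ _)).ge
  have cM : A ⊓ C[M] = ⊥ := by
    by_contra e
    have := S.amin inf_le_left (S.KH.trans (le_norm_inf S.nA (le_norm_cent nM))) e
    exact ne (iM ▸ im_eq_bot_of_le (ker ▸ le_inf MH (le_cent_symm (inf_eq_left.1 this))))
  have cP : ∀ P, IsPiHallOf {l} P M → A ⊓ C[P] = ⊥ := fun P hP => by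
    rw [eq_bot_iff, ← cM]
    refine le_inf inf_le_left (le_cent_symm ((sup P hP).trans (sup_le (le_cent_symm inf_le_right)
      (inf_le_right.trans (cent_anti inf_le_left)))))
  obtain ⟨P, hP⟩ := exists_syl hl M
  obtain ⟨S2, hS, cd⟩ := PB.exS S.tw S.fa a
  have m := PG.card_modEq_card_inf_cent (syl_isPGroup hl hP) ((hP.le.trans MH).trans S.nA)
  rw [cP P hP, card_bot, S.eqA, ← cd] at m
  obtain ⟨P0, h0⟩ := exists_syl hl (𝐃)
  obtain ⟨-, h1⟩ := S.tw.syl a b S2 P0 l S.ne hS hl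
    (by simpa using (Nat.modEq_iff_dvd' (Nat.le_add_left 1 _)).1 m.symm) h0
  obtain ⟨g, hg, le⟩ := syl_exists_conj_le hl h1 (syl_isPGroup hl hP) (hP.le.trans MH)
  have hP' := syl_conj_mem hP (nM hg)
  have PD := le.trans h0.le
  generalize cj[g] P = P' at hP' PD
  intro x hx
  rw [← frattini_arg hl hP' MH nM] at hx
  refine (sup_le ((sup P' hP').trans (sup_le (PD.trans le_sup_right) le_sup_left)) (fun y hy => mem_sup_right ?_)) hx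
  exact ⟨hy.1, (S.fixl hl (syl_isPGroup hl hP') PD (cP P' hP') (sb_fixN (PD.trans inf_le_right) hy.2)).resolve_left
    (S.mv hy.1)⟩

end Sx

end Cfsg.Agent.SE.PC
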