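import Cfsg.Agent.SE.PC1
import Cfsg.Agent.SE.GV
import Cfsg.Agent.PF.S09a

/-! Strongly embedded subgroups, PC: the regular normal subgroup is a 2-group. -/

set_option autoImplicit false
set_option linter.unusedSectionVars false
set_option linter.unusedVariables false

namespace Cfsg.Agent.SE.PC

open Cfsg Subgroup MulAction Cfsg.Agent.GT Cfsg.Agent.Cls Cfsg.Agent.GW Cfsg.Agent.WA
open scoped commutatorElement

universe u

variable {G Ω : Type u} [Group G] [Finite G] [MulAction G Ω] {a b c : Ω} {t x y z k g d u v f : G}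
  {A K B P Q T X Y M N L R : Subgroup G} {l p : ℕ}

theorem wl0 (hn : R ≤ N[K]) (reg : Semiregular K R) (hL : K ⊔ R ≤ N[A]) (o : Odd (Nat.card ↥(K ⊔ R)))
    (p2 : IsPGroup 2 A) (c : A ⊓ C[K] = ⊥) : Nat.card A = Nat.card ↥(A ⊓ C[R]) ^ Nat.card R := by
  have := Fact.mk Nat.prime_two
  obtain ⟨j, hj⟩ := p2.exists_card_eq
  have h := BG.semiregular_Wielandt hn reg hL (hj ▸ (Nat.coprime_two_left.2 o).pow_left j)
    (solvable_of_isPGroup Nat.prime_two p2)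
  rwa [c, le_bot_iff.1 ((inf_le_inf_left A (cent_anti le_sup_left)).trans c.le), card_bot,
    one_pow, one_mul, mul_one] at h

theorem norm_inf (hw : v * d * v⁻¹ * d⁻¹ ∈ C[Y]) (n : d ∈ N[Y]) : zpowers d ≤ N[Y ⊓ C1[v]] := by
  refine zpowers_le.2 (mem_normalizer_of_conj_le (conj_le_iff_forall.2 fun y hy => ?_))
  have hz := conj_mem_of_mem_norm n hy.1
  refine ⟨hz, mem_cent1.2 ?_⟩
  have e1 := mem_cent1.1 hy.2
  have e2 := hw _ hz
  calc d * y * d⁻¹ * v = (d * y * d⁻¹ * (v * d * v⁻¹ * d⁻¹)) * (d * v * d⁻¹) := by group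
    _ = v * (d * (v⁻¹ * (y * v)) * d⁻¹) := by rw [e2]; group
    _ = _ := by rw [e1]; group

local notation3 "𝐇" => stabilizer G a
local notation3 "𝐃" => stabilizer G a ⊓ stabilizer G b

/-- `G_a = Q ⋊ D` with `Q` nilpotent -/
structure Qd (a b : Ω) (Q : Subgroup G) : Prop where
  le : Q ≤ stabilizer G a
  nm : stabilizer G a ≤ N[Q]
  inf : Q ⊓ (stabilizer G a ⊓ stabilizer G b) = ⊥
  sup : stabilizer G a ≤ Q ⊔ (stabilizer G a ⊓ stabilizer G b)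
  nil : Group.IsNilpotent Q

namespace Sx

variable (S : Sx a b t A K)
include S

theorem exQ (s1 : HS1 a b A) (fu : HFU G a b) (nc : HNC G a b) (h : 𝐇 ≤ (𝐇 ⊓ C[A]) ⊔ 𝐃) : ∃ Q : Subgroup G, Qd a b Q := by
  obtain ⟨Q, h1, h2, h3, h4, h5⟩ := S.step1 s1 fu nc
  exact ⟨Q, h1.trans inf_le_left, h2, h3,
    h.trans (sup_le (h4.trans (sup_le_sup_left inf_le_right _)) le_sup_right), h5⟩

theorem WA (hu : u ∈ A) (u1 : u ≠ 1) (hx : x ∈ C[K]) (e : x ∈ C1[u]) : x ∈ C[A] := fun y hy => by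
  by_cases y1 : y = 1
  · rw [y1, one_mul, mul_one]
  obtain ⟨k, ⟨hk, rfl⟩, -⟩ := S.trK hu hy u1 y1
  have e1 := hx k hk
  have e2 := hx _ (inv_mem hk)
  rw [mul_assoc, e2, ← mul_assoc, mul_assoc k, ← mem_cent1.1 e, ← mul_assoc, e1]; group

theorem AK (hB : B ≤ A) (hR : R ≤ K) (ne : R ≠ ⊥) : B ⊓ C[R] = ⊥ := by
  obtain ⟨k, hk, k1⟩ := exists_ne_one_of_ne_bot ne
  exact eq_bot_iff.2 fun u hu => mem_bot.2 ((S.k1' (hR hk) (hB hu.1) (hu.2 k hk).symm).resolve_left k1)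

theorem AD : A ⊓ (𝐃) = ⊥ := eq_bot_iff.2 fun x hx => mem_bot.2 (eq1_of_odd (odd_ord S.oD hx.2) (S.A2 hx.1))

/-- the stabiliser of `u` in `D` acts fixed point freely on `K` modulo `W0` -/
theorem fpV (hd : d ∈ 𝐃) (pd : (orderOf d).Prime) (hu : u ∈ A) (u1 : u ≠ 1) (e : A ⊓ C[zpowers d] = zpowers u)
    (hv : v ∈ 𝐃 ⊓ C1[u]) (nv : v ∉ C[A]) : K ⊓ C1[v] = ⊥ := by
  by_contra ne
  have du : d ∈ C1[u] := mem_cent1.2 ((e.ge (mem_zpowers u)).2 d (mem_zpowers d))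
  have wK : v * d * v⁻¹ * d⁻¹ ∈ C[K] :=
    PG.commutator_le_cent_of_isCyclic S.cyc S.DK S.DK (commutator_mem_commutator hv.1 hd)
  have vu : v ∈ C1[u] := hv.2
  have wA := S.WA hu u1 wK (mul_mem (mul_mem (mul_mem vu du) (inv_mem vu)) (inv_mem du))
  have reg : K ⊓ C[zpowers d] = ⊥ := eq_bot_iff.2 fun k hk => by
    have k2 : k ∈ C[zpowers d] := hk.2
    have u2 : u ∈ C[zpowers d] := (e.ge (mem_zpowers u)).2
    have m : k * u * k⁻¹ ∈ zpowers u := e ▸ mem_inf.2 ⟨conj_mem_of_le_norm S.nA (S.KH hk.1) hu,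
      mul_mem (mul_mem k2 u2) (inv_mem k2)⟩
    rcases (TT.mem_zpowers_of_sq (S.A2 hu)).1 m with h | h
    · exact absurd (by simpa using h) u1
    · exact mem_bot.2 (S.k1 hk.1 hu u1 h)
  have cd : (Nat.card (zpowers d)).Prime := by rwa [Nat.card_zpowers]
  have zD : zpowers d ≤ 𝐃 := zpowers_le.2 hd
  have K1 : K ≠ ⊥ := fun e => by have := S.K3; rw [e, card_bot] at this; omega
  have h1 := wl0 (zD.trans S.DK) (semiregular_of_prime cd reg) ((sup_le S.KH (zD.trans inf_le_left)).trans S.nA)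
    (odd_card_of_le S.oD (sup_le S.KD zD)) S.pA (S.AK le_rfl le_rfl K1)
  have h2 := wl0 (A := A ⊓ C1[v]) (norm_inf wK (S.DK hd))
    (semiregular_of_prime cd (eq_bot_iff.2 (reg ▸ inf_le_inf_right _ inf_le_left)))
    (sup_le (le_norm_inf (inf_le_left.trans (S.KH.trans S.nA)) (le_norm_cent1 inf_le_right))
      (norm_inf wA (S.nA hd.1)))
    (odd_card_of_le S.oD (sup_le (inf_le_left.trans S.KD) zD)) (S.pA.to_le inf_le_left)
    (S.AK inf_le_left inf_le_left ne)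
  have e2 : A ⊓ C1[v] ⊓ C[zpowers d] = A ⊓ C[zpowers d] := by
    rw [inf_right_comm, inf_eq_left, e, zpowers_le]
    exact mem_cent1_comm.1 hv.2
  rw [e2, ← h1] at h2
  exact nv (mem_cent_iff_le_cent1.2 (inf_eq_left.1 (eq_of_le_of_card_ge inf_le_left h2.ge)))

/-- Wielandt's formula modulo `W0` -/
theorem pow2 (hd : d ∈ 𝐃) (pd : (orderOf d).Prime) (hu : u ∈ A) (u1 : u ≠ 1) (e : A ⊓ C[zpowers d] = zpowers u) :
    Nat.card A = 2 ^ (𝐃 ⊓ C[A]).relIndex (𝐃 ⊓ C1[u]) := by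
  have VY : A ≤ A ⊔ 𝐃 := le_sup_left
  have DY : 𝐃 ≤ A ⊔ 𝐃 := le_sup_right
  have nD : 𝐃 ≤ N[A] := inf_le_left.trans S.nA
  have du : d ∈ C1[u] := mem_cent1.2 ((e.ge (mem_zpowers u)).2 d (mem_zpowers d))
  obtain ⟨X, _, _, f, -, ker⟩ := exists_quo' (A ⊔ 𝐃) (𝐃 ⊓ C[A]) (inf_le_left.trans DY)
    (sup_le (le_norm_of_cent (le_cent_symm inf_le_right)) (le_norm_inf (le_norm_self le_rfl) (le_norm_cent nD)))
  have i0 : A ⊓ kr f = ⊥ := eq_bot_iff.2 (S.AD ▸ inf_le_inf_left _ (ker ▸ inf_le_left))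
  have key : ∀ Z : Subgroup G, 𝐃 ≤ N[Z] → (hZ : Z ≤ A ⊔ 𝐃) → Z ⊓ kr f = ⊥ → ∀ d (hd : d ∈ 𝐃) v (hv : v ∈ Z),
      Commute (f ⟨d, DY hd⟩) (f ⟨v, hZ hv⟩) → Commute d v := by
    intro Z n hZ i d hd v hv e
    rw [← commutatorElement_eq_one_iff_commute] at e ⊢
    rw [← map_commutatorElement] at e
    have m := mul_mem (conj_mem_of_le_norm n hd hv) (inv_mem hv)
    exact mem_bot.1 (i ▸ ⟨m, (mem_kr' (hZ m)).2 e⟩)
  have K1 : K ≠ ⊥ := fun e => by have := S.K3; rw [e, card_bot] at this; omega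
  have k0 : K ⊓ kr f = ⊥ := eq_bot_iff.2 fun k hk =>
    mem_bot.2 ((S.k1' hk.1 hu ((ker ▸ hk.2 : k ∈ 𝐃 ⊓ C[A]).2 u hu)).resolve_right u1)
  have cen : ∀ R, R ≤ 𝐃 → im f A ⊓ C[im f R] = im f (A ⊓ C[R]) := fun R hR => by
    refine le_antisymm (fun y hy => ?_) im_inf_cent_le
    obtain ⟨y, hy', hy0, rfl⟩ := mem_im.1 hy.1
    exact mem_im_of_mem hy' ⟨hy0, fun r hr =>
      (key A nD VY i0 r (hR hr) y hy0 (hy.2 _ (mem_im_of_mem (DY (hR hr)) hr))).eq⟩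
  have h := wl0 (K := im f K) (R := im f (𝐃 ⊓ C1[u])) (A := im f A) (im_norm (inf_le_left.trans S.DK))
    (fun x hx x1 => eq_bot_iff.2 fun y hy => ?_) (sup_le (im_norm (S.KD.trans nD)) (im_norm (inf_le_left.trans nD)))
    (odd_card_of_le (odd_im S.oD) (sup_le (im_mono S.KD) (im_mono inf_le_left))) (isPGroup_im S.pA)
    (by rw [cen K S.KD, S.AK le_rfl le_rfl K1, im_bot])
  · have e2 : A ⊓ C[𝐃 ⊓ C1[u]] = zpowers u := le_antisymm
      (e ▸ inf_le_inf_left _ (cent_anti (zpowers_le.2 ⟨hd, du⟩)))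
      (zpowers_le.2 ⟨hu, fun x hx => mem_cent1.1 hx.2⟩)
    have zA : zpowers u ≤ A := zpowers_le.2 hu
    rwa [cen _ inf_le_left, e2, card_im_of_inf_eq_bot VY i0, card_im_of_inf_eq_bot (zA.trans VY)
      (eq_bot_iff.2 (i0 ▸ inf_le_inf_right _ zA)), Nat.card_zpowers, S.o2 hu u1, card_im (inf_le_left.trans DY),
      ker] at h
  · obtain ⟨x, hx', hx0, rfl⟩ := mem_im.1 hx
    obtain ⟨y, hy', hy0, rfl⟩ := mem_im.1 hy.1
    have c := key K S.DK (S.KD.trans DY) k0 x hx0.1 y hy0 (mem_cent1.1 hy.2).symm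
    have : y = 1 := mem_bot.1 (S.fpV hd pd hu u1 e hx0 (fun h => x1 ((mem_kr' hx').1 (ker ▸ ⟨hx0.1, h⟩))) ▸
      ⟨hy0, mem_cent1.2 c.eq.symm⟩)
    subst this
    exact mem_bot.2 (map_one f)

variable (q : Qd a b Q)
include q

theorem two (hT : IsPGroup 2 T) (TH : T ≤ 𝐇) : T ≤ Q := two_le S.oD q.nm inf_le_left q.sup hT TH

theorem AQ : A ≤ Q := S.two q S.pA S.AH

theorem QA : Q ≤ C[A] := le_cent_symm (inf_eq_left.1 (S.amin inf_le_left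
  (S.KH.trans (le_norm_inf S.nA (le_norm_cent q.nm)))
  (inf_cent_ne_bot_of_nilpotent q.nil (S.AQ q) (q.le.trans S.nA) S.A1)))

theorem trQ (hc : c ≠ a) : ∃ x ∈ Q, x • b = c := by
  obtain ⟨g, ga, rfl⟩ := S.tw.two a b c S.ne.symm hc
  obtain ⟨x, hx, y, hy, rfl⟩ := (mem_sup_of_le_norm' (inf_le_left.trans q.nm)).1 (q.sup ga)
  exact ⟨x, hx, by rw [mul_smul, show y • b = b from hy.2]⟩

theorem reg (hx : x ∈ Q) (hy : y ∈ Q) (e : x • b = y • b) : x = y := by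
  have m := mul_mem (inv_mem hx) hy
  refine inv_mul_eq_one.1 (mem_bot.1 (q.inf ▸ mem_inf.2 ⟨m, mem_inf.2 ⟨q.le m, ?_⟩⟩))
  rw [mem_stabilizer_iff, mul_smul, ← e, inv_smul_smul]

theorem cardH : Nat.card ↥(𝐇) = Nat.card Q * Nat.card ↥(𝐃) := by
  rw [← card_sup_of_inf_eq_bot (Or.inr (inf_le_left.trans q.nm)) q.inf,
    le_antisymm (sup_le q.le inf_le_left) q.sup]

theorem QK : Semiregular Q K := fun k hk k1 => eq_bot_iff.2 fun y hy =>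
  q.inf ▸ mem_inf.2 ⟨hy.1, S.cK hk k1 (q.le hy.1) (mem_cent1.1 hy.2)⟩

theorem c2 (s1 : HS1 a b A) (hd : d ∈ 𝐃) (pd : (orderOf d).Prime) (hf : f ∈ Q) (o : Odd (orderOf f)) (f1 : f ≠ 1)
    (c : Commute d f) : Nat.card ↥(A ⊓ C[zpowers d]) = 2 := by
  by_contra n
  obtain ⟨T, hT, le, tr⟩ := s1 _ (zpowers d) pd (isPGroup_of_card_eq_prime (Nat.card_zpowers d))
    (zpowers_ne_bot.2 fun e => pd.one_lt.ne' (by rw [e, orderOf_one])) (zpowers_le.2 hd) n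
  obtain ⟨x, hx, e⟩ := tr (f • b) (S.mv (q.le hf)) (zpowers_le.2 (by
    rw [mem_stabilizer_iff, ← mul_smul, c.eq, mul_smul, show d • b = b from hd.2]))
  obtain rfl := S.reg q (S.two q hT (le.trans (inf_le_left.trans inf_le_left)) hx) hf e
  obtain ⟨j, hj⟩ := hT ⟨x, hx⟩
  exact f1 (orderOf_eq_one_iff.1 (Nat.eq_one_of_dvd_coprimes ((Nat.coprime_two_left.2 o).pow_left j)
    (orderOf_dvd_of_pow_eq_one (congrArg Subtype.val hj)) dvd_rfl))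

theorem simple [IsSimpleGroup G] (s1 : HS1 a b A) : piCoreOf ({2} : Set ℕ)ᶜ Q = ⊥ := by
  by_contra ne
  obtain ⟨O, hO⟩ : ∃ O, O = piCoreOf ({2} : Set ℕ)ᶜ Q := ⟨_, rfl⟩
  obtain ⟨P, hP⟩ : ∃ P, P = piCoreOf {2} Q := ⟨_, rfl⟩
  have cQ : Nat.card P * Nat.card O = Nat.card Q := hO ▸ hP ▸ (nil_isComplIn_piCoreOf q.nil {2}).card_mul
  have OQ : O ≤ Q := hO ▸ piCoreOf_le _ _
  have PQ : P ≤ Q := hP ▸ piCoreOf_le _ _
  have oO : Odd (Nat.card O) := hO ▸ odd_iff_pi.1 (piCoreOf_isPi _ _)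
  have nO : 𝐇 ≤ N[O] := hO ▸ le_norm_piCoreOf q.nm
  have pP : IsPGroup 2 P := hP ▸ piCoreOf_isPGroup Nat.prime_two _
  have PO : P ≤ C[O] := hO ▸ nil_le_cent_piCoreOf q.nil PQ
    (by rw [compl_compl]; exact (isPiSubgroup_single_iff Nat.prime_two).2 pP)
  have AP : A ≤ P := hP ▸ nil_le_piCoreOf q.nil (S.AQ q) ((isPiSubgroup_single_iff Nat.prime_two).2 S.pA)
  rw [← hO] at ne
  have nF : 𝐇 ≤ N[O ⊓ C[O]] := le_norm_inf nO (le_norm_cent nO)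
  have big : Nat.card A * (2 * Nat.card A - 1) ≤ (𝐇).index := by
    have h1 : Nat.card Q ≤ (𝐇).index := by
      have e : stabilizer G b ⊓ Q = ⊥ := eq_bot_iff.2 fun x hx => q.inf ▸ mem_inf.2 ⟨hx.2, q.le hx.2, hx.1⟩
      have := card_inf_mul_relIndex (stabilizer G b) Q
      rw [e, card_bot, one_mul, idx_orb] at this
      rw [← this, index_stabilizer]
      exact Set.ncard_le_ncard (fun c _ => S.tw.ac.tr a c) (Finite.finite_mulAction_orbit a)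
    refine le_trans ?_ (cQ ▸ h1)
    refine Nat.mul_le_mul (card_le_of_le AP) ?_
    obtain ⟨m, hm⟩ := PF.semiregular_card_dvd ((S.QK q).mono OQ le_rfl) (S.KH.trans nO)
    have h2 := (one_lt_card_iff_ne_bot O).2 ne
    have oK := odd_card_of_le S.oD S.KD
    have := S.cardK
    rcases m with _ | _ | m
    · omega
    · rw [Nat.odd_iff] at oO oK; omega
    · have : Nat.card K * 2 ≤ Nat.card K * (m + 1 + 1) := Nat.mul_le_mul_left _ (by omega)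
      omega
  have gv := fun (D : Subgroup G) (e : ℕ) (hD : D ≤ 𝐇) => gv_false (H := 𝐇) (A := A) (O := O) (F := O ⊓ C[O]) (P := P)
    (D := D) (e := e)
    (fun z hz o g hg => PB.uniq S.tw.toTw1 (ord2_conj o g) (PB.cj_fix hz g) hg)
    S.AH (fun _ => S.A2) S.nA (fun z hz o => S.inA o hz)
    (fun u hu v hv u1 v1 => let ⟨k, ⟨hk, e⟩, _⟩ := S.trK hu hv u1 v1; ⟨k, S.KH hk, e⟩) S.four
    (OQ.trans (S.QA q)) nO oO (center_ne_bot_of_nilpotent (nil_of_le q.nil OQ) ne) (odd_card_of_le oO inf_le_left)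
    (inf_le_right.trans (cent_anti inf_le_left)) nF pP (PQ.trans q.le) (PO.trans (cent_anti inf_le_left))
    (hD.trans nF)
  have red : ∀ D : Subgroup G, D ≤ 𝐃 → ¬ (∀ d ∈ D, ∀ f ∈ O ⊓ C[O], Commute d f → d = 1 ∨ f = 1) →
      ∃ d ∈ D, (orderOf d).Prime ∧ Nat.card ↥(A ⊓ C[zpowers d]) = 2 := fun D hD h => by
    push Not at h
    obtain ⟨d, hd, f, hf, c, d1, f1⟩ := h
    obtain ⟨p, hp, dv⟩ := exists_prime_dvd_card (H := zpowers d) (zpowers_ne_bot.2 d1)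
    obtain ⟨y, hy, rfl⟩ := exists_mem_orderOf_eq hp dv
    have yD := zpowers_le.2 hd hy
    obtain ⟨n, rfl⟩ := hy
    exact ⟨_, yD, hp, S.c2 q s1 (hD yD) hp (OQ hf.1) (odd_ord oO hf.1) f1 (c.zpow_left n)⟩
  have cH := S.cardH q
  by_cases fp : ∀ d ∈ 𝐃, ∀ f ∈ O ⊓ C[O], Commute d f → d = 1 ∨ f = 1
  · exact gv (𝐃) 1 inf_le_left fp (by rw [cH, ← cQ, mul_one, mul_comm (Nat.card P)]) big (Or.inl rfl)
  obtain ⟨d, hd, pd, c⟩ := red _ le_rfl fp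
  obtain ⟨u, hu, u1⟩ := exists_ne_one_of_ne_bot ((one_lt_card_iff_ne_bot _).1 (c ▸ one_lt_two))
  have e : A ⊓ C[zpowers d] = zpowers u := (eq_of_le_of_card_ge (zpowers_le.2 hu)
    (by rw [c, Nat.card_zpowers, S.o2 hu.1 u1])).symm
  have du : d ∈ C1[u] := mem_cent1.2 (hu.2 d (mem_zpowers d))
  have WV : 𝐃 ⊓ C[A] ≤ 𝐃 ⊓ C1[u] := inf_le_inf_left _ (cent_le_cent1 hu.1)
  have KV : K ⊓ (𝐃 ⊓ C1[u]) = ⊥ := eq_bot_iff.2 fun k hk =>
    mem_bot.2 ((S.k1' hk.1 hu.1 (mem_cent1.1 hk.2.2).symm).resolve_right u1)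
  have cD : Nat.card ↥(𝐃) = Nat.card K * Nat.card ↥(𝐃 ⊓ C1[u]) := by
    rw [← card_sup_of_inf_eq_bot (Or.inr (inf_le_left.trans S.DK)) KV]
    congr 2
    refine le_antisymm (fun x hx => ?_) (sup_le S.KD inf_le_left)
    obtain ⟨k, ⟨hk, e⟩, -⟩ := S.trK hu.1 (conj_mem_of_le_norm S.nA hx.1 hu.1) u1 (by simpa using u1)
    rw [← mul_inv_cancel_left k x]
    refine mul_mem (mem_sup_left hk) (mem_sup_right (mem_inf.2 ⟨mul_mem (inv_mem (S.KD hk)) hx, mem_cent1.2 ?_⟩))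
    rw [show k⁻¹ * x * u = k⁻¹ * (x * u * x⁻¹) * x by group, ← e]; group
  have cV := card_mul_relIndex WV
  have c0 : Nat.card ↥(K ⊔ 𝐃 ⊓ C[A]) = Nat.card K * Nat.card ↥(𝐃 ⊓ C[A]) :=
    card_sup_of_inf_eq_bot (Or.inr (inf_le_left.trans S.DK)) (eq_bot_iff.2 (KV ▸ inf_le_inf_left _ WV))
  have p2 := S.pow2 hd pd hu.1 u1 e
  have e3 : 3 ≤ (𝐃 ⊓ C[A]).relIndex (𝐃 ⊓ C1[u]) := by
    have h1 := (odd_card_of_le S.oD (inf_le_left : 𝐃 ⊓ C1[u] ≤ _)).of_dvd_nat (relIndex_dvd_card' (𝐃 ⊓ C[A]) _)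
    have h2 : (𝐃 ⊓ C[A]).relIndex (𝐃 ⊓ C1[u]) ≠ 1 := fun h => by
      rw [h] at p2; have := S.four; omega
    rw [Nat.odd_iff] at h1; omega
  generalize (𝐃 ⊓ C[A]).relIndex (𝐃 ⊓ C1[u]) = n at cV p2 e3
  have D0 : K ⊔ 𝐃 ⊓ C[A] ≤ 𝐃 := sup_le S.KD inf_le_left
  refine gv (K ⊔ 𝐃 ⊓ C[A]) n (D0.trans inf_le_left) (by_contra fun h => ?_)
    (by rw [cH, ← cQ, cD, ← cV, c0]; exact le_of_eq (by ring)) big (Or.inr ⟨e3, p2, ?_⟩)
  · obtain ⟨y, hy, -, c'⟩ := red _ D0 h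
    obtain ⟨k, hk, w, hw, rfl⟩ := (mem_sup_of_le_norm' (inf_le_left.trans S.DK)).1 hy
    by_cases k1 : k = 1
    · rw [k1, one_mul, inf_eq_left.2 (le_cent_symm (zpowers_le.2 hw.2))] at c'
      have := S.four; omega
    obtain ⟨v, hv, v1⟩ := exists_ne_one_of_ne_bot ((one_lt_card_iff_ne_bot _).1 (c' ▸ one_lt_two))
    have h1 := hv.2 _ (mem_zpowers _)
    rw [mul_assoc, ← hw.2 v hv.1, ← mul_assoc, ← mul_assoc] at h1
    exact (S.k1' hk hv.1 (mul_right_cancel h1).symm).elim k1 v1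
  · have cC : Nat.card ↥(𝐇 ⊓ C[A]) ≤ Nat.card Q * Nat.card ↥(𝐃 ⊓ C[A]) := by
      refine le_trans (card_le_of_le ?_) (Nat.le_of_dvd (Nat.mul_pos (card_pos' _) (card_pos' _))
        (card_sup_dvd (Or.inr (inf_le_left.trans (inf_le_left.trans q.nm)))))
      rw [← dedekind (Or.inr (inf_le_left.trans q.nm)) (S.QA q)]
      exact inf_le_inf_right _ q.sup
    rw [cH, cD, ← cV, ← S.cardK, Nat.add_sub_cancel]
    calc 3 * Nat.card K * Nat.card ↥(𝐇 ⊓ C[A]) ≤ n * Nat.card K * (Nat.card Q * Nat.card ↥(𝐃 ⊓ C[A])) := by gcongr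
      _ = _ := by ring

end Sx

end Cfsg.Agent.SE.PC
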