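import Cfsg.Agent.SE.PC2
import Cfsg.Agent.SE.FU
import Cfsg.Agent.SE.Q3a
import Cfsg.Agent.SE.PA

/-! Strongly embedded subgroups: `PC` from step (3) and the character argument `PK`. -/

set_option autoImplicit false
set_option linter.unusedSectionVars false
set_option linter.unusedVariables false

namespace Cfsg.Agent.SE.PC

open Cfsg Subgroup MulAction Cfsg.Agent.GT Cfsg.Agent.Cls Cfsg.Agent.GW Cfsg.Agent.WA

universe u

variable {G Ω : Type u} [Group G] [Finite G] [MulAction G Ω] {a b c : Ω} {t : G} {A K Q N : Subgroup G}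

local notation3 "𝐇" => stabilizer G a
local notation3 "𝐃" => stabilizer G a ⊓ stabilizer G b

theorem sx (S : St a b t A K) : Sx a b t A K :=
  ⟨S.tw, S.fa, S.ne, S.ord, S.ta, S.tb, S.memA, S.four, S.memK, S.cyc, S.cardK, S.DK, S.fix2, S.W0, S.semi⟩

namespace Sx

variable (S : Sx a b t A K)
include S

theorem two_inv : ∃ s s' : G, orderOf s = 2 ∧ orderOf s' = 2 ∧ s ≠ s' ∧ s * s' = s' * s ∧ s • a = a ∧ s' • a = a :=
  PB.two_inv S.tw a

theorem invN (n : N.Normal) (ne : N ≠ ⊥) {z : G} (o : orderOf z = 2) : z ∈ N := by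
  obtain ⟨s, s', os, os', ss, cm, sa, -⟩ := S.two_inv
  have tp : ∀ g : G, g ∈ N[N] := fun g => (normalizer_eq_top_iff.2 n).ge (mem_top g)
  have ev : Even (Nat.card N) := by
    by_contra h
    refine ne (eq_bot_iff.2 fun x hx => S.fa x fun c => ?_)
    obtain ⟨g, rfl⟩ := S.tw.ac.tr a c
    have := S.tw.four a s s' N os os' ss cm sa (Nat.not_even_iff_odd.1 h) (tp s) (tp s') (n.conj_mem' x hx g)
    rwa [mem_stabilizer_iff, mul_smul, mul_smul, inv_smul_eq_iff] at this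
  obtain ⟨v, hv, ov⟩ := exists_inv ev
  obtain ⟨g, rfl⟩ := isConj_iff.1 (S.tw.cj v z ov o)
  exact n.conj_mem v hv g

variable (q : Qd a b Q)
include q

theorem pQ (ih : IH2.{u} (Nat.card G)) (s1 : HS1 a b A) : IsPGroup 2 Q := by
  by_cases h : IsSimpleGroup G
  · have := nil_piCoreOf_sup_compl q.nil {2}
    rw [S.simple q s1, sup_bot_eq] at this
    exact this ▸ piCoreOf_isPGroup Nat.prime_two _
  obtain ⟨s, s', os, os', ss, cm, sa, -⟩ := S.two_inv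
  have nt : Nontrivial G := ⟨s, s', ss⟩
  obtain ⟨N, n, h1, h2⟩ : ∃ N : Subgroup G, N.Normal ∧ N ≠ ⊥ ∧ N ≠ ⊤ := by
    by_contra k
    exact h ⟨fun N n => by_contra fun e => k ⟨N, n, fun e' => e (Or.inl e'), fun e' => e (Or.inr e')⟩⟩
  have tN := S.invN n h1 S.ord
  obtain ⟨T, hT⟩ := exists_syl Nat.prime_two (N ⊓ 𝐇)
  obtain ⟨-, -, -, -, -, k⟩ := pSub pA1 pA2 G Ω S.tw.ac S.tw.cl ih N a s s' h2
    (fun e => S.ne ((show t • a = a from e tN).symm.trans S.ta)) (S.invN n h1 os) (S.invN n h1 os') os os' ss cm sa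
  have pT := syl_isPGroup Nat.prime_two hT
  refine pT.to_le fun y hy => ?_
  have e : (y * t * y⁻¹) • a = y • b := by
    rw [mul_smul, mul_smul, show y⁻¹ • a = a from inv_mem (q.le hy), S.ta]
  obtain ⟨x, hx, e'⟩ := (k T hT).1 t tN _ (n.conj_mem t tN y) (S.ta ▸ S.ne.symm) (e ▸ S.mv (q.le hy))
  rw [e, S.ta] at e'
  exact S.reg q (S.two q pT (hT.le.trans inf_le_right) hx) hy e' ▸ hx

theorem O_bot (p2 : IsPGroup 2 Q) : O[𝐇] = ⊥ := by
  have hD : IsPiHallOf ({2} : Set ℕ)ᶜ (𝐃) 𝐇 := by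
    refine isPiHallOf_mk inf_le_left (odd_iff_pi.2 S.oD) ?_
    rw [compl_compl, inf_comm, inf_relIndex_right, idx_eq q.le fun g hg => S.trQ q (S.mv hg)]
    exact ((isPiSubgroup_single_iff Nat.prime_two).2 p2).relIndex _
  have le := hD.le_of_norm (O_le _) (piCoreOf_isPi _ _) (Or.inr (inf_le_left.trans (O_norm _)))
  by_contra ne
  obtain ⟨y, hy, y1⟩ := exists_ne_one_of_ne_bot (fittingOf_ne_bot (O_solv _) ne)
  exact S.ne (S.semi y hy y1 b (le (fittingOf_le _ hy)).2).symm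

theorem rg (p2 : IsPGroup 2 Q) : Rg G Ω := by
  intro a' T hT
  obtain ⟨g, rfl⟩ := S.tw.ac.tr a a'
  have h := syl_conj hT g⁻¹
  rw [sb_conj_st, inv_smul_smul] at h
  have e := syl_eq_of_le Nat.prime_two h p2 q.le (S.two q (syl_isPGroup Nat.prime_two h) h.le)
  have m : ∀ x, x ∈ T ↔ g⁻¹ * x * g ∈ Q := fun x => by
    rw [e, mem_conj]; simp only [inv_inv, mul_assoc, mul_inv_cancel, mul_one, mul_inv_cancel_left]
  refine ⟨fun b' c' hb hc => ?_, fun x hx s o sa d => ?_⟩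
  · obtain ⟨x, hx, e1⟩ := S.trQ q (c := g⁻¹ • b') fun e => hb (inv_smul_eq_iff.1 e)
    obtain ⟨y, hy, e2⟩ := S.trQ q (c := g⁻¹ • c') fun e => hc (inv_smul_eq_iff.1 e)
    refine ⟨g * (y * x⁻¹) * g⁻¹, (m _).2 (by simpa [mul_assoc] using mul_mem hy (inv_mem hx)), ?_⟩
    rw [mul_smul, mul_smul, ← e1, mul_smul, inv_smul_smul, e2, smul_inv_smul]
  · have sA : g⁻¹ * s * g ∈ A := S.inA (by simpa using ord2_conj o g⁻¹) (by
      rw [mul_smul, mul_smul, sa, inv_smul_smul])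
    have := S.QA q ((m x).1 hx) _ sA
    congr 1
    calc x * s * x⁻¹ = g * (g⁻¹ * x * g * (g⁻¹ * s * g)) * g⁻¹ * x⁻¹ := by group
      _ = s := by rw [← this]; group

end Sx

/-- step (3) -/
def P3 : Prop := ∀ (G Ω : Type u) [Group G] [Finite G] [MulAction G Ω] (a b : Ω) (t : G) (A K : Subgroup G),
  St a b t A K → stabilizer G a ⊓ stabilizer G b ⊓ C[A] = ⊥ →
  stabilizer G a ≤ (stabilizer G a ⊓ C[A]) ⊔ (stabilizer G a ⊓ stabilizer G b) ∨
    ((∀ d ∈ stabilizer G a ⊓ stabilizer G b, d ∉ K → ∀ k ∈ K, Commute d k → k = 1) ∧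
      ∃ e, Nat.card ↥(stabilizer G a ⊓ stabilizer G b) = Nat.card K * e ∧ Nat.card A = 2 ^ e)

/-- the character argument -/
def PKK : Prop := ∀ (G Ω : Type u) [Group G] [Finite G] [MulAction G Ω] (a b : Ω) (t : G) (A K : Subgroup G),
  St a b t A K → stabilizer G a ⊓ stabilizer G b ⊓ C[A] = ⊥ →
  (∀ d ∈ stabilizer G a ⊓ stabilizer G b, d ∉ K → ∀ k ∈ K, Commute d k → k = 1) →
  (∃ e, Nat.card ↥(stabilizer G a ⊓ stabilizer G b) = Nat.card K * e ∧ Nat.card A = 2 ^ e) →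
  ∀ h ∈ stabilizer G a, ∀ u ∈ A, h * (h * u * h⁻¹) * h⁻¹ = u → h * u * h⁻¹ = u

theorem pC_of (p3 : P3.{u}) (pk : PKK.{u}) : PC.{u} := by
  intro G Ω _ _ _ a b t A K S
  have X := sx S
  have s1 : HS1 a b A := S.s1
  have h : stabilizer G a ≤ (stabilizer G a ⊓ C[A]) ⊔ (stabilizer G a ⊓ stabilizer G b) := by
    by_cases W : stabilizer G a ⊓ stabilizer G b ⊓ C[A] = ⊥
    · exact (p3 G Ω a b t A K S W).elim id fun h => X.step4 (pk G Ω a b t A K S W h.1 h.2)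
    · exact X.step2 s1 W
  obtain ⟨Q, q⟩ := X.exQ s1 (fun N => PB.fu S.tw.toTw1 S.ne) (fun M => S.sd.nc) h
  have p2 := X.pQ q S.ih s1
  exact ⟨X.O_bot q p2, X.rg q p2⟩

end Cfsg.Agent.SE.PC
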