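import Mathlib

/-! Arithmetic for the character argument PK. -/

set_option autoImplicit false

namespace Cfsg.Agent.SE.PK

open Finset

variable {α : Type*}

theorem sq_le {s : Finset α} {m : α → ℤ} (h : ∀ x ∈ s, 1 ≤ m x) :
    ∑ x ∈ s, m x ^ 2 ≤ (∑ x ∈ s, m x) ^ 2 := by
  rw [sq (∑ x ∈ s, m x), sum_mul]
  exact sum_le_sum fun x hx => by
    rw [sq]; exact mul_le_mul_of_nonneg_left (single_le_sum (fun y hy => by linarith [h y hy]) hx) (by linarith [h x hx])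

theorem core {s : Finset α} {m d a j : α → ℤ} {n : ℤ} (h : ∀ x ∈ s, 1 ≤ m x ∧ 1 ≤ d x ∧ 2 * d x = a x + n * j x)
    (hT : ∑ x ∈ s, a x ^ 2 < (n + 2) ^ 2) (n0 : 0 < n) :
    ∃ R U s' M' T' : ℤ, 0 ≤ R ∧ 0 ≤ U ∧ U ≤ ∑ x ∈ s, m x * j x ∧ ∑ x ∈ s, m x ^ 2 ≤ R ^ 2 + M' ∧ M' ≤ U ^ 2 ∧
      Even (∑ x ∈ s, m x ^ 2 - (R + U)) ∧ s' ^ 2 ≤ M' * T' ∧ 2 * R + s' ≤ ∑ x ∈ s, m x * a x ∧ 0 ≤ T' ∧
      (R = 0 ∧ T' ≤ ∑ x ∈ s, a x ^ 2 ∨ 1 ≤ R ∧ T' + 4 ≤ ∑ x ∈ s, a x ^ 2) ∧ R ≤ ∑ x ∈ s, m x * d x := by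
  classical
  have j0 : ∀ x ∈ s, 0 ≤ j x := fun x hx => by
    obtain ⟨-, h2, h3⟩ := h x hx
    have := (single_le_sum (fun y _ => sq_nonneg (a y)) hx).trans_lt hT
    by_contra c
    have : n + 2 ≤ a x := by nlinarith
    nlinarith
  have sp := fun f : α → ℤ => sum_filter_add_sum_filter_not s (fun x => j x = 0) f
  have m1 : ∀ p : α → Prop, ∀ [DecidablePred p], ∀ x ∈ s.filter p, 1 ≤ m x := fun p _ x hx => (h x (mem_filter.1 hx).1).1
  have nn : ∀ p : α → Prop, ∀ [DecidablePred p], 0 ≤ ∑ x ∈ s.filter p, m x := fun p _ =>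
    sum_nonneg fun x hx => by linarith [m1 p x hx]
  refine ⟨∑ x ∈ s with j x = 0, m x, ∑ x ∈ s with ¬ j x = 0, m x, ∑ x ∈ s with ¬ j x = 0, m x * a x,
    ∑ x ∈ s with ¬ j x = 0, m x ^ 2, ∑ x ∈ s with ¬ j x = 0, a x ^ 2, nn _, nn _, ?_, ?_, sq_le (m1 _), ?_,
    sum_mul_sq_le_sq_mul_sq _ _ _, ?_, sum_nonneg fun _ _ => sq_nonneg _, ?_, ?_⟩
  · rw [← sp fun x => m x * j x, sum_eq_zero (s := s.filter fun x => j x = 0) fun x hx => by
      rw [(mem_filter.1 hx).2, mul_zero], zero_add]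
    refine sum_le_sum fun x hx => ?_
    have := m1 _ x hx
    have := (mem_filter.1 hx).2
    have := j0 x (mem_filter.1 hx).1
    have : 1 ≤ j x := by omega
    nlinarith
  · rw [← sp fun x => m x ^ 2]; linarith [sq_le (m1 fun x => j x = 0)]
  · rw [sp, ← sum_sub_distrib]
    exact even_sum _ fun x _ => by rw [show m x ^ 2 - m x = m x * (m x - 1) by ring]; exact Int.even_mul_pred_self _
  · rw [← sp fun x => m x * a x, mul_sum]
    refine add_le_add_left (sum_le_sum fun x hx => ?_) _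
    obtain ⟨h1, h2, h3⟩ := h x (mem_filter.1 hx).1
    rw [(mem_filter.1 hx).2] at h3
    nlinarith
  · rw [← sp fun x => a x ^ 2]
    rcases (s.filter fun x => j x = 0).eq_empty_or_nonempty with e | ⟨x, hx⟩
    · exact .inl ⟨by simp [e], by simp [e]⟩
    · obtain ⟨h1, h2, h3⟩ := h x (mem_filter.1 hx).1
      rw [(mem_filter.1 hx).2] at h3
      have := single_le_sum (f := m) (fun y hy => by linarith [m1 _ y hy]) hx
      have := single_le_sum (f := fun x => a x ^ 2) (fun y _ => sq_nonneg _) hx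
      exact .inr ⟨by linarith, by nlinarith⟩
  · rw [← sp fun x => m x * d x]
    refine le_add_of_le_of_nonneg (sum_le_sum fun x hx => ?_) (sum_nonneg fun x hx => ?_) <;>
      obtain ⟨h1, h2, -⟩ := h x (mem_filter.1 hx).1 <;> nlinarith

/-- numerical hypothesis -/
def Num (e ν : ℤ) : Prop := 1 ≤ e ∧ 1 ≤ ν ∧ ν ≠ 2 ∧ (e ≤ ν + 1 ∨ e = 3 ∧ ν = 1 ∨ e = 5 ∧ ν = 3)

theorem sumj {s : Finset α} {m d a j : α → ℤ} {n : ℤ} (h : ∀ x ∈ s, 1 ≤ m x ∧ 1 ≤ d x ∧ 2 * d x = a x + n * j x) :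
    2 * ∑ x ∈ s, m x * d x = ∑ x ∈ s, m x * a x + n * ∑ x ∈ s, m x * j x := by
  rw [mul_sum, mul_sum, ← sum_add_distrib]
  exact sum_congr rfl fun x hx => by linear_combination m x * (h x hx).2.2

/-- no exceptional constituent -/
theorem zero {s : Finset α} {m d a j : α → ℤ} {e ν : ℤ} (N : Num e ν)
    (h : ∀ x ∈ s, 1 ≤ m x ∧ 1 ≤ d x ∧ 2 * d x = a x + (2 * e * ν + 1) * j x) (aa : ∑ x ∈ s, a x ^ 2 ≤ 2 * e)
    (ma : ∑ x ∈ s, m x * a x = -2) (md : ∑ x ∈ s, m x * d x = 2 * e * ν) (m1 : 2 * ν < ∑ x ∈ s, m x ^ 2)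
    (m2 : ∑ x ∈ s, m x ^ 2 < 4 * ν) : False := by
  obtain ⟨e1, n1, n2, N⟩ := N
  have p : e ≤ e * ν := by nlinarith
  obtain ⟨R, U, s', M', T', h1, h2, h3, h4, h5, ⟨k, h6⟩, h7, h8, h9, h10, -⟩ := core h (by nlinarith) (by nlinarith)
  have := sumj h
  rw [ma, md] at this
  have J : ∑ x ∈ s, m x * j x = 2 := mul_left_cancel₀ (show 2 * e * ν + 1 ≠ 0 by nlinarith) (by linarith)
  rw [J] at h3
  have M4 : M' ≤ 4 := by nlinarith
  rcases h10 with ⟨rfl, -⟩ | ⟨r1, t⟩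
  · have : U = 2 := by
      by_contra c
      have : U ≤ 1 := by omega
      nlinarith
    clear h7 h5 p
    omega
  · have : (2 * R + 2) ^ 2 ≤ s' ^ 2 := by nlinarith
    have : (R + 1) ^ 2 ≤ 2 * e - 4 := by nlinarith
    rcases N with N | ⟨rfl, rfl⟩ | ⟨rfl, rfl⟩
    · nlinarith
    · nlinarith
    · have : R = 1 := by nlinarith
      subst this
      omega

/-- all exceptional characters occur once -/
theorem one {s : Finset α} {m d a j : α → ℤ} {e ν b ε d0 j0 : ℤ} (N : Num e ν) (n1 : ν ≠ 1) (he : ε = 1 ∨ ε = -1)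
    (h : ∀ x ∈ s, 1 ≤ m x ∧ 1 ≤ d x ∧ 2 * d x = a x + (2 * e * ν + 1) * j x)
    (aa : ∑ x ∈ s, a x ^ 2 + (ν - 1) * b ^ 2 + (b - ε) ^ 2 ≤ 2 * e) (d1 : 1 ≤ d0)
    (hd : 2 * d0 = b + 2 * e * ε + (2 * e * ν + 1) * j0)
    (ma : ∑ x ∈ s, m x * a x + (ν * b - ε) = -2) (md : ∑ x ∈ s, m x * d x + ν * d0 = 2 * e * ν)
    (m1 : ν < ∑ x ∈ s, m x ^ 2) : False := by
  obtain ⟨e1, n0, n2, N⟩ := N
  have n3 : 3 ≤ ν := by omega
  have p : 3 * e ≤ e * ν := by nlinarith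
  have a0 : 0 ≤ ∑ x ∈ s, a x ^ 2 := sum_nonneg fun _ _ => sq_nonneg _
  have b0 : 0 ≤ (ν - 1) * b ^ 2 := by positivity
  have b2 : 2 * b ^ 2 ≤ (ν - 1) * b ^ 2 := by nlinarith
  have b1 := sq_nonneg (b - ε)
  obtain ⟨R, U, s', M', T', h1, h2, h3, h4, h5, -, h7, h8, h9, h10, h11⟩ := core h (by nlinarith) (by nlinarith)
  have := sumj h
  have J : ∑ x ∈ s, m x * j x = 2 - ε - ν * j0 := mul_left_cancel₀ (show 2 * e * ν + 1 ≠ 0 by nlinarith) (by
    linear_combination -this + 2 * md - ma - ν * hd)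
  rw [J] at h3
  have e2 : e ≤ 2 * ν := by omega
  clear this J h
  generalize ∑ x ∈ s, a x ^ 2 = A at *
  generalize ∑ x ∈ s, m x * a x = B at *
  generalize ∑ x ∈ s, m x * d x = C at *
  generalize ∑ x ∈ s, m x ^ 2 = M at *
  rcases lt_trichotomy j0 0 with c | rfl | c
  · have := mul_le_mul_of_nonneg_left (show j0 ≤ -1 by omega) (show 0 ≤ 2 * e * ν + 1 by positivity)
    have : 4 * e + 3 ≤ b := by rcases he with rfl | rfl <;> linarith
    have := mul_self_le_mul_self (by linarith) this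
    nlinarith only [this, aa, a0, b1, b2, e1]
  · rcases he with rfl | rfl
    · have U1 : U ≤ 1 := by linarith
      have M1 : M' ≤ 1 := by nlinarith only [U1, h2, h5]
      have R2 : ν ≤ R ^ 2 := by linarith
      rcases h10 with ⟨rfl, -⟩ | ⟨r1, t⟩
      · linarith
      rcases le_or_gt 0 b with c | c
      · have : 0 ≤ ν * b := by positivity
        have := mul_self_le_mul_self (by linarith) (show 2 * R + 1 ≤ -s' by linarith)
        have := mul_le_mul_of_nonneg_right M1 h9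
        nlinarith only [this, ‹(2 * R + 1) * _ ≤ _›, h7, R2, r1, t, aa, b0, b1, e2]
      · have : b ≤ -2 := by omega
        have k : 4 ≤ b ^ 2 := by nlinarith only [this]
        have := mul_le_mul_of_nonneg_left k (show 0 ≤ ν - 1 by linarith)
        nlinarith only [this, k, ‹b ≤ -2›, aa, a0, e2]
    · have : 2 * e + 2 ≤ b := by linarith
      nlinarith only [this, aa, a0, b0, e1]
  · have : ν ≤ ν * j0 := by nlinarith only [c, n0]
    obtain rfl : ν = 3 := by rcases he with rfl | rfl <;> omega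
    obtain rfl : ε = -1 := by rcases he with rfl | rfl <;> omega
    obtain rfl : j0 = 1 := by omega
    obtain rfl : U = 0 := by omega
    have : 2 ≤ R := by nlinarith only [h1, h4, h5, m1]
    have : b ≤ -3 := by omega
    have : e ≤ 5 := by omega
    nlinarith only [this, ‹b ≤ -3›, aa, a0]

end Cfsg.Agent.SE.PK
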