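import Cfsg.Agent.WA.SC0
import Cfsg.Agent.SE.PA
import Cfsg.Agent.SE.PK1

/-! Mackey formula for a doubly transitive group (copy of `WA.Tw.mackey`), and a degree formula. -/

set_option autoImplicit false
set_option linter.unusedSectionVars false
set_option linter.unusedVariables false

namespace Cfsg.Agent.SE.PK

open Cfsg Subgroup MulAction Cfsg.Agent.GT Cfsg.Agent.Cls Cfsg.Agent.GW Cfsg.Agent.Char Cfsg.Agent.B84C Cfsg.Agent.WA
open scoped ComplexConjugate Classical

universe u

variable {G Ω : Type u} [Group G] [MulAction G Ω] {α β : Ω} {t : G}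

/-- double transitivity -/
structure T2 (G Ω : Type u) [Group G] [MulAction G Ω] : Prop where
  tr : ∀ a b : Ω, ∃ g : G, g • a = b
  two : ∀ a b c : Ω, b ≠ a → c ≠ a → ∃ h : G, h • a = a ∧ h • b = c

theorem T2.card_G [Finite G] (h : T2 G Ω) (α : Ω) :
    Nat.card G = Nat.card Ω * Nat.card (stabilizer G α) := by
  haveI : IsPretransitive G Ω := ⟨h.tr⟩
  rw [← index_stabilizer_of_transitive G α, index_mul_card]

theorem T2.index [Finite G] (h : T2 G Ω) (α : Ω) : (stabilizer G α).index = Nat.card Ω := by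
  haveI : IsPretransitive G Ω := ⟨h.tr⟩
  exact index_stabilizer_of_transitive G α

theorem T2.card_H [Finite G] (h : T2 G Ω) (ne : α ≠ β) :
    Nat.card (stabilizer G α) + Nat.card (Dab G α β) = Nat.card Ω * Nat.card (Dab G α β) := by
  haveI : Finite Ω := Finite.of_surjective (fun g : G => g • α) fun b => h.tr α b
  have e : stabilizer (stabilizer G α) β = Dab G α β := by ext; rfl
  have h1 := (stabilizer (stabilizer G α) β).index_mul_card
  rw [index_stabilizer, e] at h1
  have h2 : orbit (stabilizer G α) β = {α}ᶜ := by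
    ext c
    constructor
    · rintro ⟨g, rfl⟩ e
      apply ne
      have := g.2
      rw [mem_stabilizer_iff] at this
      exact smul_left_cancel (g : G) (this.trans (Set.mem_singleton_iff.1 e).symm)
    · intro hc
      obtain ⟨g, h1, h2⟩ := h.two α β c ne.symm hc
      exact ⟨⟨g, h1⟩, h2⟩
  have h3 : (orbit (stabilizer G α) β).ncard + 1 = Nat.card Ω := by
    rw [h2, ← Set.ncard_singleton α, add_comm, Set.ncard_add_ncard_compl]
  rw [← h1, ← h3]; ring

theorem T2.dc (h : T2 G Ω) (ne : α ≠ β) (ta : t • α = β) {x : G} (hx : x ∉ stabilizer G α) :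
    ∃ y z : stabilizer G α, x = y * t * z := by
  obtain ⟨y, h1, h2⟩ := h.two α β (x • α) ne.symm hx
  refine ⟨⟨y, h1⟩, ⟨t⁻¹ * y⁻¹ * x, ?_⟩, by simp [mul_assoc]⟩
  rw [mem_stabilizer_iff, mul_smul, mul_smul, ← h2, inv_smul_smul, ← ta, inv_smul_smul]

variable [Fintype G]

local notation3 "H" => stabilizer G α

theorem T2.mackey (h : T2 G Ω) (ne : α ≠ β) (tt : t * t = 1) (ta : t • α = β) (tb : t • β = α)
    {θ θ' : H → ℂ} (hθ : IsClassFunction _ θ) (hθ' : IsClassFunction _ θ') :
    ⟪indFun _ θ, indFun _ θ'⟫ =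
      ⟪θ, θ'⟫ + ⟪fun d : Dab G α β => θ d, fun d => θ' (cjt tt ta tb d)⟫ := by
  have ti : t⁻¹ = t := inv_eq_of_mul_eq_one_right tt
  have hc : ∀ (z : H) (g : G), extendByZero H θ' ((z : G)⁻¹ * g * z) = extendByZero H θ' g := by
    intro z g
    by_cases hg : g ∈ H
    · rw [extendByZero_of_mem _ _ hg, extendByZero_of_mem _ _ (mul_mem (mul_mem (inv_mem z.2) hg) z.2)]
      exact hθ'.conj' ⟨g, hg⟩ z
    · rw [extendByZero_of_not_mem _ _ hg, extendByZero_of_not_mem]
      intro e
      apply hg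
      have := mul_mem (mul_mem z.2 e) (inv_mem z.2)
      simpa [mul_assoc] using this
  obtain ⟨T, hT⟩ : ∃ T : ℂ, ∑ d : Dab G α β, θ d * conj (θ' (cjt tt ta tb d)) = T := ⟨_, rfl⟩
  obtain ⟨T0, hT0⟩ : ∃ T : ℂ, ∑ a : H, θ a * conj (θ' a) = T := ⟨_, rfl⟩
  have h1 : ∀ x : G, ∑ a : H, θ a * conj (extendByZero H θ' (x⁻¹ * a * x)) =
      if x ∈ H then T0 else T := by
    intro x
    split_ifs with hx
    · rw [← hT0]
      refine Finset.sum_congr rfl fun a _ => ?_
      rw [hc ⟨x, hx⟩, extendByZero_coe]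
    · obtain ⟨y, z, rfl⟩ := h.dc ne ta hx
      calc _ = ∑ a : H, θ a * conj (extendByZero H θ' (t * a * t)) := by
            refine Fintype.sum_equiv (MulAut.conj y⁻¹).toEquiv _ _ fun a => ?_
            rw [← hc z (t * _ * t), ← hθ.conj' a y]
            simp [mul_assoc, ti]
        _ = ∑ a : H, if a ∈ Dab G α β then θ a * conj (extendByZero H θ' (t * a * t)) else 0 := by
            refine Finset.sum_congr rfl fun a _ => ?_
            split_ifs with ha
            · rfl
            · rw [extendByZero_of_not_mem, map_zero, mul_zero]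
              intro e
              apply ha
              rw [mem_stabilizer_iff, mul_smul, mul_smul, ta] at e
              exact smul_left_cancel t (e.trans tb.symm)
        _ = T := by
            rw [← sum_subgroup_eq_sum_ite, ← hT]
            refine Finset.sum_congr rfl fun d _ => ?_
            rw [← extendByZero_coe H θ' (cjt tt ta tb d)]
            rfl
  have c1 : (Nat.card H : ℂ) ≠ 0 := Nat.cast_ne_zero.2 Nat.card_pos.ne'
  have c2 : (Nat.card (Dab G α β) : ℂ) ≠ 0 := Nat.cast_ne_zero.2 Nat.card_pos.ne'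
  have c3 : (Nat.card G : ℂ) = Nat.card Ω * Nat.card H := by exact_mod_cast h.card_G α
  have c4 : (Nat.card H : ℂ) + Nat.card (Dab G α β) = Nat.card Ω * Nat.card (Dab G α β) := by
    exact_mod_cast h.card_H ne
  have h2 : ∑ x : G, (if x ∈ H then T0 else T) = Nat.card H * T0 + (Nat.card G - Nat.card H) * T := by
    have : ∀ x : G, (if x ∈ H then T0 else T) = (if x ∈ H then T0 - T else 0) + T := fun x => by
      split_ifs <;> ring
    simp_rw [this]
    rw [Finset.sum_add_distrib, ← sum_subgroup_eq_sum_ite H (fun _ => T0 - T)]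
    simp only [Finset.sum_const, Finset.card_univ, nsmul_eq_mul, Nat.card_eq_fintype_card]
    ring
  rw [ci_indFun_left _ _ (isClassFunction_indFun _ _)]
  simp only [classInner, indFun, map_mul, map_sum, map_inv₀, map_natCast]
  rw [hT, hT0]
  have h3 : ∀ a : H, θ a * ((Nat.card H : ℂ)⁻¹ * ∑ x : G, conj (extendByZero H θ' (x⁻¹ * a * x))) =
      (Nat.card H : ℂ)⁻¹ * ∑ x : G, θ a * conj (extendByZero H θ' (x⁻¹ * a * x)) := fun a => by
    rw [mul_left_comm, Finset.mul_sum]
  rw [Finset.sum_congr rfl fun a _ => h3 a]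
  rw [← Finset.mul_sum, Finset.sum_comm, Finset.sum_congr rfl fun x _ => h1 x, h2, c3]
  field_simp
  linear_combination (-T) * c4
/-- constituents of an eigenfunction of the class sum of an involution -/
theorem deg_of {Ψ χ : G → ℂ} {s : G} {n ω : ℕ} (ss : s * s = 1) (hn : Nat.card G = ω * n)
    (hZ : ∀ g, ∑ x : G, Ψ (x * s * x⁻¹ * g) = n * Ψ g) (hχ : IsIrrCharacter G χ) (h : ⟪Ψ, χ⟫ ≠ 0) :
    χ 1 = ω * χ s := by
  have c : (Nat.card G : ℂ) ≠ 0 := card_ne_zero_complex G
  have e1 : ∑ g, ∑ x : G, Ψ (x * s * x⁻¹ * g) * conj (χ g) = ∑ g, ∑ x : G, Ψ g * conj (χ (x * s * x⁻¹ * g)) := by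
    rw [Finset.sum_comm, Finset.sum_comm (f := fun g x => Ψ g * conj (χ (x * s * x⁻¹ * g)))]
    refine Finset.sum_congr rfl fun x _ => Fintype.sum_equiv (Equiv.mulLeft (x * s * x⁻¹)) _ _ fun g => ?_
    have : x * s * x⁻¹ * (x * s * x⁻¹ * g) = g := by
      calc _ = x * (s * s) * x⁻¹ * g := by group
        _ = g := by rw [ss]; group
    simp only [Equiv.coe_mulLeft, this]
  have e2 : ∑ g, ∑ x : G, Ψ (x * s * x⁻¹ * g) * conj (χ g) = n * (Nat.card G * ⟪Ψ, χ⟫) := by
    rw [card_mul_ci, Finset.mul_sum]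
    exact Finset.sum_congr rfl fun g _ => by rw [← Finset.sum_mul, hZ, mul_assoc]
  have e3 : conj (χ 1) * ∑ g, ∑ x : G, Ψ g * conj (χ (x * s * x⁻¹ * g)) =
      Nat.card G * conj (χ s) * (Nat.card G * ⟪Ψ, χ⟫) := by
    rw [card_mul_ci, Finset.mul_sum, Finset.mul_sum]
    refine Finset.sum_congr rfl fun g _ => ?_
    have := congrArg conj (hχ.sum_conj_mul s g)
    simp only [map_mul, map_sum, map_natCast] at this
    rw [← Finset.mul_sum, mul_left_comm, this]; ring
  rw [← e1, e2, ← mul_assoc] at e3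
  have e4 := congrArg conj (mul_right_cancel₀ (mul_ne_zero c h) e3)
  simp only [map_mul, map_natCast, Complex.conj_conj] at e4
  have n0 : (n : ℂ) ≠ 0 := fun z => c (by rw [hn, Nat.cast_mul, z, mul_zero])
  rw [hn, Nat.cast_mul] at e4
  exact mul_right_cancel₀ n0 (by rw [e4]; ring)

theorem ext_conj {X : Subgroup G} {θ : X → ℂ} (hθ : IsClassFunction _ θ) {z : G} (hz : z ∈ X) (g : G) :
    extendByZero X θ (z⁻¹ * g * z) = extendByZero X θ g := by
  by_cases hg : g ∈ X
  · rw [extendByZero_of_mem _ _ hg, extendByZero_of_mem _ _ (mul_mem (mul_mem (inv_mem hz) hg) hz)]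
    exact hθ.conj' ⟨g, hg⟩ ⟨z, hz⟩
  · rw [extendByZero_of_not_mem _ _ hg, extendByZero_of_not_mem]
    intro e
    apply hg
    have := mul_mem (mul_mem hz e) (inv_mem hz)
    simpa [mul_assoc] using this

theorem ind_Z {X : Subgroup G} {θ : X → ℂ} {s : G} {n : ℂ}
    (hZ : ∀ g, ∑ x : G, extendByZero X θ (x * s * x⁻¹ * g) = n * extendByZero X θ g) (g : G) :
    ∑ x : G, indFun X θ (x * s * x⁻¹ * g) = n * indFun X θ g := by
  simp only [indFun]
  rw [← Finset.mul_sum, Finset.sum_comm, mul_left_comm, Finset.mul_sum (a := n)]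
  refine congrArg _ (Finset.sum_congr rfl fun y _ => ?_)
  rw [← hZ]
  exact Fintype.sum_equiv (Equiv.mulLeft y⁻¹) _ _ fun x => congrArg _ (by simp only [Equiv.coe_mulLeft]; group)

end Cfsg.Agent.SE.PK
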