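import Cfsg.Agent.SE.PK3a

/-! The character `Ψ` of the argument PK: values, degrees of the constituents. -/

set_option autoImplicit false
set_option linter.unusedSectionVars false
set_option linter.unusedVariables false

namespace Cfsg.Agent.SE.PK

open Cfsg Subgroup MulAction Cfsg.Agent.GT Cfsg.Agent.Cls Cfsg.Agent.GW Cfsg.Agent.Char Cfsg.Agent.B84C Cfsg.Agent.WA
open scoped ComplexConjugate Classical

universe u

variable {G Ω : Type u} [Group G] [Fintype G] [MulAction G Ω] {a b : Ω} {t s u v d g j k x y : G} {A K : Subgroup G}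

/-- the group data -/
structure Dt (a b : Ω) (t s : G) (A K : Subgroup G) : Prop where
  ac : SE.Ac G Ω
  two : ∀ a b c : Ω, b ≠ a → c ≠ a → ∃ h : G, h • a = a ∧ h • b = c
  ne : a ≠ b
  ord : orderOf t = 2
  ta : t • a = b
  tb : t • b = a
  memA : ∀ x, x ∈ A ↔ x = 1 ∨ orderOf x = 2 ∧ x • a = a
  memK : ∀ k, k ∈ K ↔ k • a = a ∧ k • b = b ∧ t * k * t = k⁻¹
  DK : stabilizer G a ⊓ stabilizer G b ≤ N[K]
  fix2 : ∀ k ∈ K, k ≠ 1 → ∀ c : Ω, k • c = c → c = a ∨ c = b
  os : orderOf s = 2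
  sa : s • a = a
  hV : ∀ d ∈ stabilizer G a ⊓ stabilizer G b, d ∉ K → ∀ k ∈ K, Commute d k → k = 1

/-- number of fixed points on the involutions `k s k⁻¹` -/
noncomputable def pf (K : Subgroup G) (s g : G) : ℂ := ∑ k : K, if (k : G)⁻¹ * g * k ∈ C1[s] then 1 else 0

/-- the permutation character of `G_a` on its involutions -/
noncomputable def pi (a : Ω) (s : G) : stabilizer G a → ℂ := indFun (C1[s].subgroupOf (stabilizer G a)) fun _ => 1

/-- `π - 1` -/
noncomputable def ps (a : Ω) (s : G) : stabilizer G a → ℂ := pi a s - fun _ => 1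

theorem cs : y⁻¹ * g * y ∈ C1[s] ↔ g * (y * s * y⁻¹) * g⁻¹ = y * s * y⁻¹ := by
  rw [mem_cent1]
  constructor
  · intro e
    calc _ = y * (y⁻¹ * g * y * s) * y⁻¹ * g⁻¹ := by group
      _ = _ := by rw [e]; group
  · intro e
    calc _ = y⁻¹ * (g * (y * s * y⁻¹) * g⁻¹) * g * y := by group
      _ = _ := by rw [e]; group

theorem cs1 : g ∈ C1[s] ↔ g * s * g⁻¹ = s := by rw [mem_cent1, mul_inv_eq_iff_eq_mul]

theorem odd_mem {X : Subgroup G} (o : Odd (orderOf d)) (h : d * d ∈ X) : d ∈ X := by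
  obtain ⟨m, hm⟩ := o
  have : d = (d * d) ^ (m + 1) := by
    rw [← sq, ← pow_mul, show 2 * (m + 1) = 2 * m + 1 + 1 by ring, pow_succ, ← hm, pow_orderOf_eq_one, one_mul]
  rw [this]; exact pow_mem h _

local notation3 "H" => stabilizer G a

namespace Dt

variable (h : Dt a b t s A K)
include h

theorem t2 : T2 G Ω := ⟨h.ac.tr, h.two⟩
theorem tt : t * t = 1 := sq1 h.ord
theorem ss : s * s = 1 := sq1 h.os
theorem Ka (hk : k ∈ K) : k ∈ H := ((h.memK k).1 hk).1
theorem Kb (hk : k ∈ K) : k • b = b := ((h.memK k).1 hk).2.1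
theorem Kt (hk : k ∈ K) : t * k * t = k⁻¹ := ((h.memK k).1 hk).2.2
theorem KD : K ≤ H ⊓ stabilizer G b := fun _ hk => ⟨h.Ka hk, h.Kb hk⟩

theorem Kc (hk : k ∈ K) (hj : j ∈ K) : k * j = j * k := by
  apply inv_injective
  rw [← h.Kt (mul_mem hk hj), mul_inv_rev, ← h.Kt hk, ← h.Kt hj]
  calc _ = t * k * (t * t) * j * t := by rw [h.tt]; group
    _ = _ := by group

theorem oD (hd : d ∈ H ⊓ stabilizer G b) : Odd (orderOf d) := (h.ac.odd h.ne).of_dvd_nat (orderOf_dvd_natCard _ hd)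

theorem CH : C1[s] ≤ H := h.ac.cent_le h.os h.sa

theorem cjH (hg : g ∈ H) : g * s * g⁻¹ ∈ H := mul_mem (mul_mem hg h.sa) (inv_mem hg)

theorem cjA (hg : g ∈ H) (hu : u ∈ A) : g * u * g⁻¹ ∈ A := by
  rcases (h.memA u).1 hu with rfl | ⟨o, e⟩
  · simp
  · exact (h.memA _).2 (.inr ⟨ord2_conj o g, (mul_mem (mul_mem hg e) (inv_mem hg) : _ ∈ H)⟩)

theorem sA : s ∈ A := (h.memA s).2 (.inr ⟨h.os, h.sa⟩)

theorem A2 (hu : u ∈ A) : u * u = 1 := by
  rcases (h.memA u).1 hu with rfl | ⟨o, e⟩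
  exacts [mul_one 1, sq1 o]

theorem AC (hu : u ∈ A) : u ∈ C1[s] := by
  rw [mem_cent1]
  calc u * s = (u * s)⁻¹ := (inv_eq_of_mul_eq_one_right (h.A2 (mul_mem hu h.sA))).symm
    _ = _ := by rw [mul_inv_rev, inv_eq_of_mul_eq_one_right (h.A2 hu), inv_eq_of_mul_eq_one_right h.ss]

theorem ex1 (hg : g ∈ H) : ∃ k ∈ K, k * s * k⁻¹ = g * s * g⁻¹ := by
  obtain ⟨k, ⟨h1, h2, h3, h4⟩, -⟩ := h.ac.kk h.ne h.ord h.ta h.tb h.os (ord2_conj h.os g) h.sa (h.cjH hg)
  exact ⟨k, (h.memK k).2 ⟨h1, h2, h3⟩, h4⟩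

theorem inj (hk : k ∈ K) (hj : j ∈ K) (e : k * s * k⁻¹ = j * s * j⁻¹) : k = j :=
  (h.ac.kk h.ne h.ord h.ta h.tb h.os (ord2_conj h.os j) h.sa (h.cjH (h.Ka hj))).unique
    ⟨h.Ka hk, h.Kb hk, h.Kt hk, e⟩ ⟨h.Ka hj, h.Kb hj, h.Kt hj, rfl⟩

theorem ex2 (hg : g ∈ H) : ∃ k ∈ K, k⁻¹ * g ∈ C1[s] := by
  obtain ⟨k, hk, e⟩ := h.ex1 hg
  refine ⟨k, hk, cs1.2 ?_⟩
  calc _ = k⁻¹ * (g * s * g⁻¹) * k := by group
    _ = _ := by rw [← e]; group

theorem inj2 (hk : k ∈ K) (hj : j ∈ K) (hx : x ∈ C1[s]) (hy : y ∈ C1[s]) (e : k * x = j * y) : k = j := by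
  refine h.inj hk hj ?_
  calc _ = k * x * s * (k * x)⁻¹ := by conv_lhs => rw [← cs1.1 hx]
                                       group
    _ = _ := by rw [e]; conv_rhs => rw [← cs1.1 hy]
                group

theorem pi_eq (z : H) : pi a s z = pf K s z := by
  rw [pi, indFun_trans _ (isClassFunction_const 1) (fun k : K => (⟨k, h.Ka k.2⟩ : H))]
  · refine Finset.sum_congr rfl fun k _ => ?_
    split_ifs with c
    · exact extendByZero_of_mem (C1[s].subgroupOf H) _ c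
    · exact extendByZero_of_not_mem (C1[s].subgroupOf H) _ c
  · constructor
    · rintro ⟨k, x⟩ ⟨j, y⟩ e
      have e' : (k : G) * (x : H) = j * (y : H) := congrArg Subtype.val e
      obtain rfl : k = j := Subtype.ext (h.inj2 k.2 j.2 x.2 y.2 e')
      obtain rfl : x = y := Subtype.ext (Subtype.ext (mul_left_cancel e'))
      rfl
    · intro z
      obtain ⟨k, hk, e⟩ := h.ex2 z.2
      exact ⟨(⟨k, hk⟩, ⟨⟨_, h.CH e⟩, e⟩), Subtype.ext (mul_inv_cancel_left _ _)⟩

theorem F_mem (hg : g ∈ H) : extendByZero H (ps a s) g = pf K s g - 1 := by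
  rw [extendByZero_of_mem _ _ hg, ps, Pi.sub_apply, h.pi_eq]

theorem pf_A (hu : u ∈ A) (g : G) : pf K s (u * g) = pf K s g := by
  refine Finset.sum_congr rfl fun k _ => if_congr ?_ rfl rfl
  have := h.AC (h.cjA (inv_mem (h.Ka k.2)) hu)
  rw [show (k : G)⁻¹ * (u * g) * k = (k : G)⁻¹ * u * (k : G)⁻¹⁻¹ * ((k : G)⁻¹ * g * k) by group]
  exact mul_mem_cancel_left this

theorem pf_one : pf K s 1 = Nat.card K := by simp [pf]

theorem pf_K (hk : k ∈ K) (k1 : k ≠ 1) : pf K s k = 0 := by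
  refine Finset.sum_eq_zero fun j _ => if_neg fun c => k1 ?_
  have := h.inj (mul_mem hk j.2) j.2 (by rw [← cs.1 c]; group)
  simpa using this

theorem pf_sum (hg : g ∈ H) : ∑ k : K, pf K s (k * g) = Nat.card K := by
  simp only [pf]
  rw [Finset.sum_comm, Finset.sum_congr rfl (g := fun _ => (1 : ℂ))]
  · simp
  intro j _
  obtain ⟨k, hk, e⟩ := h.ex2 (mul_mem hg (h.Ka j.2))
  rw [Finset.sum_eq_single ⟨j * k⁻¹, mul_mem j.2 (inv_mem hk)⟩, if_pos (by simpa [mul_assoc] using e)]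
  · intro i _ n
    refine if_neg fun c => n (Subtype.ext ?_)
    have := h.inj2 hk (mul_mem (inv_mem i.2) j.2) e c (by group)
    simp [this]
  · simp

theorem pf_D (hd : d ∈ H ⊓ stabilizer G b) (n : d ∉ K) : pf K s d = 1 := by
  have m := fun k : K => conj_mem_of_le_norm h.DK hd k.2
  obtain ⟨i, hi, e⟩ := h.ex2 hd.1
  have f : Function.Injective fun k : K => (⟨(d * k * d⁻¹)⁻¹ * k, mul_mem (inv_mem (m k)) k.2⟩ : K) := by
    intro k j e
    have e : (d * k * d⁻¹)⁻¹ * k = (d * j * d⁻¹)⁻¹ * j := congrArg Subtype.val e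
    refine Subtype.ext (mul_inv_eq_one.1 (h.hV d hd n _ (mul_mem k.2 (inv_mem j.2)) ?_))
    calc d * (k * (j : G)⁻¹) = d * k * d⁻¹ * ((d * j * d⁻¹)⁻¹ * j) * (j : G)⁻¹ * d := by group
      _ = _ := by rw [← e]; group
  obtain ⟨k, hk⟩ := Finite.surjective_of_injective f ⟨i, hi⟩
  have hk' : (d * k * d⁻¹)⁻¹ * k = i := congrArg Subtype.val hk
  rw [pf, Finset.sum_eq_single k, if_pos]
  · rw [← hk'] at e
    convert e using 1; group
  · intro j _ c
    refine if_neg fun z => c (f (hk ▸ Subtype.ext ?_))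
    exact h.inj2 (mul_mem (inv_mem (m j)) j.2) hi z e (by group)
  · simp

theorem ps_class : IsClassFunction _ (ps a s) := (isClassFunction_indFun _ _).sub (isClassFunction_const 1)

theorem pi_one : ⟪pi a s, fun _ => 1⟫ = 1 := by
  rw [pi, ci_indFun_left _ _ (isClassFunction_const 1), ci_one_one]

theorem ps_char : IsCharacter _ (ps a s) :=
  isCharacter_one.indFun.sub_irr isIrrCharacter_one (by rw [← pi, h.pi_one]; exact one_ne_zero)

theorem cj_mem : x * s * x⁻¹ ∈ H ↔ x ∈ H := by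
  refine ⟨fun c => ?_, h.cjH⟩
  exact h.ac.uniq (ord2_conj h.os x) (by rw [mul_smul, inv_smul_smul, mul_smul, h.sa]) c

theorem Z0 (o : orderOf v = 2) (hg : g • a = b) : ∑ j : K, extendByZero H (ps a s) (j * v * (j : G)⁻¹ * g) = 0 := by
  by_cases c : v • b = a
  · have c' : v • a = b := by rw [← c, ← mul_smul, sq1 o, one_smul]
    have hk : v * t ∈ K := (h.memK _).2 ⟨by rw [mul_smul, h.ta, c], by rw [mul_smul, h.tb, c'], by
      rw [mul_inv_rev, inv_eq_of_mul_eq_one_right h.tt, inv_eq_of_mul_eq_one_right (sq1 o), mul_assoc, mul_assoc, h.tt,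
        mul_one]⟩
    have tg : t * g ∈ H := by rw [mem_stabilizer_iff, mul_smul, hg, h.tb]
    have f : Function.Injective fun j : K => (⟨j * (v * t) * j, mul_mem (mul_mem j.2 hk) j.2⟩ : K) := by
      intro i j e
      have e : (i : G) * (v * t) * i = j * (v * t) * j := congrArg Subtype.val e
      rw [h.Kc i.2 hk, h.Kc j.2 hk, mul_assoc, mul_assoc (v * t), mul_right_inj] at e
      have m := mul_mem i.2 (inv_mem j.2)
      refine Subtype.ext (mul_inv_eq_one.1 (mem_bot.1 (odd_mem (h.oD (h.KD m)) (mem_bot.2 ?_))))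
      nth_rw 1 [h.Kc i.2 (inv_mem j.2)]
      rw [mul_assoc, ← mul_assoc (i : G), e]; group
    have := Fintype.sum_bijective _ (Finite.injective_iff_bijective.1 f)
      (fun j : K => extendByZero H (ps a s) (j * v * (j : G)⁻¹ * g)) (fun j : K => pf K s (j * (t * g)) - 1) fun j => by
        rw [← h.F_mem (mul_mem (h.Ka (mul_mem (mul_mem j.2 hk) j.2)) tg), ← h.Kt j.2]
        congr 1; group
    rw [this, Finset.sum_sub_distrib, h.pf_sum tg]; simp
  · refine Finset.sum_eq_zero fun j _ => extendByZero_of_not_mem _ _ fun z => c ?_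
    rw [mem_stabilizer_iff, mul_smul, hg, mul_smul, h.Kb (inv_mem j.2), mul_smul] at z
    exact smul_left_cancel (j : G) (z.trans (h.Ka j.2).symm)

theorem Z1 (g : G) : ∑ x : G, extendByZero H (ps a s) (x * s * x⁻¹ * g) = Nat.card H * extendByZero H (ps a s) g := by
  by_cases hg : g ∈ H
  · rw [Finset.sum_congr rfl (g := fun x => if x ∈ H then extendByZero H (ps a s) g else 0), ← sum_subgroup_eq_sum_ite]
    · simp
    intro x _
    split_ifs with c
    · rw [h.F_mem (mul_mem (h.cjH c) hg), h.F_mem hg, h.pf_A (h.cjA c h.sA)]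
    · exact extendByZero_of_not_mem _ _ fun z => c (h.cj_mem.1 ((mul_mem_cancel_right hg).1 z))
  rw [extendByZero_of_not_mem _ _ hg, mul_zero]
  obtain ⟨y, ya, yb⟩ := h.two a b (g • a) h.ne.symm hg
  have g' : (y⁻¹ * g * y) • a = b := by rw [mul_smul, ya, mul_smul, ← yb, inv_smul_smul]
  have e : ∀ j : K, ∑ x : G, extendByZero H (ps a s) (x * s * x⁻¹ * g) =
      ∑ x : G, extendByZero H (ps a s) (j * (x * s * x⁻¹) * (j : G)⁻¹ * (y⁻¹ * g * y)) := fun j =>
    Fintype.sum_equiv (Equiv.mulLeft ((j : G)⁻¹ * y⁻¹)) _ _ fun x => by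
      rw [← ext_conj h.ps_class (z := y) ya]; congr 1; simp only [Equiv.coe_mulLeft]; group
  have := Finset.sum_congr rfl fun j (_ : j ∈ Finset.univ) => e j
  rw [Finset.sum_comm (s := Finset.univ (α := K)) (f := fun (j : K) x =>
    extendByZero H (ps a s) (j * (x * s * x⁻¹) * (j : G)⁻¹ * (y⁻¹ * g * y))),
    Finset.sum_eq_zero (s := Finset.univ (α := G)) fun x _ => h.Z0 (ord2_conj h.os x) g'] at this
  simpa using this

theorem deg {χ : G → ℂ} (hχ : IsIrrCharacter G χ) (n : ⟪indFun H (ps a s), χ⟫ ≠ 0) : χ 1 = (H).index * χ s :=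
  deg_of h.ss (index_mul_card _).symm (ind_Z h.Z1) hχ n

theorem Psi_one : ⟪indFun H (ps a s), fun _ => 1⟫ = 0 := by
  rw [ci_indFun_left _ _ (isClassFunction_const 1), ps, ci_sub_left, h.pi_one, ci_one_one, sub_self]

theorem Psi_s : indFun H (ps a s) s = Nat.card K - 1 := by
  have := indFun_apply_of_TI H h.ps_class ⟨s, h.sa⟩ fun x hx _ => by
    simpa using h.cj_mem (x := x⁻¹) |>.1 (by simpa using hx)
  refine this.trans ((extendByZero_coe H _ _).symm.trans ?_)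
  rw [h.F_mem h.sa, ← h.pf_one, ← h.pf_A h.sA 1, mul_one]

theorem Psi_1 : indFun H (ps a s) 1 = (H).index * (Nat.card K - 1) := by
  rw [indFun_apply_one, ← extendByZero_coe H (ps a s), h.F_mem (SetLike.coe_mem _), OneMemClass.coe_one, h.pf_one]

theorem Psi_k (hk : k ∈ K) (k1 : k ≠ 1) : indFun H (ps a s) k = -2 := by
  have tH : t ∉ H := fun c => h.ne (c.symm.trans h.ta)
  have ti : t⁻¹ = t := inv_eq_of_mul_eq_one_right h.tt
  have e : ∀ x : G, extendByZero H (ps a s) (x⁻¹ * k * x) =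
      (if x ∈ H then -1 else 0) + (if t * x ∈ H then -1 else 0) := fun x => by
    split_ifs with c1 c2 c2
    · exact (tH ((mul_mem_cancel_right c1).1 c2)).elim
    · rw [ext_conj h.ps_class c1, h.F_mem (h.Ka hk), h.pf_K hk k1]; simp
    · rw [show x⁻¹ * k * x = (t * x)⁻¹ * (t * k * t) * (t * x) by
          rw [show (t * x)⁻¹ * (t * k * t) * (t * x) = x⁻¹ * k * (t * t) * x by group, h.tt, mul_one],
        ext_conj h.ps_class c2, h.Kt hk, h.F_mem (h.Ka (inv_mem hk)), h.pf_K (inv_mem hk) (inv_ne_one.2 k1)]; simp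
    · rw [extendByZero_of_not_mem, add_zero]
      intro z
      rw [mem_stabilizer_iff, mul_smul, mul_smul, inv_smul_eq_iff] at z
      rcases h.fix2 k hk k1 _ z with e | e
      · exact c1 e
      · exact c2 (by rw [mem_stabilizer_iff, mul_smul, e, h.tb])
  have e2 : ∑ x : G, (if t * x ∈ H then (-1 : ℂ) else 0) = ∑ x : G, if x ∈ H then -1 else 0 :=
    Fintype.sum_equiv (Equiv.mulLeft t) _ _ fun _ => rfl
  rw [indFun, Finset.sum_congr rfl fun x _ => e x, Finset.sum_add_distrib, e2,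
    ← sum_subgroup_eq_sum_ite H fun _ => (-1 : ℂ)]
  have := card_ne_zero_complex H
  simp only [Finset.sum_const, Finset.card_univ, nsmul_eq_mul, ← Nat.card_eq_fintype_card]
  field_simp; ring

end Dt

end Cfsg.Agent.SE.PK
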