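import Cfsg.Agent.SE.PK3b

/-! The character `Ψ` of the argument PK: norm and the remaining group data. -/

set_option autoImplicit false
set_option linter.unusedSectionVars false
set_option linter.unusedVariables false

namespace Cfsg.Agent.SE.PK

open Cfsg Subgroup MulAction Cfsg.Agent.GT Cfsg.Agent.Cls Cfsg.Agent.GW Cfsg.Agent.Char Cfsg.Agent.B84C Cfsg.Agent.WA
open scoped ComplexConjugate Classical

universe u

variable {G Ω : Type u} [Group G] [Fintype G] [MulAction G Ω] {a b : Ω} {t s u v d g j k x y : G} {A K : Subgroup G}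
  {e ν : ℕ}

theorem card_dis {X : Type*} [Group X] [Finite X] {U V : Subgroup X} (h : Disjoint U V) :
    Nat.card U * Nat.card V ≤ Nat.card X ∧
      (Nat.card U * Nat.card V = Nat.card X → ∀ x : X, ∃ u ∈ U, ∃ v ∈ V, u * v = x) := by
  have i := mul_injective_of_disjoint h
  rw [← Nat.card_prod]
  refine ⟨Nat.card_le_card_of_injective _ i, fun e x => ?_⟩
  obtain ⟨⟨u, v⟩, c⟩ := ((Nat.bijective_iff_injective_and_card _).2 ⟨i, e⟩).2 x
  exact ⟨u, u.2, v, v.2, c⟩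

/-- the stabiliser of the pair -/
def pr (G : Type u) [Group G] [MulAction G Ω] (a b : Ω) : Subgroup G where
  carrier := {g | g • a = a ∧ g • b = b ∨ g • a = b ∧ g • b = a}
  one_mem' := .inl ⟨one_smul _ _, one_smul _ _⟩
  mul_mem' := by
    rintro x y (⟨h1, h2⟩ | ⟨h1, h2⟩) (⟨h3, h4⟩ | ⟨h3, h4⟩) <;> simp [mul_smul, h1, h2, h3, h4]
  inv_mem' := by
    rintro x (⟨h1, h2⟩ | ⟨h1, h2⟩)
    · exact .inl ⟨inv_smul_eq_iff.2 h1.symm, inv_smul_eq_iff.2 h2.symm⟩
    · exact .inr ⟨inv_smul_eq_iff.2 h2.symm, inv_smul_eq_iff.2 h1.symm⟩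

theorem mem_pr : g ∈ pr G a b ↔ g • a = a ∧ g • b = b ∨ g • a = b ∧ g • b = a := Iff.rfl

theorem num_of {f : ℕ} (h : 2 * e * ν + 2 = 2 ^ f) (f2 : 2 ≤ f) (o : Odd e) (he : e = 1 ∨ f = e) : Num e ν := by
  obtain ⟨f, rfl⟩ := Nat.exists_eq_add_of_le' f2
  have h1 : e * ν + 1 = 2 * 2 ^ f := by rw [pow_add] at h; linarith
  have p : 0 < 2 ^ f := by positivity
  have n2 : ν ≠ 2 := by rintro rfl; omega
  have n0 : ν ≠ 0 := by rintro rfl; omega
  have := o.pos
  refine ⟨by omega, by omega, by omega, ?_⟩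
  rcases he with rfl | rfl
  · left; omega
  by_cases c : f + 2 ≤ ν + 1
  · left; omega
  by_cases c4 : 4 ≤ f
  · exfalso
    have k : ∀ n, 4 ≤ n → (n + 1) ^ 2 < 2 * 2 ^ n := fun n hn => by
      induction n, hn using Nat.le_induction with
      | base => norm_num
      | succ n hn ih => rw [pow_succ 2 n]; nlinarith
    have := k f c4
    have : (f + 2) * ν ≤ (f + 2) * f := Nat.mul_le_mul_left _ (by omega)
    nlinarith
  obtain ⟨m, hm⟩ := o
  have : f = 1 ∨ f = 3 := by omega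
  rcases this with rfl | rfl <;> omega

local notation3 "H" => stabilizer G a

namespace Dt

variable (h : Dt a b t s A K)
include h

theorem card_Dab : Nat.card (Dab G a b) = Nat.card ↥(H ⊓ stabilizer G b) := by
  rw [Dab, ← inf_subgroupOf_left]
  exact Nat.card_congr (subgroupOfEquivOfLe inf_le_left).toEquiv

theorem second : Nat.card ↥(H ⊓ stabilizer G b) *
    ⟪fun d : Dab G a b => ps a s d, fun d => ps a s (cjt h.tt h.ta h.tb d)⟫ = Nat.card K * (Nat.card K - 1) := by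
  rw [← h.card_Dab, card_mul_ci, ← Fintype.sum_of_injective (fun k : K => (⟨⟨k, h.Ka k.2⟩, h.Kb k.2⟩ : Dab G a b))
    (fun _ _ e => Subtype.ext (congrArg (fun z : Dab G a b => ((z : H) : G)) e))
    (fun k => 1 + if k = 1 then ((Nat.card K : ℂ) - 1) ^ 2 - 1 else 0)]
  · rw [Finset.sum_add_distrib, Finset.sum_ite_eq']
    simp only [Finset.sum_const, Finset.card_univ, nsmul_eq_mul, ← Nat.card_eq_fintype_card, Finset.mem_univ, if_true]
    ring
  · intro d n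
    rw [ps, Pi.sub_apply, h.pi_eq, h.pf_D ⟨d.1.2, d.2⟩ fun c => n ⟨⟨_, c⟩, rfl⟩, sub_self, zero_mul]
  · intro k
    simp only [ps, Pi.sub_apply, h.pi_eq]
    change _ = (pf K s k - 1) * conj (pf K s (t * k * t) - 1)
    rw [h.Kt k.2]
    split_ifs with c
    · simp [c, h.pf_one, sq]
    · have c' : (k : G) ≠ 1 := fun z => c (Subtype.ext z)
      rw [h.pf_K k.2 c', h.pf_K (inv_mem k.2) (inv_ne_one.2 c')]; simp

theorem first : Nat.card C1[s] * ⟪pi a s, pi a s⟫ =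
    (∑ k : K, Nat.card (C1[(k : G) * s * (k : G)⁻¹].subgroupOf C1[s]) : ℕ) := by
  nth_rw 1 [pi]
  rw [indFun_subgroupOf (K := C1[s]) h.CH fun _ => 1, ci_ind_left _ _ (χ := pi a s) (isClassFunction_indFun _ _), card_mul_ci]
  simp only [h.pi_eq, pf, map_sum, one_mul, Nat.cast_sum]
  rw [Finset.sum_comm]
  refine Finset.sum_congr rfl fun k _ => ?_
  rw [Nat.card_eq_fintype_card, ← Finset.card_univ, Finset.card_eq_sum_ones, Nat.cast_sum,
    sum_subgroup_eq_sum_ite _ fun _ => ((1 : ℕ) : ℂ)]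
  refine Finset.sum_congr rfl fun c _ => ?_
  rw [apply_ite conj, map_one, map_zero, Nat.cast_one]
  exact if_congr (cs.trans (cs1.symm.trans mem_subgroupOf.symm)) rfl rfl

theorem card_V : Nat.card K * Nat.card ((stabilizer G b).subgroupOf C1[s]) = Nat.card ↥(H ⊓ stabilizer G b) := by
  rw [← Nat.card_prod]
  refine Nat.card_congr (Equiv.ofBijective (fun p => ⟨p.1 * (p.2 : C1[s]),
    mul_mem (h.KD p.1.2) ⟨h.CH p.2.1.2, p.2.2⟩⟩) ⟨?_, fun z => ?_⟩)
  · rintro ⟨k, x⟩ ⟨j, y⟩ e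
    have e' : (k : G) * (x : C1[s]) = j * (y : C1[s]) := congrArg Subtype.val e
    obtain rfl : k = j := Subtype.ext (h.inj2 k.2 j.2 x.1.2 y.1.2 e')
    obtain rfl : x = y := Subtype.ext (Subtype.ext (mul_left_cancel e'))
    rfl
  · obtain ⟨k, hk, e⟩ := h.ex2 z.2.1
    exact ⟨(⟨k, hk⟩, ⟨⟨_, e⟩, (mul_mem (h.KD (inv_mem hk)) z.2).2⟩), Subtype.ext (mul_inv_cancel_left _ _)⟩

theorem dis (hk : k ∈ K) (k1 : k ≠ 1) :
    Disjoint ((stabilizer G b).subgroupOf C1[s]) (C1[k * s * k⁻¹].subgroupOf C1[s]) := by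
  refine disjoint_def.2 fun {v} h1 h2 => Subtype.ext ?_
  have vD : (v : G) ∈ H ⊓ stabilizer G b := ⟨h.CH v.2, h1⟩
  by_cases c : (v : G) ∈ K
  · exact h.inj c (one_mem K) (by rw [cs1.1 v.2]; simp)
  · refine (k1 (h.hV v vD c k hk (mul_inv_eq_iff_eq_mul.1 (h.inj (conj_mem_of_le_norm h.DK vD hk) hk ?_)))).elim
    rw [← cs1.1 (mem_subgroupOf.1 h2)]
    calc _ = v * k * ((v : G)⁻¹ * s * (v : G)⁻¹⁻¹) * k⁻¹ * (v : G)⁻¹ := by group
      _ = _ := by rw [cs1.1 (inv_mem v.2)]; group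

theorem bound (he : Nat.card ↥(H ⊓ stabilizer G b) = Nat.card K * e) (cK : Nat.card K = 2 * e * ν + 1)
    (hg : g ∈ H) (sw : g * (g * s * g⁻¹) * g⁻¹ = s) (n : g * s * g⁻¹ ≠ s) :
    ∃ w : ℕ, ⟪ps a s, ps a s⟫ = w ∧ 0 < w ∧ w < 2 * ν := by
  have c : IsCharacter _ (pi a s) := isCharacter_one.indFun
  obtain ⟨w, hw⟩ := c.ci_nat c
  have e1 := h.first
  rw [hw, ← Nat.cast_mul, Nat.cast_inj, ← Finset.add_sum_erase _ _ (Finset.mem_univ 1)] at e1
  have e2 : Nat.card (C1[((1 : K) : G) * s * ((1 : K) : G)⁻¹].subgroupOf C1[s]) = Nat.card C1[s] := by simp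
  have eV : Nat.card ((stabilizer G b).subgroupOf C1[s]) = e :=
    Nat.eq_of_mul_eq_mul_left Nat.card_pos (h.card_V.trans he)
  obtain ⟨k, hk, ek⟩ := h.ex1 hg
  have k1 : k ≠ 1 := fun z => n (by rw [← ek, z]; group)
  have km : (⟨k, hk⟩ : K) ∈ Finset.univ.erase 1 := by simpa using k1
  rw [e2] at e1
  obtain ⟨S, hS⟩ : ∃ S, ∑ k ∈ Finset.univ.erase (1 : K),
    Nat.card (C1[(k : G) * s * (k : G)⁻¹].subgroupOf C1[s]) = S := ⟨_, rfl⟩
  have S0 : 0 < S := hS ▸ Finset.sum_pos (fun _ _ => Nat.card_pos) ⟨_, km⟩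
  have S1 : e * S < ∑ k ∈ Finset.univ.erase (1 : K), Nat.card C1[s] := by
    rw [← hS, Finset.mul_sum, ← eV]
    refine Finset.sum_lt_sum (fun j hj => (card_dis (h.dis j.2 (by simpa using hj))).1)
      ⟨_, km, lt_of_le_of_ne (card_dis (h.dis hk k1)).1 fun z => n ?_⟩
    have m : k⁻¹ * g ∈ C1[s] := cs1.2 (by
      calc _ = k⁻¹ * (g * s * g⁻¹) * k := by group
        _ = _ := by rw [← ek]; group)
    obtain ⟨v, hv, y, hy, e⟩ := (card_dis (h.dis hk k1)).2 z ⟨_, m⟩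
    have e' : (v : G) * y = k⁻¹ * g := congrArg Subtype.val e
    have hy' := cs1.1 (mem_subgroupOf.1 hy)
    have d1 : k * v * s * (k * v)⁻¹ = k * s * k⁻¹ := by conv_rhs => rw [← cs1.1 v.2]
                                                        group
    have d2 : k * v * (k * s * k⁻¹) * (k * v)⁻¹ = s := by
      rw [← hy', show k * v * (y * (k * s * k⁻¹) * (y : G)⁻¹) * (k * v)⁻¹ =
        k * (v * y) * (k * s * k⁻¹) * (k * (v * y))⁻¹ by group, e', ek, mul_inv_cancel_left, sw]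
    have := odd_mem (X := C1[s]) (h.oD (mul_mem (h.KD hk) ⟨h.CH v.2, hv⟩)) (cs1.2 (by
      rw [← d1] at d2
      conv_rhs => rw [← d2]
      group))
    rw [← ek, ← d1, cs1.1 this]
  rw [hS] at e1
  rw [Finset.sum_const, Finset.card_erase_of_mem (Finset.mem_univ _), Finset.card_univ, ← Nat.card_eq_fintype_card,
    cK, Nat.add_sub_cancel, smul_eq_mul] at S1
  have S2 : S < 2 * ν * Nat.card C1[s] := lt_of_mul_lt_mul_left (a := e) (by linarith) (Nat.zero_le _)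
  have cp : 0 < Nat.card C1[s] := Nat.card_pos
  have w1 : 1 < w := by by_contra z; nlinarith
  have w2 : w < 2 * ν + 1 := by by_contra z; nlinarith
  refine ⟨w - 1, ?_, by omega, by omega⟩
  rw [ps, ci_sub_left, ci_sub_right, ci_sub_right, hw, h.pi_one, ci_symm_of_nat (n := 1) (by simpa using h.pi_one),
    ci_one_one, Nat.cast_sub w1.le]
  simp

theorem om : (H).index ≡ 2 [MOD Nat.card K] := by
  obtain ⟨m, hm⟩ := (h.ps_char.indFun.restrict K).ci_nat isCharacter_one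
  have e := card_mul_ci (fun k : K => indFun H (ps a s) k) fun _ => 1
  rw [hm, Finset.sum_congr rfl (g := fun k => -2 + if k = 1 then (H).index * ((Nat.card K : ℂ) - 1) + 2 else 0),
    Finset.sum_add_distrib, Finset.sum_ite_eq'] at e
  · simp only [Finset.sum_const, Finset.card_univ, nsmul_eq_mul, ← Nat.card_eq_fintype_card, Finset.mem_univ,
      if_true] at e
    have e' : (Nat.card K : ℤ) * m = Nat.card K * -2 + ((H).index * (Nat.card K - 1) + 2) := by exact_mod_cast e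
    exact (Nat.modEq_iff_dvd.2 ⟨m + 2 - (H).index, by push_cast; linear_combination -e'⟩)
  · intro k _
    split_ifs with c
    · simp [c, h.Psi_1]
    · simp [h.Psi_k k.2 fun z => c (Subtype.ext z)]

theorem tD (h1 : g • a = b) (h2 : g • b = a) : t * g ∈ H ⊓ stabilizer G b :=
  mem_inf.2 ⟨by rw [mem_stabilizer_iff, mul_smul, h1, h.tb], by rw [mem_stabilizer_iff, mul_smul, h2, h.ta]⟩

theorem card_N : Nat.card (pr G a b) = Nat.card ↥(H ⊓ stabilizer G b) * 2 := by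
  rw [← card_mul_relIndex (show H ⊓ stabilizer G b ≤ pr G a b from fun g hg => .inl hg)]
  congr 1
  refine relIndex_eq_two_iff.2 ⟨t, .inr ⟨h.ta, h.tb⟩, ?_⟩
  rintro g (⟨h1, h2⟩ | ⟨h1, h2⟩)
  · refine .inr ⟨⟨h1, h2⟩, fun z => h.ne ?_⟩
    have := (mem_inf.1 z).1
    rw [mem_stabilizer_iff, mul_smul, h.ta, h2] at this
    exact this.symm
  · exact .inl ⟨mem_inf.2 ⟨by rw [mem_stabilizer_iff, mul_smul, h.ta, h2],
      by rw [mem_stabilizer_iff, mul_smul, h.tb, h1]⟩,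
      fun z => h.ne (z.1.symm.trans h1)⟩

theorem nK : pr G a b ≤ N[K] := by
  have ti : t⁻¹ = t := inv_eq_of_mul_eq_one_right h.tt
  have tN : t ∈ N[K] := mem_normalizer_fintype fun k hk => by rw [ti, h.Kt hk]; exact inv_mem hk
  rintro g (⟨h1, h2⟩ | ⟨h1, h2⟩)
  · exact h.DK ⟨h1, h2⟩
  · exact (mul_mem_cancel_left tN).1 (h.DK (h.tD h1 h2))

theorem ti (hk : k ∈ K) (k1 : k ≠ 1) (c : g⁻¹ * k * g ∈ K) : g ∈ pr G a b := by
  have h1 := h.Ka c
  have h2 := h.Kb c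
  rw [mem_stabilizer_iff] at h1
  rw [mul_smul, mul_smul, inv_smul_eq_iff] at h1 h2
  have n : g • a ≠ g • b := fun z => h.ne (smul_left_cancel g z)
  rcases h.fix2 k hk k1 _ h1 with e | e <;> rcases h.fix2 k hk k1 _ h2 with e' | e'
  exacts [(n (e.trans e'.symm)).elim, .inl ⟨e, e'⟩, .inr ⟨e, e'⟩, (n (e.trans e'.symm)).elim]

theorem fp (hy : y ∈ pr G a b) (n : y ∉ K) (hk : k ∈ K) (c : Commute y k) : k = 1 := by
  rcases hy with hy | ⟨h1, h2⟩
  · exact h.hV y hy n k hk c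
  have e : t * y * k * (t * y)⁻¹ = k⁻¹ := by
    rw [← h.Kt hk, mul_assoc t y, c.eq, mul_inv_rev, inv_eq_of_mul_eq_one_right h.tt]; group
  have := odd_mem (X := C1[k]) (h.oD (h.tD h1 h2)) (cs1.2 (by
    calc _ = t * y * (t * y * k * (t * y)⁻¹) * (t * y)⁻¹ := by group
      _ = (t * y * k * (t * y)⁻¹)⁻¹ := by rw [e]; nth_rw 2 [← e]; group
      _ = _ := by rw [e, inv_inv]))
  rw [cs1.1 this] at e
  exact mem_bot.1 (odd_mem (h.oD (h.KD hk)) (mem_bot.2 (by nth_rw 1 [e]; group)))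

end Dt

end Cfsg.Agent.SE.PK
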