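import Cfsg.Agent.SE.NA2
import Cfsg.Agent.GT.Puig

/-! Strongly embedded subgroups, type II: the Puig subgroup under a stability hypothesis. -/

set_option autoImplicit false
set_option linter.unusedSectionVars false
set_option linter.unusedVariables false

namespace Cfsg.Agent.SE.Pu

open Cfsg Subgroup MulAction Cfsg.Agent.GT Cfsg.Agent.Cls Cfsg.Agent.GW Cfsg.Agent.WA

universe u

variable {G : Type u} [Group G] [Finite G] {p : ℕ}

theorem push (hp : p.Prime) {M S S0 : Subgroup G} (pS : IsPGroup p S) (SM : S ≤ M) (le : S0 ≤ S) (n0 : M ≤ N[S0])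
    (o0 : Odd (Nat.card ↥(M ⊓ C[S0]))) (p2 : p ≠ 2)
    (st : ∀ P A : Subgroup G, IsPGroup p P → P ≤ M → M ≤ N[P] → Odd (Nat.card ↥(M ⊓ C[P])) → A ≤ S →
      IsMulCommutative A → P ≤ N[A] → A ≤ S0) :
    M ≤ N[zPuigOf S] ∨ ∃ u ∈ M, orderOf u = 2 ∧ ∀ g ∈ M, g * u * g⁻¹ ∈ C[zPuigOf S] := by
  have p0 := pS.to_le le
  have oS : Odd (Nat.card S0) := by
    obtain ⟨n, hn⟩ := (have := Fact.mk hp; IsPGroup.iff_card.1 p0)
    rw [hn]; exact (hp.odd_of_ne_two p2).pow
  have od : ∀ n, Odd (Nat.card ↥(M ⊓ C[puigAtOf S0 (n + 1)])) := fun n => sb_odd fun u hu ou => by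
    have nu := zp_norm (n0 hu.1)
    have h1 : ⁅S0, zpowers u⁆ ≤ puigAtOf S0 (n + 1) := (le_inf (commutator_le_of_le_norm_left nu)
      ((commutator_mono le_rfl (zpowers_le.2 hu.2)).trans (commutator_le_of_le_norm_right
        (le_norm_cent (le_normalizer.trans (norm_le_norm_puigAtOf _ _)))))).trans (inf_cent_puigAtOf_le hp p0 n)
    have h2 := coprime_le_cent_of_commutator_le_cent nu (cop2 oS ou) (h1.trans (le_cent_symm (zpowers_le.2 hu.2)))
    have := odd_ord o0 ⟨hu.1, le_cent_symm h2 (mem_zpowers u)⟩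
    rw [ou] at this
    exact absurd this (by decide)
  have key : ∀ n, puigAtOf S (2 * n) ≤ puigAtOf S0 (2 * n) := by
    intro n
    induction n with
    | zero => rw [puigAtOf_zero]; exact bot_le
    | succ n ih =>
      have h1 : puigAtOf S0 (2 * n + 1) ≤ puigAtOf S (2 * n + 1) := by
        rw [puigAtOf_succ, puigAtOf_succ]; exact puigSucc_mono le ih
      rw [show 2 * (n + 1) = 2 * n + 1 + 1 by ring, puigAtOf_succ S, puigAtOf_succ _ (2 * n + 1)]
      exact puigSucc_le_of_forall fun A a1 a2 a3 => le_puigSucc (st _ A (p0.to_le (puigAtOf_le _ _))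
        ((puigAtOf_le _ _).trans (le.trans SM)) (n0.trans (norm_le_norm_puigAtOf _ _)) (od _) a1 a2 (h1.trans a3))
        a2 (h1.trans a3)
  have h1 : puigInfOf S ≤ puigInfOf S0 := by
    rw [puigInfOf_eq, puigInfOf_eq]; exact iSup_mono key
  have h2 : puigOf S0 ≤ puigOf S := by
    rw [puigOf_def, puigOf_def]; exact puigSucc_mono le h1
  have hZY : zPuigOf S ≤ zPuigOf S0 := by
    refine le_inf ?_ (inf_le_right.trans (cent_anti h2))
    exact (le_inf (zPuigOf_le S) (inf_le_right.trans (cent_anti (puigInfOf_le_puigOf S)))).trans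
      ((inf_cent_puigInfOf_le hp pS).trans (h1.trans (puigInfOf_le_puigOf _)))
  have hYn : M ≤ N[zPuigOf S0] := n0.trans (norm_le_norm_zPuigOf _)
  have hYS : zPuigOf S0 ≤ S := (zPuigOf_le _).trans le
  by_cases o : Odd (Nat.card ↥(M ⊓ C[zPuigOf S0]))
  · have hL : puigOf S ≤ S0 := by
      rw [puigOf_def]
      exact puigSucc_le_of_forall fun A a1 a2 a3 => st _ A (pS.to_le hYS) (hYS.trans SM) hYn o a1 a2
        ((abelian_norm_Puig hYS (zPuigOf_comm _) (SM.trans hYn)).1.trans a3)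
    have e1 : zPuigOf S0 = zPuigOf S := by rw [zPuigOf, sub_Puig_eq le hL]; rfl
    exact .inl (e1 ▸ hYn)
  · obtain ⟨u, hu, ou⟩ := exists_inv (Nat.not_odd_iff_even.1 o)
    exact .inr ⟨u, hu.1, ou, fun g hg => cent_anti hZY (conj_mem_of_mem_norm (le_norm_cent hYn hg) hu.2)⟩

end Cfsg.Agent.SE.Pu
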