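import Cfsg.Agent.SE.Def
import Cfsg.Agent.WA.Sg5
import Cfsg.Agent.WA.B1A
import Cfsg.Agent.TT.Comp
import Cfsg.Agent.Cls.TwoGroups
import Cfsg.Agent.Cls.Four

/-! Groups not of component type: balance, and 2-groups of rank one. -/

set_option autoImplicit false
set_option linter.unusedSectionVars false
set_option linter.unusedVariables false

namespace Cfsg.Agent.SE.Rd

open Cfsg Subgroup Cfsg.Agent.GT Cfsg.Agent.Cls Cfsg.Agent.GW Cfsg.Agent.WA

universe u

variable {G : Type u} [Group G] [Finite G] {A B R S T U V W X Y : Subgroup G} {a b g t z : G}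

/-- characteristic 2 -/
def CH (X : Subgroup G) : Prop := X ⊓ C[piCoreOf {2} X] ≤ piCoreOf {2} X

theorem CH.axb (h : CH X) (hR : R ≤ X) (pR : IsPGroup 2 R) (hY : Y ≤ X) (oY : IsPiSubgroup {2}ᶜ Y) (c1 : Y ≤ C[R])
    (c2 : piCoreOf {2} X ⊓ C[R] ≤ C[Y]) : Y = ⊥ :=
  ((piCoreOf_isPi {2} X).of_le ((le_inf hY (thompson_AxB_pgroup Nat.prime_two (piCoreOf_isPGroup Nat.prime_two X) pR oY
    (hY.trans (self_le_norm_piCoreOf _ _)) (hR.trans (self_le_norm_piCoreOf _ _)) c1 c2)).trans h)).eq_bot oY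

theorem o2_le (X R : Subgroup G) : piCoreOf {2} X ⊓ C[R] ≤ piCoreOf {2} (X ⊓ C[R]) :=
  le_piCoreOf (inf_le_inf_right _ (piCoreOf_le _ _))
    (le_norm_inf (inf_le_left.trans (self_le_norm_piCoreOf _ _)) (le_norm_self inf_le_right)) (piCoreOf_isPi _ _).inf_left

theorem CH.core (h : CH X) (hR : R ≤ X) (pR : IsPGroup 2 R) : O[X ⊓ C[R]] = ⊥ :=
  h.axb hR pR ((piCoreOf_le _ _).trans inf_le_left) (piCoreOf_isPi _ _) ((piCoreOf_le _ _).trans inf_le_right)
    ((o2_le X R).trans piCoreOf_le_cent_compl)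

/-- centralizers of involutions have characteristic 2 modulo their cores -/
def NC (G : Type u) [Group G] : Prop := ∀ t : G, orderOf t = 2 → ∃ (Q : Type u) (_ : Group Q) (_ : Finite Q)
  (f : C1[t] →* Q), Function.Surjective f ∧ kr f = O[C1[t]] ∧ CH (⊤ : Subgroup Q)

theorem nc_of (hc : ¬ IsComponentType G) : NC G := fun t ht => by
  have e : kr (QuotientGroup.mk' (oddCore C1[t])) = O[C1[t]] := (kr_mk' _).trans (map_subtype_pPrimeCore Nat.prime_two _)
  have sj := QuotientGroup.mk'_surjective (oddCore C1[t])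
  refine ⟨_, _, inferInstance, _, sj, e, ?_⟩
  have o := piCoreOf_im_eq_bot le_rfl e
  rw [im_dom_of_surj sj] at o
  have := TT.inf_cent_fstarOf_le (⊤ : Subgroup (C1[t] ⧸ oddCore C1[t]))
  rwa [TT.fstarOf, TT.layerOf_eq_bot_iff.2 fun K hK => hc ⟨t, ht, K, TT.cmp_top_iff.1 hK⟩, bot_sup_eq,
    fittingOf_eq_piCoreOf Nat.prime_two o] at this

theorem NC.core (h : NC G) (ht : orderOf t = 2) (hR : R ≤ C1[t]) (pR : IsPGroup 2 R) : O[C1[t] ⊓ C[R]] ≤ O[C1[t]] := by
  obtain ⟨Q, _, _, f, sj, hk, c⟩ := h t ht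
  rw [← hk, ← im_eq_bot_iff ((piCoreOf_le _ _).trans inf_le_left), eq_bot_iff]
  refine (im_piCoreOf_le inf_le_left).trans ?_
  rw [im_inf_cent_of_coprime_kr le_rfl hR kr_le (.inr (solvable_of_isPGroup Nat.prime_two pR))
    (hk ▸ cop2' (O_odd _) pR), im_dom_of_surj sj, c.core le_top (isPGroup_im pR)]

theorem NC.bal (h : NC G) (ha : orderOf a = 2) (hb : orderOf b = 2) (c : a ∈ C1[b]) : O[C1[a]] ⊓ C1[b] ≤ O[C1[b]] := by
  refine le_trans ?_ (h.core hb (zpowers_le.2 c) (pg2 ha))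
  rw [cent_zpowers]
  exact (le_inf inf_le_left (le_inf inf_le_right (inf_le_left.trans (O_le _)))).trans (piCoreOf_inf_le inf_le_right)

theorem NC.ch (h : NC G) (ht : orderOf t = 2) (o : O[C1[t]] = ⊥) : CH C1[t] := by
  obtain ⟨Q, _, _, f, sj, hk, c⟩ := h t ht
  have e := im_piCore2Of_of_kr_eq (ρ := {2}) le_rfl hk
  rw [piCore2Of_of_eq_bot o, im_dom_of_surj sj] at e
  rw [CH, ← e] at c
  have := (im_le_im_iff inf_le_left (piCoreOf_le _ _)).1 (im_inf_cent_le.trans ((inf_le_inf_right _ le_top).trans c))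
  rwa [hk, o, sup_bot_eq] at this

theorem char_two (h : NC G) (h2 : Even (Nat.card G)) (o : ∀ t : G, orderOf t = 2 → O[C1[t]] = ⊥) :
    IsCharacteristicTwoType G := by
  refine ⟨h2, fun T hT hT1 => ?_⟩
  have hp : Nat.Prime 2 := Nat.prime_two
  have := Fact.mk hp
  obtain ⟨t, ht, ht2⟩ := exists_mem_orderOf_eq hp (prime_dvd_card_of_isPGroup hp (hT.to_le inf_le_left)
    (inf_cent_ne_bot_of_isPGroup hp hT hT le_normalizer hT1))
  have c := h.ch ht2 (o t ht2)
  have hTC : T ≤ C1[t] := mem_cent_iff_le_cent1.1 ht.2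
  have hCT : C[T] ≤ C1[t] := cent_le_cent1 ht.1
  set Q := piCoreOf {2} N[T] with hQ
  have hTQ : T ≤ Q := le_piCoreOf_single hp le_normalizer le_rfl hT
  have hXC : N[T] ⊓ C[Q] ≤ C[T] := inf_le_right.trans (cent_anti hTQ)
  have l : piCoreOf {2} C1[t] ⊓ C[T] ≤ Q := (o2_le _ _).trans (by
    rw [inf_eq_right.2 hCT]
    exact piCoreOf_le_of_normal (cent_le_norm T) (norm_le_norm_cent T))
  have h5 : N[T] ⊓ C[Q] ≤ Q := le_piCoreOf_single hp inf_le_left
    (le_norm_inf le_normalizer (le_norm_cent (self_le_norm_piCoreOf _ _))) (PG.isPGroup_of_forall_coprime fun y hy cy =>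
      zpowers_eq_bot.1 (c.axb hTC hT ((zpowers_le.2 (hXC hy)).trans hCT) (odd_iff_pi.2 (by
        rw [Nat.card_zpowers]; exact Nat.coprime_two_right.1 cy)) (zpowers_le.2 (hXC hy))
        (l.trans (le_cent_symm (zpowers_le.2 hy.2)))))
  intro x hx
  have e : (pCore 2 ↥N[T]).map (N[T]).subtype = Q := map_subtype_pCore hp _
  have hx' : (x : G) ∈ N[T] ⊓ C[Q] := by
    refine ⟨x.2, ?_⟩
    rw [← e]
    rintro _ ⟨y, hy, rfl⟩
    exact congrArg Subtype.val (hx y hy)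
  have := h5 hx'
  rw [← e] at this
  obtain ⟨y, hy, hyx⟩ := this
  exact (Subtype.ext hyx : y = x) ▸ hy

/-- a self-centralizing normal 2-subgroup of rank one -/
theorem rank_one (pT : IsPGroup 2 T) (n : X ≤ N[T]) (c : X ⊓ C[T] ≤ T) (TX : T ≤ X) (r : PRankLE 2 1 T)
    (hA : PnElem 2 3 X A) : IsPGroup 2 X := by
  have hp : Nat.Prime 2 := Nat.prime_two
  have := Fact.mk hp
  have cy : ∀ B : Subgroup G, B ≤ T → IsMulCommutative B → IsCyclic B := fun B le cm =>
    PG.isCyclic_of_comm_of_pRankLE_one (pT.to_le le) cm (PG.pRankLE_of_le r le)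
  suffices ∀ B : Subgroup G, B ≤ X → (Nat.card B).Coprime 2 → B ≤ C[T] from
    PG.isPGroup_of_forall_coprime_le hp (pT.to_le inf_le_right) fun B le co => (le_inf le (this B le co)).trans c
  intro B le co
  have cc : ∀ Y : Subgroup G, IsCyclic Y → Y ≤ T → B ≤ N[Y] → B ≤ C[Y] := fun Y h l m =>
    PG.le_cent_of_isCyclic_of_coprime h (pT.to_le l) m co (by simp)
  by_cases h : IsCyclic T
  · exact cc T h le_rfl (le.trans n)
  obtain ⟨m, ⟨e⟩⟩ := (two_group_rank_one pT cy).resolve_left h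
  have cT : Nat.card T = 4 * 2 ^ (m + 1) := by
    rw [Nat.card_congr e.toEquiv, Nat.card_eq_fintype_card, QuaternionGroup.card]
  rcases Nat.eq_zero_or_pos m with rfl | m0
  · exfalso
    have AT : A ≤ N[T] := hA.le.trans n
    obtain ⟨Y, YT, nY, cY⟩ := PG.exists_normal_card_eq (pT.to_sup_of_normal_left' hA.isPGroup AT) le_sup_left
      (sup_le le_normalizer AT) (n := 2) (by omega)
    have cmY : IsMulCommutative Y := IsPGroup.isMulCommutative_of_card_eq_prime_sq cY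
    have cm := isMulCommutative_iff_forall.1 cmY
    have i1 := PG.relIndex_cent_dvd_totient (cy Y YT cmY) (le_sup_right.trans nY)
    have i2 := card_inf_mul_relIndex C[Y] A
    rw [cY, show Nat.totient (2 ^ 2) = 2 by decide] at i1
    rw [hA.card] at i2
    have i3 := Nat.le_of_dvd two_pos i1
    refine PG.not_pRankLE_of_elemAb' hp (E := C[Y] ⊓ A) ⟨comm_of_le hA.comm inf_le_right, fun x hx => hA.elem.2 x hx.2⟩
      (fun α hα => ?_) (by have := Nat.mul_le_mul_left (Nat.card ↥(C[Y] ⊓ A)) i3; omega) r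
    have out : ∀ {x y : G}, x ∈ T → y ∈ T → x ∉ Y → y ∉ Y → x * y ∈ Y :=
      mul_mem_of_card_le_two_mul YT (by omega)
    have un : ∀ u ∈ Y, ∀ v ∈ Y, u * u = 1 → v * v = 1 → u ≠ 1 → v ≠ 1 → u = v := fun u hu v hv uu vv u1 v1 =>
      by_contra fun ne => PG.pnElem_not_pRankLE hp (PG.pnElem_two_sup hp (PG.pnElem_one_zpowers hp (YT hu) u1 (sq u ▸ uu))
        (PG.pnElem_one_zpowers hp (YT hv) v1 (sq v ▸ vv)) (fun q => (zp2' uu (q ▸ mem_zpowers v)).elim v1 fun q => ne q.symm)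
        (zpowers_le.2 (cent_zpowers v ▸ mem_cent1.2 (cm u hu v hv)))) r
    obtain ⟨b, hb, bY⟩ := SetLike.not_le_iff_exists.1 fun l : T ≤ Y => h (cyc_of_le (cy Y YT cmY) l)
    have ce : ∀ w ∈ C[Y], w * b = b * w → w ∈ C[T] := fun w hw wb => mem_cent_iff_le_cent1.2 fun τ hτ => by
      have l := mem_cent_iff_le_cent1.1 hw
      by_cases k : τ ∈ Y
      · exact l k
      · exact (mul_mem_cancel_right (mem_cent1.2 wb.symm)).1 (l (out hτ hb k bY))
    have key : ∀ w ∈ T ⊔ A, w ∈ C[Y] → w * w * b = b * (w * w) → w * b ≠ b * w →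
        w * b * w⁻¹ * b⁻¹ ∈ Y ∧ w * b * w⁻¹ * b⁻¹ * (w * b * w⁻¹ * b⁻¹) = 1 ∧ w * b * w⁻¹ * b⁻¹ ≠ 1 := fun w hw cw ww ne => by
      have m : w * b * w⁻¹ * b⁻¹ ∈ Y := out (conj_mem_of_mem_norm (sup_le le_normalizer AT hw) hb) (inv_mem hb)
        (fun k => bY (by simpa [mul_assoc] using conj_mem_of_mem_norm (inv_mem (nY hw)) k)) (fun k => bY (Y.inv_mem_iff.1 k))
      refine ⟨m, ?_, fun q => ne (by rw [mul_inv_eq_one, mul_inv_eq_iff_eq_mul] at q; exact q)⟩
      have := mem_centralizer_iff.1 cw _ m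
      calc w * b * w⁻¹ * b⁻¹ * (w * b * w⁻¹ * b⁻¹) = (w * b * w⁻¹ * b⁻¹ * w) * b * w⁻¹ * b⁻¹ := by group
        _ = (w * w * b) * (w * w)⁻¹ * b⁻¹ := by rw [this]; group
        _ = 1 := by rw [ww]; group
    by_cases αb : α * b = b * α
    · exact c ⟨hA.le hα.2, ce α hα.1 αb⟩
    obtain ⟨y, hy, yb⟩ : ∃ y ∈ Y, y * b ≠ b * y := by
      by_contra! k
      have bT := ce b (mem_centralizer_iff.2 k) rfl
      refine h (cy T le_rfl (comm_iff_le_cent.2 fun τ hτ => ?_))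
      have l : Y ≤ C[T] := fun y hy => ce y (comm_iff_le_cent.1 cmY hy) (k y hy)
      by_cases k : τ ∈ Y
      · exact l k
      · exact (mul_mem_cancel_right bT).1 (l (out hτ hb k bY))
    have y4 : y * y * (y * y) = 1 := by
      have := orderOf_dvd_iff_pow_eq_one.1 (cY ▸ orderOf_dvd_card_of_mem hy)
      rw [← this, show 2 ^ 2 = 2 + 2 from rfl, pow_add, sq]
    obtain ⟨k1, k2, k3⟩ := key α (mem_sup_right hα.2) hα.1 (by rw [← sq, hA.elem.2 α hα.2, one_mul, mul_one]) αb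
    obtain ⟨l1, l2, l3⟩ := key y (mem_sup_left (YT hy)) (comm_iff_le_cent.1 cmY hy) (by
      by_cases q : y * y = 1
      · rw [q, one_mul, mul_one]
      · exact (mul_inv_eq_iff_eq_mul.1 (un _ (conj_mem_of_mem_norm (nY (mem_sup_left hb)) (mul_mem hy hy)) _ (mul_mem hy hy)
          (sq_conj y4 b) y4 (cne q b) q)).symm) yb
    have q := mul_right_cancel (un _ k1 _ l1 k2 l2 k3 l3)
    refine (mul_mem_cancel_left (inv_mem (YT hy))).1 (c ⟨X.mul_mem (inv_mem (TX (YT hy))) (hA.le hα.2),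
      ce _ (mul_mem (inv_mem (comm_iff_le_cent.1 cmY hy)) hα.1) ?_⟩)
    calc y⁻¹ * α * b = y⁻¹ * (α * b * α⁻¹) * α := by group
      _ = _ := by rw [q]; group
  · have o : orderOf ((e.symm (QuaternionGroup.a 1) : T) : G) = 2 * 2 ^ (m + 1) := by
      rw [orderOf_coe, e.symm.orderOf_eq, QuaternionGroup.orderOf_a_one]
    have l := zpowers_le.2 (e.symm (QuaternionGroup.a 1)).2
    refine le_cent_of_index_two pT l (by rw [Nat.card_zpowers, o, cT]; omega) (le.trans n)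
      (cc _ inferInstance l fun g hg => mem_normalizer_fintype fun x hx => ?_) co
    obtain ⟨k, rfl⟩ := hx
    rw [← conj_zpow]
    refine zpow_mem ?_ k
    have mT := conj_mem_of_mem_norm (n (le hg)) (e.symm (QuaternionGroup.a 1)).2
    have o' : orderOf (e ⟨_, mT⟩) = 2 * 2 ^ (m + 1) := by
      rw [e.orderOf_eq, ← orderOf_coe]; exact (orderOf_conj _ _).trans o
    rcases q : e ⟨_, mT⟩ with i | i
    · refine ⟨(i.val : ℕ), ?_⟩
      have : e.symm (QuaternionGroup.a 1) ^ i.val = ⟨_, mT⟩ := by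
        rw [← map_pow, QuaternionGroup.a_one_pow, ZMod.natCast_zmod_val, ← q, e.symm_apply_apply]
      exact (zpow_natCast _ _).trans (congrArg Subtype.val this)
    · rw [q, QuaternionGroup.orderOf_xa] at o'
      have := Nat.pow_le_pow_right two_pos (show 2 ≤ m + 1 by omega)
      omega

end Cfsg.Agent.SE.Rd
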