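import Cfsg.Agent.SE.Def2
import Cfsg.Agent.SE.FL
import Cfsg.Agent.TT.Comp

/-! Strongly embedded subgroups: abstract stability. -/

set_option autoImplicit false
set_option linter.unusedSectionVars false
set_option linter.unusedVariables false

namespace Cfsg.Agent.SE.ST

open Cfsg Subgroup MulAction Cfsg.Agent.GT Cfsg.Agent.Cls Cfsg.Agent.GW Cfsg.Agent.WA

universe u

variable {G Ω : Type u} [Group G] [Finite G] [MulAction G Ω] {p : ℕ} {Q : Set G} {N Y : Subgroup G} {x : G}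
  {a b c : Ω}

theorem baer (hp : p.Prime) (cj : ∀ g ∈ N, ∀ d ∈ Q, g * d * g⁻¹ ∈ Q)
    (h : ∀ x ∈ Q, ∀ y ∈ Q, x ∈ N → y ∈ N → IsPGroup p ↥(zpowers x ⊔ zpowers y)) (hx : x ∈ Q) (xN : x ∈ N) :
    x ∈ piCoreOf {p} N := by
  rw [← map_subtype_pCore hp]
  refine ⟨⟨x, xN⟩, TT.baer_suzuki (D := {y : N | (y : G) ∈ Q}) hp (fun g d hd => cj g g.2 d hd) (fun x hx y hy => ?_) hx, rfl⟩
  refine ((h x hx y hy x.2 y.2).comap_of_injective N.subtype N.subtype_injective).to_le ((closure_le _).2 ?_)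
  rintro _ (rfl | rfl)
  exacts [mem_sup_left (mem_zpowers _), mem_sup_right (mem_zpowers _)]

/-- `Y` fixes three points -/
def F3 (Ω : Type u) [MulAction G Ω] (Y : Subgroup G) : Prop := ∃ a b c : Ω, a ≠ b ∧ a ≠ c ∧ b ≠ c ∧
  Y ≤ stabilizer G a ∧ Y ≤ stabilizer G b ∧ Y ≤ stabilizer G c

theorem fx (hY : Y ≤ stabilizer G a) {g : G} (hg : g ∈ N[Y]) : Y ≤ stabilizer G (g • a) := fun y hy => by
  have := hY (conj_mem_of_le_norm le_rfl (inv_mem hg) hy)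
  rwa [mem_stabilizer_iff, inv_inv, mul_smul, mul_smul, inv_smul_eq_iff] at this

theorem cl_norm (cj : ∀ g, ∀ d ∈ Q, g * d * g⁻¹ ∈ Q) {g : G} {Z : Subgroup G} (e : closure (Q ∩ Y) = Y)
    (k : ∀ y ∈ Q, y ∈ Y → g * y * g⁻¹ ∈ Y) : g ∈ N[Y] := by
  refine mem_normalizer_of_conj_le ?_
  nth_rw 1 [← e]
  rw [MonoidHom.map_closure, closure_le]
  rintro _ ⟨y, hy, rfl⟩
  exact k y hy.1 hy.2

theorem st0 (w : Tw1 G Ω) (hp : p.Prime) (p2 : p ≠ 2) (two : Two G Ω p)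
    (q5 : ∀ (Y : Subgroup G) (a b : Ω), a ≠ b → IsPGroup p Y → Y ≤ stabilizer G a ⊓ stabilizer G b →
      stabilizer G a ⊓ stabilizer G b ≤ N[Y] → (∀ s : G, orderOf s = 2 → s • a = a → s ∈ N[Y]) → Y = ⊥)
    (cj : ∀ g, ∀ d ∈ Q, g * d * g⁻¹ ∈ Q) (pe : ∀ x ∈ Q, IsPGroup p (zpowers x))
    (q : ∀ x ∈ Q, ∀ y ∈ Q, IsPGroup p ↥(zpowers x ⊔ zpowers y) ∨
      ∃ u ∈ zpowers x ⊔ zpowers y, orderOf u = 2 ∧ u * x = x * u) (hx : x ∈ Q) : x = 1 := by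
  have : Fact p.Prime := ⟨hp⟩
  have b0 : (⊥ : Subgroup G) ∈ {Y : Subgroup G | IsPGroup p Y ∧ closure (Q ∩ Y) = Y ∧ F3 Ω Y} := by
    refine ⟨IsPGroup.of_bot, le_bot_iff.1 ((closure_le _).2 Set.inter_subset_right), ?_⟩
    obtain ⟨s, -, o, -⟩ := w.ac.rk
    obtain ⟨a, sa, un⟩ := w.ac.fix s o
    have := w.ac.nt
    obtain ⟨d, hd⟩ := exists_ne a
    exact ⟨a, d, s • d, hd.symm, fun e => hd (smul_left_cancel s (e.symm.trans sa.symm)), fun e => hd (un _ e.symm),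
      bot_le, bot_le, bot_le⟩
  obtain ⟨Y, ⟨pY, eY, a, b, c, ab, ac, bc, ha, hb, hc⟩, -, mx⟩ := exists_maximal_ge b0
  have mx' : ∀ Z : Subgroup G, IsPGroup p Z → F3 Ω Z → Y ≤ Z → closure (Q ∩ Z) = Y := fun Z pZ fZ l => by
    have l1 : closure (Q ∩ Z) ≤ Z := (closure_le _).2 Set.inter_subset_right
    obtain ⟨a, b, c, h1, h2, h3, h4, h5, h6⟩ := fZ
    exact mx _ ⟨pZ.to_le l1, le_antisymm ((closure_le _).2 Set.inter_subset_right)
      (closure_mono fun y hy => ⟨hy.1, subset_closure hy⟩), a, b, c, h1, h2, h3, l1.trans h4, l1.trans h5, l1.trans h6⟩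
      (eY.ge.trans (closure_mono (Set.inter_subset_inter_right _ l)))
  have ev : ∀ d : Ω, Y ≤ stabilizer G d → ∃ v ∈ N[Y], orderOf v = 2 ∧ v • d = d := fun d hd => by
    obtain ⟨e, e', h1, h2, h3, h4, h5⟩ : ∃ e e' : Ω, d ≠ e ∧ d ≠ e' ∧ e ≠ e' ∧ Y ≤ stabilizer G e ∧
        Y ≤ stabilizer G e' := by
      by_cases k : d = a
      · exact ⟨b, c, k ▸ ab, k ▸ ac, bc, hb, hc⟩
      by_cases k' : d = b
      · exact ⟨a, c, k, k' ▸ bc, ac, ha, hc⟩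
      · exact ⟨a, b, k, k', ab, ha, hb⟩
    obtain ⟨v, f, Z, o, vd, fd, l, n, hZ⟩ := FL.fl_syl w.ac hp pY h1 h2 h3 hd h4 h5
    have e := mx' Z (syl_isPGroup hp hZ) ⟨d, f, v • f, fd.symm, fun e => fd (smul_left_cancel v (e.symm.trans vd.symm)),
      fun e => fd ((w.ac.fix v o).unique e.symm vd), hZ.le.trans inf_le_left,
      hZ.le.trans (inf_le_right.trans inf_le_left), hZ.le.trans (inf_le_right.trans inf_le_right)⟩ l
    exact ⟨v, cl_norm (Z := Z) cj eY fun y hy k => e.le (subset_closure ⟨cj v y hy, conj_mem_of_le_norm le_rfl n (l k)⟩),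
      o, vd⟩
  have tr : ∀ d e : Ω, Y ≤ stabilizer G d → Y ≤ stabilizer G e → ∃ g ∈ N[Y], g • d = e := fun d e hd he => by
    by_cases k : d = e
    · exact ⟨1, one_mem _, (one_smul _ _).trans k⟩
    obtain ⟨v, hv, o, vd⟩ := ev d hd
    obtain ⟨v', hv', o', ve⟩ := ev e he
    obtain ⟨-, t, ht, -, -, td, -⟩ := w.mid d e v v' k o o' vd ve
    exact ⟨t, V_le hv hv' ht, td⟩
  have QN : ∀ x ∈ Q, x ∈ N[Y] → x ∈ Y := fun x hx xN => by
    have pp : ∀ T : Subgroup G, IsPGroup p T → T ≤ N[Y] → IsPGroup p ↥(T ⊔ Y) := fun T pT n =>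
      ((isPi_of_isPGroup hp pT).sup (isPi_of_isPGroup hp pY) (Or.inl n)).isPGroup hp
    have pZ := pp _ (pe x hx) (zpowers_le.2 xN)
    refine (mx' _ pZ ?_ le_sup_right).le (subset_closure ⟨hx, mem_sup_left (mem_zpowers x)⟩)
    by_cases k : ∃ u ∈ N[Y], orderOf u = 2 ∧ u * x = x * u
    · obtain ⟨u, hu, o, cm⟩ := k
      obtain ⟨m, um, un⟩ := w.ac.fix u o
      obtain ⟨v, hv, ov, va⟩ := ev a ha
      obtain ⟨g, hg⟩ := w.home hv ov va hu o um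
      have Ym : Y ≤ stabilizer G m := hg ▸ fx ha g.2
      have xm : x • m = m := un _ (by change u • x • m = x • m; rw [← mul_smul, cm, mul_smul, um])
      obtain ⟨d, nd, hd⟩ : ∃ d : Ω, d ≠ m ∧ zpowers x ⊔ Y ≤ stabilizer G d := by
        obtain ⟨d, e, n, h1, h2⟩ := two.1 _ pZ
        by_cases k : d = m
        exacts [⟨e, fun k' => n (k.trans k'.symm), h2⟩, ⟨d, k, h1⟩]
      have xd : x • d = d := hd (mem_sup_left (mem_zpowers x))
      exact ⟨m, d, u • d, nd.symm, fun e => nd (smul_left_cancel u (e.symm.trans um.symm)), fun e => nd (un _ e.symm),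
        sup_le (zpowers_le.2 xm) Ym, hd, sup_le (zpowers_le.2 (by
          rw [mem_stabilizer_iff, ← mul_smul, ← cm, mul_smul, xd])) (fx (le_sup_right.trans hd) hu)⟩
    · have xO : x ∈ piCoreOf {p} N[Y] := by
        refine baer (Q := {y | ∃ g ∈ N[Y], y = g * x * g⁻¹}) hp ?_ ?_ ⟨1, one_mem _, by simp⟩ xN
        · rintro g hg _ ⟨h, hh, rfl⟩
          exact ⟨g * h, mul_mem hg hh, by group⟩
        · rintro _ ⟨g, hg, rfl⟩ _ ⟨h, hh, rfl⟩ h1 h2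
          refine (q _ (cj g x hx) _ (cj h x hx)).resolve_right ?_
          rintro ⟨u, hu, o, cm⟩
          refine k ⟨g⁻¹ * u * g⁻¹⁻¹, mul_mem (mul_mem (inv_mem hg) (V_le h1 h2 hu)) (inv_mem (inv_mem hg)),
            ord2_conj o _, ?_⟩
          rw [show g⁻¹ * u * g⁻¹⁻¹ * x = g⁻¹ * (u * (g * x * g⁻¹)) * g by group, cm]
          group
      obtain ⟨d, -, -, hd, -⟩ := two.1 _ (pp _ (piCoreOf_isPGroup hp N[Y]) (piCoreOf_le _ _))
      have al : ∀ e : Ω, Y ≤ stabilizer G e → zpowers x ⊔ Y ≤ stabilizer G e := fun e he => by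
        obtain ⟨g, hg, rfl⟩ := tr d e (le_sup_right.trans hd) he
        exact sup_le (zpowers_le.2 (fx (le_sup_left.trans hd) (self_le_norm_piCoreOf _ _ hg) xO)) he
      exact ⟨a, b, c, ab, ac, bc, al a ha, al b hb, al c hc⟩
  have QD : ∀ x ∈ Q, x ∈ stabilizer G a ⊓ stabilizer G b → x ∈ piCoreOf {p} (stabilizer G a ⊓ stabilizer G b) :=
    fun x hx xD => baer hp (fun g _ => cj g) (fun x hx y hy h1 h2 => (q x hx y hy).resolve_right fun ⟨u, hu, o, _⟩ =>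
      absurd (o ▸ odd_ord (w.odd a b ab) (V_le h1 h2 hu)) (by decide)) hx xD
  obtain ⟨W, hW⟩ : ∃ W, W = piCoreOf {p} (stabilizer G a ⊓ stabilizer G b) := ⟨_, rfl⟩
  have WN : W ≤ N[Y] := by
    by_contra n
    have YW : Y ≤ W := eY.ge.trans ((closure_le _).2 fun y hy => hW ▸ QD y hy.1 ⟨ha hy.2, hb hy.2⟩)
    refine (lt_inf_norm_of_isPGroup hp (hW ▸ piCoreOf_isPGroup hp _)
      (lt_of_le_of_ne (inf_le_left : W ⊓ N[Y] ≤ W) fun e => n (e.ge.trans inf_le_right))).not_ge fun g hg => ⟨hg.1, ?_⟩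
    exact cl_norm (Z := Y) cj eY fun y hy k => QN _ (cj g y hy)
      (conj_mem_of_le_norm le_rfl hg.2 (show y ∈ W ⊓ N[Y] from ⟨YW k, le_normalizer k⟩)).2
  have DN : stabilizer G a ⊓ stabilizer G b ≤ N[Y] := fun g hg => cl_norm (Z := Y) cj eY fun y hy k =>
    QN _ (cj g y hy) (WN (hW ▸ QD _ (cj g y hy) (mul_mem (mul_mem hg ⟨ha k, hb k⟩) (inv_mem hg))))
  have e := q5 Y a b ab pY (le_inf ha hb) DN fun s o sa => by
    obtain ⟨v, hv, ov, va⟩ := ev a ha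
    obtain ⟨t, ot, ta, tb⟩ := w.ex_swap ab
    obtain ⟨k, ⟨k1, k2, -, rfl⟩, -⟩ := w.kk a b t v s ab ot ta tb ov o va sa
    exact mul_mem (mul_mem (DN ⟨k1, k2⟩) hv) (inv_mem (DN ⟨k1, k2⟩))
  have := QN x hx (by rw [e]; exact mem_normalizer_of_conj_le (by simp))
  rwa [e, mem_bot] at this

end Cfsg.Agent.SE.ST
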