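import Cfsg.Agent.SE.T3
import Cfsg.Agent.SE.UMA

/-! Strongly embedded subgroups, type II: a Sylow `p`-subgroup fixes exactly two points. -/

set_option autoImplicit false
set_option linter.unusedSectionVars false
set_option linter.unusedVariables false

namespace Cfsg.Agent.SE.TW

open Cfsg Subgroup MulAction Cfsg.Agent.GT Cfsg.Agent.Cls Cfsg.Agent.GW Cfsg.Agent.WA

universe u

variable {G Ω : Type u} [Group G] [Finite G] [MulAction G Ω] {a b e f m : Ω} {s t u v x y k g : G}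
  {P Q W : Subgroup G} {p : ℕ}

/-- the four-group trick -/
theorem s4 (w : Tw1 G Ω) (oW : Odd (Nat.card W)) (ht : orderOf t = 2) (hu : orderOf u = 2) (ne : u ≠ t)
    (cm : u * t = t * u) (nt : t ∈ N[W]) (nu : u ∈ N[W]) (tm : t • m = m) (nc : ¬ W ≤ C1[t]) :
    ∃ x ∈ W, x ≠ 1 ∧ t * x * t = x⁻¹ ∧ C1[x] ≤ stabilizer G m := by
  by_contra hn
  have key : ∀ v : G, orderOf v = 2 → t ∈ C1[v] → W ⊓ C1[v] ≤ C1[t] := fun v ov tv y hy => by
    have xW : y * (t * y⁻¹ * t⁻¹) ∈ W := mul_mem hy.1 (conj_mem_of_mem_norm nt (inv_mem hy.1))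
    have ix : t * (y * (t * y⁻¹ * t⁻¹)) * t⁻¹ = (y * (t * y⁻¹ * t⁻¹))⁻¹ := by
      rw [show t * (y * (t * y⁻¹ * t⁻¹)) * t⁻¹ = t * y * t * y⁻¹ * (t * t)⁻¹ by group, sq1 ht]
      nth_rewrite 2 [← inv2 ht]
      group
    have xv : y * (t * y⁻¹ * t⁻¹) ∈ C1[v] := mul_mem hy.2 (mul_mem (mul_mem tv (inv_mem hy.2)) (inv_mem tv))
    by_contra h
    have x1 : y * (t * y⁻¹ * t⁻¹) ≠ 1 := fun e => h (mem_cent1.2 (by
      rw [← one_mul (t * y), ← e]; group))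
    refine hn ⟨_, xW, x1, (NA.tinv ht).2 ix, NA.even_cent w ht tm ix (oW.of_dvd_nat (orderOf_dvd_natCard _ xW)) x1
      fun o => ?_⟩
    exact absurd (o.of_dvd_nat (ov ▸ orderOf_dvd_natCard _ (mem_cent1_comm.1 xv))) (by decide)
  exact nc (gen3 ht hu ne cm oW nt nu inf_le_right (key u hu (mem_cent1.2 cm.symm))
    (key _ (ord2_mul ht hu ne cm) (c1_mul (self_mem_cent1 t) (mem_cent1.2 cm.symm))))

theorem ex_comm (w : Tw1 G Ω) (ht : orderOf t = 2) : ∃ u : G, orderOf u = 2 ∧ u ≠ t ∧ u * t = t * u := by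
  obtain ⟨s, s', os, os', ne, cm⟩ := w.ac.rk
  obtain ⟨k, rfl⟩ := isConj_iff.1 (w.cj s t os ht)
  exact ⟨k * s' * k⁻¹, ord2_conj os' k, by simpa using ne.symm, by
    rw [show k * s' * k⁻¹ * (k * s * k⁻¹) = k * (s' * s) * k⁻¹ by group, ← cm]; group⟩

theorem sym (w : Tw1 G Ω) (ne : a ≠ b) (h : Mp G p a ≤ stabilizer G b) : Mp G p b ≤ stabilizer G a := by
  obtain ⟨t, -, ta, tb⟩ := PG.swap w ne
  have := sb_fix h t
  rwa [NA.eqvP, ta, tb] at this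

theorem exX (mc : Mc G Ω) (hp : p.Prime) (p2 : p ≠ 2) (M1 : Mp G p e ≠ ⊥) (ht : orderOf t = 2) (tm : t • m = m)
    (ne : m ≠ e) (h : Mp G p e ≤ stabilizer G (t • e)) : ∃ x : G, x ≠ 1 ∧ IsPGroup p (zpowers x) ∧
      t * x * t = x⁻¹ ∧ x • e = e ∧ C1[x] ≤ stabilizer G m := by
  have w := mc.tw
  obtain ⟨u, hu, ut, cm⟩ := ex_comm w ht
  have um : u • m = m := PB.comm_fix w ht tm cm
  have all : ∀ s : G, orderOf s = 2 → s • m = m → Mp G p e ≤ stabilizer G (s • e) := fun s os sm => by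
    obtain ⟨k, hk, rfl⟩ := w.ac.ac.tr_inv ne ht os tm sm
    rw [mul_smul, NA.fix_inv hk.2, mul_smul]
    exact sb_fixN h (PG.nM hk.2)
  obtain ⟨H, hH⟩ : ∃ H, H = stabilizer G e ⊓ stabilizer G (t • e) ⊓
    (stabilizer G (u • e) ⊓ stabilizer G ((t * u) • e)) := ⟨_, rfl⟩
  have He : H ≤ stabilizer G e := hH ▸ inf_le_left.trans inf_le_left
  have nt : t ∈ N[H] := conj_eq_self_iff.1 (by
    simp only [hH, conj_inf, sb_conj_st, ← mul_smul, ← mul_assoc, sq1 ht, one_mul, one_smul]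
    rw [inf_comm (stabilizer G (t • e)), inf_comm (stabilizer G ((t * u) • e))])
  have nu : u ∈ N[H] := conj_eq_self_iff.1 (by
    simp only [hH, conj_inf, sb_conj_st, ← mul_smul, ← cm, ← mul_assoc, sq1 hu, one_mul, one_smul]
    rw [inf_comm])
  have MW : Mp G p e ≤ piCoreOf {p} H := le_piCoreOf_single hp (hH ▸ le_inf (le_inf PG.leM h)
    (le_inf (all u hu um) (all _ (ord2_mul ht hu ut cm) (by rw [mul_smul, um, tm])))) (He.trans PG.nM)
    (piCoreOf_isPGroup hp _)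
  obtain ⟨x, hx, x1, ix, cx⟩ := s4 w (odd_p hp p2 (piCoreOf_isPGroup hp H)) ht hu ut cm
    (norm_le_norm_piCoreOf _ _ nt) (norm_le_norm_piCoreOf _ _ nu) tm fun le => ne (PB.uniq w ht tm (by
      have : t ∈ N[Mp G p e] := cent_le_norm _ (mem_cent_iff.2 (MW.trans le))
      rwa [TI.norm_M mc M1] at this))
  exact ⟨x, x1, (piCoreOf_isPGroup hp H).to_le (zpowers_le.2 hx), ix, He (piCoreOf_le _ _ hx), cx⟩

theorem pTwo : PTwo.{u} := fun G Ω _ _ _ p mc hp p2 M1 ⟨a0, b0, ne0, ed0⟩ kp => by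
  have w := mc.tw
  have pM : ∀ a : Ω, IsPGroup p (Mp G p a) := fun a => piCoreOf_isPGroup hp _
  obtain ⟨⟨P, pP, a, b, ne, ed, Pa, Pb⟩, mx⟩ := @Finite.exists_max {Q : Subgroup G // IsPGroup p Q ∧ ∃ a b : Ω, a ≠ b ∧
    Mp G p a ≤ stabilizer G b ∧ Q ≤ stabilizer G a ∧ Q ≤ stabilizer G b} ℕ _
    ⟨⟨⊥, IsPGroup.of_bot, a0, b0, ne0, ed0, bot_le, bot_le⟩⟩ _ fun X => Nat.card X.1
  replace mx : ∀ e f : Ω, e ≠ f → Mp G p e ≤ stabilizer G f → ∀ Q : Subgroup G, IsPGroup p Q → P ≤ Q →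
      Q ≤ stabilizer G e ⊓ stabilizer G f → Q = P := fun e f n h Q pQ le l =>
    (eq_of_le_of_card_ge le (mx ⟨Q, pQ, e, f, n, h, l.trans inf_le_left, l.trans inf_le_right⟩)).symm
  have inP : ∀ e f : Ω, e ≠ f → Mp G p e ≤ stabilizer G f → P ≤ stabilizer G e → P ≤ stabilizer G f →
      Mp G p e ≤ P := fun e f n h he hf => le_syl_of_norm hp (syl_of_maximal hp pP (le_inf he hf) (mx e f n h)) (pM e)
    (le_inf PG.leM h) (he.trans PG.nM)
  have all : ∀ e : Ω, P ≤ stabilizer G e → Mp G p e ≤ P := fun e he => by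
    by_cases h : a = e
    · exact h ▸ inP a b ne ed Pa Pb
    exact inP e a (Ne.symm h) (sym w h ((inP a b ne ed Pa Pb).trans he)) he Pa
  have syl : ∀ e f : Ω, e ≠ f → P ≤ stabilizer G e → P ≤ stabilizer G f →
      IsPiHallOf {p} P (stabilizer G e ⊓ stabilizer G f) := fun e f n he hf =>
    syl_of_maximal hp pP (le_inf he hf) (mx e f n ((all e he).trans hf))
  have n3 : ¬ T3.F3 Ω P := fun f3 => kp (zPuigOf P) (fun e f => e ≠ f ∧ P ≤ stabilizer G e ∧ P ≤ stabilizer G f)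
    ⟨a, b, ne, Pa, Pb⟩ fun e f ⟨n, he, hf⟩ => ⟨n, ⟨P, syl e f n he hf, rfl, all f hf⟩, by
      obtain ⟨t0, o0, e0, f0⟩ := PG.swap w n
      obtain ⟨t, nt, ht, te, tf⟩ := w.sw e f t0 _ P p n o0 e0 f0 le_rfl le_normalizer (sb_swap_norm e0 f0) hp
        (syl e f n he hf)
      obtain ⟨m, tm, -⟩ := w.ac.fix t ht
      obtain ⟨v, nv, ov, ve⟩ := T3.maxF3 w hp pP f3 (fun Q pQ ⟨d1, d2, _, n', _, _, h1, h2, _⟩ le =>
        mx d1 d2 n' ((all d1 (le.trans h1)).trans (le.trans h2)) Q pQ le (le_inf h1 h2)) he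
      obtain ⟨⟨g, hg⟩, rfl⟩ := w.home nv ov ve nt ht tm
      have me : g • e ≠ e := fun h => n (te.symm.trans (h ▸ tm)).symm
      obtain ⟨x, x1, px, ix, xe, cx⟩ := exX mc hp p2 (M1 e) ht tm me (te ▸ (all e he).trans hf)
      exact ⟨t, x, g • e, norm_le_norm_zPuigOf P nt, ht, te, tm, ⟨me.symm, he, sb_fixN he hg⟩, x1, px, ix, xe, cx⟩⟩
  have ex : Ex2 P a b := ⟨ne, Pa, Pb, fun d hd => T3.two_of n3 ne Pa Pb hd⟩
  have hS : IsPiHallOf {p} P ⊤ := by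
    obtain ⟨S, hS, le⟩ := exists_syl_ge hp pP (le_top (a := P))
    have pS := syl_isPGroup hp hS
    by_contra hn
    obtain ⟨g, ⟨gS, gn⟩, ng⟩ := SetLike.exists_of_lt (lt_inf_norm_of_isPGroup hp pS (lt_of_le_of_ne le fun e =>
      hn (e ▸ hS)))
    have og : Odd (orderOf g) := (odd_p hp p2 pS).of_dvd_nat (orderOf_dvd_natCard _ gS)
    have ga : g • a = a := (ex.2.2.2 _ (sb_fixN Pa gn)).resolve_right fun e1 =>
      (ex.2.2.2 _ (sb_fixN Pb gn)).elim (fun e2 => ne (T3.odd_swap og e1 e2)) fun e2 =>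
        ne (smul_left_cancel g (e1.trans e2.symm))
    have gb : g • b = b := (ex.2.2.2 _ (sb_fixN Pb gn)).resolve_left fun e2 =>
      ne (smul_left_cancel g (ga.trans e2.symm))
    exact ng (mx a b ne ed (S ⊓ (stabilizer G a ⊓ stabilizer G b)) (pS.to_le inf_le_left) (le_inf le (le_inf Pa Pb))
      inf_le_right ▸ mem_inf.2 ⟨gS, ga, gb⟩)
  refine ⟨fun T pT => ?_, P, a, b, pP, ex⟩
  obtain ⟨g, -, le⟩ := syl_exists_le_conj hp hS pT le_top
  exact ⟨g • a, g • b, by simpa, le.trans (sb_fix Pa g), le.trans (sb_fix Pb g)⟩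

end Cfsg.Agent.SE.TW
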