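import Cfsg.Agent.SE.TI
import Cfsg.Agent.SE.Def2

/-! Strongly embedded subgroups: the uniqueness theorem when the involutions act on every `O_r(O(G_c))`. -/

set_option autoImplicit false
set_option linter.unusedSectionVars false
set_option linter.unusedVariables false

namespace Cfsg.Agent.SE.UB

open Cfsg Subgroup MulAction Cfsg.Agent.GT Cfsg.Agent.Cls Cfsg.Agent.GW Cfsg.Agent.WA

universe u

variable {G Ω : Type u} [Group G] [Finite G] [MulAction G Ω] {a c : Ω} {s : G} {R O H M S T X : Subgroup G} {q : ℕ}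

local notation3 "𝐂[" R "]" => R ⊓ C[piCoreOf {q}ᶜ (fittingOf R)]

theorem nC (R : Subgroup G) : N[R] ≤ N[𝐂[R]] :=
  le_norm_inf le_rfl (le_norm_cent (le_norm_piCoreOf (norm_le_norm_fittingOf R)))

theorem le_F (hq : q.Prime) (oR : Odd (Nat.card R)) (hX : IsPiSubgroup {q}ᶜ X) (le : X ≤ 𝐂[R])
    (h : X ≤ C[piCoreOf {q} (fittingOf R)]) : X ≤ piCoreOf {q}ᶜ (fittingOf R) :=
  nil_le_piCoreOf (fittingOf_nilpotent R) (le_fittingOf_of_le_cent (solv_odd oR) (le.trans inf_le_left) (by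
    rw [← nil_piCoreOf_sup_compl (fittingOf_nilpotent R) {q}, cent_sup]
    exact le_inf h (le.trans inf_le_right))) hX

theorem zl (hq : q.Prime) (oR : Odd (Nat.card R)) (hS : IsPiHallOf {q} S 𝐂[R]) : N[R] ≤ N[zPuigOf S] := by
  have oC : Odd (Nat.card ↥𝐂[R]) := odd_card_of_le oR inf_le_left
  have h1 : piCoreOf {q}ᶜ 𝐂[R] ≤ piCoreOf {q}ᶜ (fittingOf R) := le_F hq oR (piCoreOf_isPi _ _) (piCoreOf_le _ _)
    ((piCoreOf_le_of_normal inf_le_left (le_normalizer.trans (nC R))).trans piCoreOf_compl_le_cent_piCoreOf_fittingOf)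
  have h2 : 𝐂[R] ≤ N[zPuigOf S] := by
    rw [← Puig_factorisation hq oC (solv_odd oC) hS]
    exact sup_le ((h1.trans (le_cent_symm (((zPuigOf_le S).trans hS.le).trans inf_le_right))).trans (cent_le_norm _))
      inf_le_right
  intro x hx
  obtain ⟨k, hk, n, hn, rfl⟩ := frattini_arg_exists hq hS (nC R hx)
  exact mul_mem (h2 hk) (norm_le_norm_zPuigOf S hn)

theorem abs (oR : Odd (Nat.card R)) (R1 : R ≠ ⊥) (OR : O ≤ R) (OM : O ≤ M) (RM : R ⊓ M ≤ O) (nO : M ≤ N[O])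
    (F : fittingOf R ≤ fittingOf O) (mx : ∀ Z ≤ O, Z ≠ ⊥ → M ≤ N[Z] → N[Z] ≤ M) : N[R] ≤ M := by
  obtain ⟨q, hq, q1⟩ := exists_piCoreOf_single_ne_bot (solv_odd oR) R1
  have oO := odd_card_of_le oR OR
  have m1 : ∀ π : Set ℕ, piCoreOf π (fittingOf R) ≤ piCoreOf π (fittingOf O) := fun π =>
    nil_piCoreOf_mono (fittingOf_nilpotent O) F
  have BO : ∀ π : Set ℕ, piCoreOf π (fittingOf O) ≤ O := fun π => (piCoreOf_le _ _).trans (fittingOf_le _)
  have le1 : O ⊓ C[piCoreOf {q}ᶜ (fittingOf O)] ≤ R ⊓ C[piCoreOf {q}ᶜ (fittingOf R)] ⊓ M :=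
    le_inf (inf_le_inf OR (cent_anti (m1 _))) (inf_le_left.trans OM)
  obtain ⟨T, hT, QT⟩ := exists_syl_ge hq (piCoreOf_isPGroup hq (fittingOf O))
    (M := R ⊓ C[piCoreOf {q}ᶜ (fittingOf R)] ⊓ M) ((le_inf (BO _) piCoreOf_le_cent_compl).trans le1)
  have TC := hT.le.trans inf_le_left
  have TO : T ≤ O := (hT.le.trans (inf_le_inf_right M inf_le_left)).trans RM
  have nB : T ≤ N[piCoreOf {q}ᶜ (fittingOf O)] := le_norm_piCoreOf (le_norm_fittingOf (le_norm_self TO))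
  have TB : T ≤ C[piCoreOf {q}ᶜ (fittingOf O)] := le_cent_symm (coprime_le_cent_of_commutator_le_cent nB
    ((piCoreOf_isPi _ _).coprime' hT.isPi) ((le_F hq oR
      ((piCoreOf_isPi _ _).of_le (commutator_le_of_le_norm_left nB))
      ((commutator_mono le_rfl TC).trans (commutator_le_of_le_norm_right
        ((((BO _).trans OR).trans le_normalizer).trans (nC R))))
      ((commutator_le_of_le_norm_left nB).trans (piCoreOf_compl_le_cent.trans (cent_anti (m1 _))))).trans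
        (le_cent_symm (TC.trans inf_le_right))))
  have hT' := syl_of_le hT (le_inf TO TB) le1
  have T1 : T ≠ ⊥ := ne_bot_of_le q1 (((piCoreOf_single_fittingOf hq).ge.trans (m1 _)).trans QT)
  have e := mx _ ((zPuigOf_le T).trans TO) (zPuigOf_ne_bot hq (syl_isPGroup hq hT) T1) (nO.trans (zl hq oO hT'))
  exact (zl hq oR (syl_of_norm_le hq hT TC (inf_le_inf_left _ ((norm_le_norm_zPuigOf T).trans e)))).trans e

theorem nc (w : Tw1 G Ω) (ncl : ¬ Cl2 G Ω) (o : Odd (Nat.card X)) (le : X ≤ stabilizer G a)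
    (n : ∀ s : G, orderOf s = 2 → s • a = a → s ∈ N[X]) : X ≤ O[stabilizer G a] := by
  let J := closure {s : G | orderOf s = 2 ∧ s • a = a}
  have Ja : J ≤ stabilizer G a := (closure_le _).2 fun s hs => hs.2
  have cf : ∀ g ∈ stabilizer G a, ∀ s : G, s • a = a → (g * s * g⁻¹) • a = a := fun g hg s hs =>
    mul_mem (mul_mem hg hs) (inv_mem hg)
  have nJ : stabilizer G a ≤ N[J] := fun g hg => mem_normalizer_of_conj_le (by
    rw [MonoidHom.map_closure, closure_le]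
    rintro _ ⟨s, hs, rfl⟩
    exact subset_closure ⟨ord2_conj hs.1 g, cf g hg s hs.2⟩)
  have JX : J ≤ N[X] := (closure_le _).2 fun s hs => n s hs.1 hs.2
  have h1 : X ⊓ J ≤ O[stabilizer G a] :=
    (le_O inf_le_right (le_norm_inf JX le_normalizer) (odd_card_of_le o inf_le_left)).trans
      (piCoreOf_le_of_normal Ja nJ)
  have cO : ∀ g ∈ stabilizer G a, ∀ x ∈ O[stabilizer G a], g * x * g⁻¹ ∈ O[stabilizer G a] := fun g hg x hx =>
    conj_mem_of_mem_norm (O_norm _ hg) hx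
  let Y : Subgroup G :=
    { carrier := {g | g • a = a ∧ ∀ s : G, orderOf s = 2 → s • a = a → g * s * g⁻¹ * s⁻¹ ∈ O[stabilizer G a]}
      one_mem' := ⟨one_smul _ _, fun s _ _ => by simp⟩
      mul_mem' := fun {x y} hx hy => ⟨by rw [mul_smul, hy.1, hx.1], fun s os sa => by
        have := mul_mem (cO x hx.1 _ (hy.2 s os sa)) (hx.2 s os sa)
        convert this using 1; group⟩
      inv_mem' := fun {x} hx => ⟨NA.fix_inv hx.1, fun s os sa => by
        have := cO x⁻¹ (NA.fix_inv hx.1) _ (inv_mem (hx.2 s os sa))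
        convert this using 1; group⟩ }
  have Ya : Y ≤ stabilizer G a := fun y hy => hy.1
  have nY : stabilizer G a ≤ N[Y] := fun g hg => mem_normalizer_of_conj_le (conj_le_iff_forall.2 fun y hy =>
    ⟨cf g hg y hy.1, fun s os sa => by
      have := cO g hg _ (hy.2 _ (ord2_conj os g⁻¹) (cf _ (inv_mem hg) s sa))
      convert this using 1; group⟩)
  have XY : X ≤ Y := fun x hx => ⟨le hx, fun s os sa => h1 (mem_inf.2 ⟨by
      have := mul_mem hx (conj_mem_of_mem_norm (n s os sa) (inv_mem hx))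
      convert this using 1; group,
    mul_mem (subset_closure ⟨ord2_conj os x, cf x (le hx) s sa⟩) (inv_mem (subset_closure ⟨os, sa⟩))⟩)⟩
  refine XY.trans (le_O Ya nY (sb_odd fun v hv ov => ncl fun d s s' os os' sd sd' => ?_))
  obtain ⟨g, rfl⟩ := w.ac.tr a d
  have := w.ac.nt
  obtain ⟨b, ne⟩ := exists_ne a
  have k : ∀ s : G, s • g • a = g • a → (g⁻¹ * s * g⁻¹⁻¹) • a = a := fun s e => by
    rw [inv_inv, mul_smul, mul_smul, e, inv_smul_smul]
  obtain ⟨k1, hk, e⟩ := w.ac.ac.tr_inv ne.symm ov (ord2_conj os g⁻¹) hv.1 (k s sd)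
  have h3 := (e ▸ conj_mem_of_mem_norm (nY hk.1) hv).2 _ (ord2_conj os' g⁻¹) (k s' sd')
  rw [← sb_conj_st, ← conj_piCoreOf, mem_conj]
  convert h3 using 1
  rw [inv2 (ord2_conj os g⁻¹), inv2 (ord2_conj os' g⁻¹)]
  group

theorem umB (m : Mc G Ω) (ncl : ¬ Cl2 G Ω) (B : ∀ r : ℕ, r.Prime → ∀ s : G, orderOf s = 2 → s • c = c →
    Mp G r c ≤ C1[s] → Mp G r c = ⊥) {N : Subgroup G} (nt : N ≠ ⊤)
    (hJ : ∀ s : G, orderOf s = 2 → s • c = c → s ∈ N) : N ≤ stabilizer G c := by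
  by_contra nl
  obtain ⟨M, co, le⟩ := exists_coatom_ge nt
  have nl' : ¬ M ≤ stabilizer G c := fun e => nl (le.trans e)
  obtain ⟨s, s', os, os', ne, cm, sc, sc'⟩ := PG.two_inv m.tw c
  have hs := le (hJ s os sc)
  have hs' := le (hJ s' os' sc')
  obtain ⟨-, e⟩ := pSub0 G Ω m.tw m.ih M c s s' co.1 nl' hs hs' os os' ne cm sc
  have Oc : O[M] ≤ stabilizer G c := (e ▸ O_le _ : O[M] ≤ M ⊓ stabilizer G c).trans inf_le_right
  have h := abs (R := O[stabilizer G c]) (O := O[M]) (M := M) (O_odd _) (m.R c)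
    (nc m.tw ncl (O_odd _) Oc fun v ov vc => O_norm _ (le (hJ v ov vc))) (O_le _)
    (e ▸ le_O (le_inf inf_le_right (inf_le_left.trans (O_le _)))
      (le_norm_inf (inf_le_right.trans (O_norm _)) (le_norm_self inf_le_left)) (odd_card_of_le (O_odd _) inf_le_left))
    (O_norm _) (fittingOf_le_of_forall_piCoreOf fun r hr => ?_) fun Z hZ Z1 n =>
      ((co.le_iff.1 n).resolve_left (TI.norm_ne m.tw.ac m.fa Z1 (hZ.trans Oc))).le
  · exact nl' (((m.mx c).le_iff.1 ((O_norm _).trans h)).resolve_left co.1).le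
  by_cases h0 : Mp G r c = ⊥
  · exact h0.le.trans bot_le
  refine (TI.p1' m hr co nl' hs hs' os os' ne cm sc fun e => h0 (B r hr s os sc fun y hy => ?_)).trans
    (piCoreOf_single_le_fittingOf hr)
  have ya : y • c = c := PG.leM hy
  have h2 : y * s * y⁻¹ * s⁻¹ ∈ M ⊓ Mp G r c := mem_inf.2 ⟨mul_mem (le (hJ _ (ord2_conj os y) (by
      rw [mul_smul, mul_smul, NA.fix_inv ya, sc, ya]))) (inv_mem hs), by
    have := mul_mem hy (conj_mem_of_mem_norm (PG.nM sc) (inv_mem hy))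
    convert this using 1; group⟩
  rw [e, mem_bot, mul_inv_eq_one, mul_inv_eq_iff_eq_mul] at h2
  exact mem_cent1.2 h2

theorem pUMB : PUMB.{u} := fun G Ω _ _ _ p m ncl hp B N c nt nl hJ _ =>
  nl (umB m ncl (fun r hr => B r hr c) nt hJ)

end Cfsg.Agent.SE.UB
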