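import Cfsg.Agent.SE.UMA
import Cfsg.Agent.GT.Puig

/-! Strongly embedded subgroups: (UM) in general. -/

set_option autoImplicit false
set_option linter.unusedSectionVars false
set_option linter.unusedVariables false

namespace Cfsg.Agent.SE.TI

open Cfsg Subgroup MulAction Cfsg.Agent.GT Cfsg.Agent.Cls Cfsg.Agent.GW Cfsg.Agent.WA

universe u

variable {G Ω : Type u} [Group G] [Finite G] [MulAction G Ω] {a b c d : Ω} {s s' t v x y k g : G}
  {P Q S X Y M N : Subgroup G} {l p : ℕ}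

/-- an odd subgroup of `G_a` normalised by `J_a` lies in `O(G_a)` -/
theorem ncJ (w : Tw1 G Ω) (ncl : ¬ Cl2 G Ω) (o : Odd (Nat.card X)) (le : X ≤ stabilizer G a)
    (JX : JJ G a ≤ N[X]) : X ≤ O[stabilizer G a] := by
  have h1 : ⁅X, JJ G a⁆ ≤ O[stabilizer G a] :=
    ((le_inf (commutator_le_of_le_norm_left JX) (commutator_le_of_le_norm_right (le.trans nJJ))).trans
      (le_O inf_le_right (le_norm_inf JX le_normalizer) (odd_card_of_le o inf_le_left))).trans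
      (piCoreOf_le_of_normal JJ_le nJJ)
  have nC : stabilizer G a ≤ N[stabilizer G a ⊓ PG.centMod (JJ G a) O[stabilizer G a]] :=
    le_norm_inf le_normalizer (PG.le_norm_centMod nJJ (O_norm _))
  refine (le_inf le (PG.le_centMod_iff.2 ⟨le.trans (O_norm _), h1⟩)).trans
    (le_O inf_le_left nC (sb_odd fun v hv ov => ncl fun d s s' os os' sd sd' => ?_))
  obtain ⟨g, rfl⟩ := w.ac.tr a d
  have := w.ac.nt
  obtain ⟨b, ne⟩ := exists_ne a
  have k : ∀ s : G, s • g • a = g • a → (g⁻¹ * s * g⁻¹⁻¹) • a = a := fun s e => by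
    rw [inv_inv, mul_smul, mul_smul, e, inv_smul_smul]
  obtain ⟨k1, hk, e⟩ := w.ac.ac.tr_inv ne.symm ov (ord2_conj os g⁻¹) hv.1 (k s sd)
  have h3 := (PG.mem_centMod.1 (e ▸ conj_mem_of_mem_norm (nC hk.1) hv).2).2 _ (mem_JJ (ord2_conj os' g⁻¹) (k s' sd'))
  have h4 := conj_mem_conj (g := g).2 h3
  rw [NA.eqvO, commutatorElement_def] at h4
  rw [show s * s' * s * s' = s * s' * s⁻¹ * s'⁻¹ by rw [inv2 os, inv2 os']]
  convert h4 using 1
  group

variable (m : Mc G Ω) (ncl : ¬ Cl2 G Ω)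
include m ncl

/-- (UM) -/
theorem um (nt : N ≠ ⊤) (hJ : ∀ s : G, orderOf s = 2 → s • c = c → s ∈ N) (n : ¬ N ≤ stabilizer G c)
    (h : ∀ r : ℕ, r.Prime → piCoreOf {r} O[stabilizer G c] ≠ ⊥ → N ⊓ piCoreOf {r} O[stabilizer G c] ≠ ⊥) : False := by
  obtain ⟨N', co, le⟩ := exists_coatom_ge nt
  have n' : ¬ N' ≤ stabilizer G c := fun e => n (le.trans e)
  have hJ' := (JJ_le_of hJ).trans le
  have h' : ∀ r : ℕ, r.Prime → piCoreOf {r} O[stabilizer G c] ≤ piCoreOf {r} O[N'] := fun r hr => by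
    by_cases e : piCoreOf {r} O[stabilizer G c] = ⊥
    · rw [e]; exact bot_le
    · simpa using (p1J m hr co n' hJ' (ne_bot_of_le (h r hr e) (inf_le_inf_right _ le)) (one_mem _)).1
  obtain ⟨s, s', o, o', ss, cm, sa, sa'⟩ := PG.two_inv m.tw c
  obtain ⟨-, e⟩ := pSub0 G Ω m.tw m.ih N' c s s' co.1 n' (hJ' (mem_JJ o sa)) (hJ' (mem_JJ o' sa')) o o' ss cm sa
  have Oc : O[N'] ≤ stabilizer G c := (e ▸ O_le _ : O[N'] ≤ _).trans inf_le_right
  have OR : O[N'] ≤ O[stabilizer G c] := ncJ m.tw ncl (O_odd _) Oc (hJ'.trans (O_norm _))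
  have RO : O[stabilizer G c] ⊓ N' ≤ O[N'] := e ▸ le_O (le_inf inf_le_right (inf_le_left.trans (O_le _)))
    (le_norm_inf (inf_le_right.trans (O_norm _)) (inf_le_left.trans le_normalizer)) (odd_card_of_le (O_odd _) inf_le_left)
  have eqN : ∀ X : Subgroup G, X ≠ ⊥ → X ≤ stabilizer G c → N' ≤ N[X] → N[X] = N' := fun X X1 Xc nX =>
    (co.le_iff.1 nX).resolve_left (norm_ne m.tw.ac m.fa X1 Xc)
  have fin : ∀ X : Subgroup G, X ≠ ⊥ → X ≤ stabilizer G c → N' ≤ N[X] → stabilizer G c ≤ N[X] → False :=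
    fun X X1 Xc nX nc => n' (nX.trans (((m.mx c).le_iff.1 nc).resolve_left (norm_ne m.tw.ac m.fa X1 Xc)).le)
  obtain ⟨p, hp, M1⟩ := exists_piCoreOf_single_ne_bot (O_solv _) (m.R c)
  obtain ⟨Q, hQ⟩ : ∃ Q, Q = piCoreOf {p} O[N'] := ⟨_, rfl⟩
  have pQ : IsPGroup p Q := hQ ▸ piCoreOf_isPGroup hp _
  have QO : Q ≤ O[N'] := hQ ▸ piCoreOf_le _ _
  have Q1 : Q ≠ ⊥ := hQ ▸ ne_bot_of_le M1 (h' p hp)
  have nQ : N[Q] = N' := eqN Q Q1 (QO.trans Oc) (hQ ▸ le_norm_piCoreOf (O_norm _))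
  have eO : O[stabilizer G c] ⊓ N[Q] = O[N'] := by
    rw [nQ]; exact le_antisymm RO (le_inf OR (O_le _))
  obtain ⟨E, hE⟩ : ∃ E, E = piCoreOf {p}ᶜ O[stabilizer G c] := ⟨_, rfl⟩
  have ER : E ≤ O[stabilizer G c] := hE ▸ piCoreOf_le _ _
  have nE : stabilizer G c ≤ N[E] := hE ▸ le_norm_piCoreOf (O_norm _)
  have piE : IsPiSubgroup {p}ᶜ E := hE ▸ piCoreOf_isPi _ _
  have QE : Q ≤ C[E] := coprime_le_cent_of_le_cent_fittingOf (solv_odd (odd_card_of_le (O_odd _) ER))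
    ((QO.trans Oc).trans nE) (piE.coprime' (isPi_of_isPGroup hp pQ))
    (le_cent_symm (fittingOf_le_of_forall_piCoreOf fun q hq => by
      by_cases e : q = p
      · rw [e, piCoreOf_eq_bot piE]; exact bot_le
      · rw [hE, piCoreOf_piCoreOf_of_mem (by simpa using e), hQ]
        exact (h' q hq).trans (piCoreOf_le_cent_of_disjoint fun r _ h1 h2 => e (h1.symm.trans h2))))
  have eE : E = piCoreOf {p}ᶜ O[N'] := le_antisymm
    (le_piCoreOf (eO ▸ le_inf ER (le_norm_of_cent (le_cent_symm QE))) (Oc.trans nE) piE)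
    (by rw [← eO, hE]; exact piCoreOf_compl_norm_le hp (O_solv _) (QO.trans OR) pQ)
  have E1 : E = ⊥ := by
    by_contra E1
    exact fin E E1 (ER.trans (O_le _)) (eE ▸ le_norm_piCoreOf (O_norm _)) nE
  obtain ⟨T, hT, QT⟩ := exists_syl_ge hp pQ QO
  have fr : ∀ X : Subgroup G, IsPiHallOf {p} T O[X] → piCoreOf {p}ᶜ O[X] = ⊥ → X ≤ N[zPuigOf T] := fun X hT e g hg => by
    obtain ⟨k, hk, n, hn, rfl⟩ := frattini_arg_exists hp hT (O_norm _ hg)
    exact mul_mem (Puig_center_normal hp (O_odd _) (O_solv _) hT e hk) (norm_le_norm_zPuigOf T hn)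
  have Z1 := zPuigOf_ne_bot hp (syl_isPGroup hp hT) (ne_bot_of_le Q1 QT)
  have Zc := (zPuigOf_le T).trans (hT.le.trans Oc)
  have n1 := fr N' hT (eE ▸ E1)
  refine fin _ Z1 Zc n1 (fr _ (syl_of_norm_le hp hT (hT.le.trans OR) ((inf_le_inf_left _ ?_).trans RO)) (hE ▸ E1))
  exact (norm_le_norm_zPuigOf T).trans (eqN _ Z1 Zc n1).le

/-- (UM), case B -/
theorem umB (B : ∀ r : ℕ, r.Prime → piCoreOf {r} O[stabilizer G c] ≠ ⊥ →
      ¬ ∀ s : G, orderOf s = 2 → s • c = c → piCoreOf {r} O[stabilizer G c] ≤ C1[s])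
    (nt : N ≠ ⊤) (hJ : ∀ s : G, orderOf s = 2 → s • c = c → s ∈ N) (n : ¬ N ≤ stabilizer G c) : False :=
  um m ncl nt hJ n fun r hr h1 e => B r hr h1 fun s o sc x hx => mem_cent1.2 (by
    have : x * s * x⁻¹ * s⁻¹ ∈ N ⊓ piCoreOf {r} O[stabilizer G c] :=
      ⟨mul_mem (hJ _ (ord2_conj o x) (by
        have := PB.cj_fix sc x; rwa [show x • c = c from PG.leM hx] at this)) (N.inv_mem (hJ s o sc)), by
        rw [mul_assoc x, mul_assoc x]; exact mul_mem hx (conj_mem_of_mem_norm (PG.nM sc) (inv_mem hx))⟩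
    rw [e, mem_bot] at this
    calc x * s = x * s * x⁻¹ * s⁻¹ * (s * x) := by group
      _ = _ := by rw [this, one_mul])

end Cfsg.Agent.SE.TI
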