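import Cfsg.Agent.SE.Def2
import Cfsg.Agent.SE.UMA
import Cfsg.Agent.SE.FL
import Cfsg.Agent.SE.PA

/-! Strongly embedded subgroups: pushing up with the Puig subgroup. -/

set_option autoImplicit false
set_option linter.unusedSectionVars false
set_option linter.unusedVariables false

namespace Cfsg.Agent.SE

open Cfsg Subgroup MulAction Cfsg.Agent.GT Cfsg.Agent.Cls Cfsg.Agent.GW Cfsg.Agent.WA

universe u

namespace Up

variable {G Ω : Type u} [Group G] [Finite G] [MulAction G Ω] {a b c d : Ω} {s s' t v v' x y k g : G}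
  {P Q S R T X Y M N : Subgroup G} {p : ℕ}

theorem puig (hp : p.Prime) (hS : IsPGroup p S) (le : R ≤ S) (nS : S ≤ N[R])
    (st : ∀ P : Subgroup G, P ≤ R → N[R] ≤ N[P] → R ⊓ C[P] ≤ P → ∀ A ≤ S, IsMulCommutative A → P ≤ N[A] → A ≤ R) :
    zPuigOf S ≤ zPuigOf R ∧ zPuigOf R ≤ puigInfOf S := by
  have hR := hS.to_le le
  have key : ∀ n, puigAtOf S (2 * n) ≤ puigAtOf R (2 * n) := by
    intro n
    induction n with
    | zero => rw [puigAtOf_zero]; exact bot_le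
    | succ n ih =>
      have h1 : puigAtOf R (2 * n + 1) ≤ puigAtOf S (2 * n + 1) := by
        rw [puigAtOf_succ, puigAtOf_succ]; exact puigSucc_mono le ih
      rw [show 2 * (n + 1) = 2 * n + 1 + 1 by ring, puigAtOf_succ S, puigAtOf_succ _ (2 * n + 1)]
      exact puigSucc_le_of_forall fun A a1 a2 a3 => le_puigSucc (st _ (puigAtOf_le _ _) (norm_le_norm_puigAtOf _ _)
        (inf_cent_puigAtOf_le hp hR _) A a1 a2 (h1.trans a3)) a2 (h1.trans a3)
  have h1 : puigInfOf S ≤ puigInfOf R := by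
    rw [puigInfOf_eq, puigInfOf_eq]; exact iSup_mono key
  have h2 : puigOf R ≤ puigOf S := by
    rw [puigOf_def, puigOf_def]; exact puigSucc_mono le h1
  refine ⟨le_inf ?_ (inf_le_right.trans (cent_anti h2)), (abelian_norm_Puig ((zPuigOf_le _).trans le) (zPuigOf_comm _)
    (nS.trans (norm_le_norm_zPuigOf _))).1⟩
  exact (le_inf (zPuigOf_le S) (inf_le_right.trans (cent_anti (puigInfOf_le_puigOf S)))).trans
    ((inf_cent_puigInfOf_le hp hS).trans (h1.trans (puigInfOf_le_puigOf _)))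

theorem puig2 (le : R ≤ S) (hY : zPuigOf R ≤ puigInfOf S)
    (st : ∀ A ≤ S, IsMulCommutative A → zPuigOf R ≤ N[A] → A ≤ R) : zPuigOf S = zPuigOf R := by
  have hL : puigOf S ≤ R := by
    rw [puigOf_def]
    exact puigSucc_le_of_forall fun A a1 a2 a3 => st A a1 a2 (hY.trans a3)
  rw [zPuigOf, zPuigOf, sub_Puig_eq le hL]

theorem cent_of (o : Odd (Nat.card R)) (hs : orderOf s = 2) (n : s ∈ N[R]) (nP : R ≤ N[P]) (sc : R ⊓ C[P] ≤ P)
    (c : s ∈ C[P]) : s ∈ C[R] := by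
  have h1 : ⁅R, zpowers s⁆ ≤ P := (le_inf (commutator_le_of_le_norm_left (zp_norm n))
    (commutator_le_cent_of_norm_of_cent nP (zpowers_le.2 c))).trans sc
  have := coprime_le_cent_of_commutator_le_cent (zp_norm n) (cop2 o hs) (h1.trans (le_cent_symm (zpowers_le.2 c)))
  exact zpowers_le.1 (le_cent_symm this)

theorem om (hv : v ∈ M) (o : orderOf v = 2) : orderOf (⟨v, hv⟩ : M) = 2 := (orderOf_mk _ _).trans o

variable (f : Fm p M c)
include f

theorem move (hg : g ∈ M) : Fm p M (g • c) := by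
  obtain ⟨s, hs, s', hs', o, o', ne, cm, sc⟩ := f.four
  obtain ⟨T, g1, h1, g2, h2, pT, TM, e⟩ := f.ex
  refine ⟨f.ne, fun e => f.nle fun x hx => ?_, ⟨g * s * g⁻¹, mul_mem (mul_mem hg hs) (inv_mem hg), g * s' * g⁻¹,
    mul_mem (mul_mem hg hs') (inv_mem hg), ord2_conj o g, ord2_conj o' g, fun e => ne (by simpa using e), ?_, ?_⟩,
    T, g1 * g⁻¹, mul_mem h1 (inv_mem hg), g2 * g⁻¹, mul_mem h2 (inv_mem hg), pT, TM, ?_⟩
  · have : (g * x * g⁻¹) • g • c = g • c := e (mul_mem (mul_mem hg hx) (inv_mem hg))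
    rwa [mul_smul, inv_smul_smul, mul_smul, smul_left_cancel_iff] at this
  · rw [show g * s * g⁻¹ * (g * s' * g⁻¹) = g * (s * s') * g⁻¹ by group, cm]; group
  · rw [mul_smul, inv_smul_smul, mul_smul, sc]
  · rwa [mul_smul, mul_smul, inv_smul_smul]

theorem ac (w : Tw1 G Ω) : Ac M (orbit M c) := by
  obtain ⟨s, hs, s', hs', o, o', ne, cm, sc⟩ := f.four
  exact (w.sub f.nle hs hs' o o' ne cm sc).ac

theorem cj (w : Tw1 G Ω) (hv : v ∈ M) (hv' : v' ∈ M) (o : orderOf v = 2) (o' : orderOf v' = 2) :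
    ∃ n ∈ M, n * v * n⁻¹ = v' := by
  obtain ⟨n, e⟩ := isConj_iff.1 ((ac f w).cj (om hv o) (om hv' o'))
  exact ⟨n, n.2, congrArg Subtype.val e⟩

theorem home (w : Tw1 G Ω) (hv : v ∈ M) (o : orderOf v = 2) (e : v • d = d) : ∃ g ∈ M, g • c = d := by
  obtain ⟨s, hs, s', hs', o1, o', ne, cm, sc⟩ := f.four
  obtain ⟨g, e⟩ := w.home hs o1 sc hv o e
  exact ⟨g, g.2, e⟩

theorem four (w : Tw1 G Ω) (hv : v ∈ M) (o : orderOf v = 2) : ∃ u ∈ M, orderOf u = 2 ∧ u ≠ v ∧ u * v = v * u := by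
  obtain ⟨s, hs, s', hs', o1, o', ne, cm, sc⟩ := f.four
  obtain ⟨g, hg, rfl⟩ := cj f w hs hv o1 o
  refine ⟨g * s' * g⁻¹, mul_mem (mul_mem hg hs') (inv_mem hg), ord2_conj o' g, fun e => ne (by simpa using e.symm), ?_⟩
  rw [show g * s * g⁻¹ * (g * s' * g⁻¹) = g * (s * s') * g⁻¹ by group, cm]; group

theorem card_eq (w : Tw1 G Ω) (hg : g ∈ M) (ne : c ≠ g • c) (hv : v ∈ M) (o : orderOf v = 2) (e : v • c = c) :
    Nat.card ↥(M ⊓ (stabilizer G c ⊓ stabilizer G (g • c))) =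
      Nat.card ↥(M ⊓ (stabilizer G (g • c) ⊓ stabilizer G (v • g • c))) := by
  have k : ∀ a b : orbit M c, Nat.card ↥(stabilizer M a ⊓ stabilizer M b) =
      Nat.card ↥(M ⊓ (stabilizer G (a : Ω) ⊓ stabilizer G (b : Ω))) := fun a b => by
    rw [← card_map_of_injective (f := M.subtype) M.subtype_injective, map_inf _ _ _ M.subtype_injective, stab_orbit,
      stab_orbit, ← inf_inf_distrib_left]
  have := FL.card_eq (c := ⟨c, mem_orbit_self c⟩) (a := ⟨g • c, mem_orbit c (⟨g, hg⟩ : M)⟩) (ac f w)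
    (fun e => ne (congrArg Subtype.val e)) (om hv o) (Subtype.ext (by exact e))
  rwa [k, k] at this

theorem core (m : Mc G Ω) : (∀ g ∈ M, O[M] ≤ stabilizer G (g • c)) ∧ O[M ⊓ stabilizer G c] = O[M] := by
  obtain ⟨s, hs, s', hs', o, o', ne, cm, sc⟩ := f.four
  obtain ⟨k, e⟩ := pSub0 G Ω m.tw m.ih M c s s' f.ne f.nle hs hs' o o' ne cm sc
  exact ⟨e ▸ k, e⟩

omit f

end Up

end Cfsg.Agent.SE
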