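import Cfsg.Agent.SE.Up0

/-! Strongly embedded subgroups: pushing up with the Puig subgroup. -/

set_option autoImplicit false
set_option linter.unusedSectionVars false
set_option linter.unusedVariables false

namespace Cfsg.Agent.SE

open Cfsg Subgroup MulAction Cfsg.Agent.GT Cfsg.Agent.Cls Cfsg.Agent.GW Cfsg.Agent.WA

universe u

namespace Up

variable {G Ω : Type u} [Group G] [Finite G] [MulAction G Ω] {a b c d : Ω} {s s' t v v' x y k g : G}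
  {P Q S R T X Y M N : Subgroup G} {p : ℕ}

/-- Frattini step -/
theorem frat (m : Mc G Ω) (hp : p.Prime) (f : Fm p M a) (hS : IsPiHallOf {p} S M) (hg : g ∈ M)
    (ex : Ex2 S a (g • a)) : Fm p (M ⊓ N[S ⊓ O[M]]) a ∧ O[M ⊓ N[S ⊓ O[M]]] ≤ O[M] ∧
      ∃ n ∈ M ⊓ N[S ⊓ O[M]], n • a = g • a := by
  obtain ⟨k, e⟩ := core f m
  have hR := syl_inf_normal hp hS (O_le M) (O_norm M)
  have SR : S ≤ N[S ⊓ O[M]] := le_norm_inf le_normalizer (hS.le.trans (O_norm M))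
  have tr : ∀ x ∈ M, ∃ n ∈ M ⊓ N[S ⊓ O[M]], n • a = x • a := fun x hx => by
    obtain ⟨y, hy, n, hn, rfl⟩ := frattini_arg_exists hp hR (O_norm M hx)
    have nM : n ∈ M := (mul_mem_cancel_left (O_le M hy)).1 hx
    exact ⟨n, ⟨nM, hn⟩, by rw [mul_smul]; exact (k n nM hy).symm⟩
  obtain ⟨n, hn, en⟩ := tr g hg
  refine ⟨⟨fun e => f.ne (top_unique (e ▸ inf_le_left)), fun l => ex.1 (en ▸ (l hn).symm), ?_,
    S, 1, one_mem _, n, hn, syl_isPGroup hp hS, le_inf hS.le SR, by rwa [one_smul, en]⟩, ?_, n, hn, en⟩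
  · obtain ⟨s, hs, s', hs', o, o', ne, cm, sc⟩ := f.four
    obtain ⟨K, hK, nK⟩ := coprime_exists_syl hp (Or.inl (O_solv M)) ((V_le hs hs').trans (O_norm M))
      (cop2' (O_odd M) (V_pg o o' cm.symm))
    obtain ⟨y, hy, ey⟩ := syl_exists_conj hp hK hR
    have yM := O_le M hy
    have ya : y • a = a := by simpa using k 1 (one_mem _) hy
    have n : ∀ v ∈ zpowers s ⊔ zpowers s', y * v * y⁻¹ ∈ M ⊓ N[S ⊓ O[M]] := fun v hv =>
      ⟨M.mul_mem (M.mul_mem yM (V_le hs hs' hv)) (M.inv_mem yM), by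
        rw [ey, ← conj_normalizer]; exact conj_mem_conj.2 (nK hv)⟩
    refine ⟨_, n s (mem_sup_left (mem_zpowers s)), _, n s' (mem_sup_right (mem_zpowers s')), ord2_conj o y,
      ord2_conj o' y, fun e => ne (by simpa using e), ?_, ?_⟩
    · rw [show y * s * y⁻¹ * (y * s' * y⁻¹) = y * (s * s') * y⁻¹ by group, cm]; group
    · rw [mul_smul, mul_smul, NA.fix_inv ya, sc, ya]
  · have fr := frattini_arg hp hR (O_le M) (O_norm M)
    have l : O[M ⊓ N[S ⊓ O[M]]] ≤ M := (O_le _).trans inf_le_left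
    refine le_sup_right.trans (le_O (sup_le (O_le M) l) (fr.ge.trans (sup_le (le_norm_self le_sup_left)
      (le_norm_sup (inf_le_left.trans (O_norm M)) (O_norm _)))) (odd_iff_pi.1 ((piCoreOf_isPi _ _).sup
        (piCoreOf_isPi _ _) (Or.inr (l.trans (O_norm M))))))

theorem push (m : Mc G Ω) (hp : p.Prime) (hM : ∀ c : Ω, Mp G p c ≠ ⊥) (st : STB G Ω p) (co : IsCoatom M)
    (f : Fm p M a) (h : M ⊓ Mp G p a ≠ ⊥) (hS : IsPiHallOf {p} S M) (hg : g ∈ M) (ex : Ex2 S a (g • a)) :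
    Fm p N[zPuigOf S] a ∧ Mp G p a ≤ S ∧ ∃ n ∈ N[zPuigOf S], n • a = g • a := by
  have w := m.tw
  obtain ⟨f1, O1, n, hn, en⟩ := frat m hp f hS hg ex
  have hR := syl_inf_normal hp hS (O_le M) (O_norm M)
  have SR : S ≤ N[S ⊓ O[M]] := le_norm_inf le_normalizer (hS.le.trans (O_norm M))
  have RS : S ⊓ O[M] ≤ S := inf_le_left
  have oR : Odd (Nat.card ↥(S ⊓ O[M])) := odd_card_of_le (O_odd M) inf_le_right
  have st1 := fun P A (hP : P ≤ S ⊓ O[M]) n o (hA : A ≤ S) c nA => le_inf hA ((st _ a f1 P A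
    ((syl_isPGroup hp hS).to_le (hP.trans RS)) (hP.trans (RS.trans (le_inf hS.le SR))) n o (hA.trans (le_inf hS.le SR))
    ((syl_isPGroup hp hS).to_le hA) c nA).trans O1)
  have pS := syl_isPGroup hp hS
  have Ma : Mp G p a ≤ piCoreOf {p} O[M] := by
    obtain ⟨s, hs, s', hs', o, o', ne, cm, sc⟩ := f.four
    exact TI.p1' m hp co f.nle hs hs' o o' ne cm sc h
  have Mb : Mp G p (g • a) ≤ piCoreOf {p} O[M] := by
    rw [Mp, ← NA.eqvP, ← conj_eq_self (le_norm_piCoreOf (O_norm M) hg)]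
    exact conj_mono g Ma
  replace Ma := Ma.trans (piCoreOf_le_hall hR)
  replace Mb := Mb.trans (piCoreOf_le_hall hR)
  generalize S ⊓ O[M] = R at *
  have Co : ∀ s ∈ C[R], orderOf s ≠ 2 := fun s hs o => ex.1 (w.ac.ac.uniq o
    ((TI.norm_M m (hM a)).le (cent_le_norm _ (cent_anti Ma hs)))
    ((TI.norm_M m (hM _)).le (cent_le_norm _ (cent_anti Mb hs))))
  obtain ⟨h1, h2⟩ := puig hp pS RS SR fun P hP nP sc A hA c nA => st1 P A hP (inf_le_right.trans nP)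
    (sb_odd fun v hv o => Co v (cent_of oR o hv.1.2 (le_normalizer.trans nP) sc hv.2) o) hA c nA
  have nY : M ⊓ N[R] ≤ N[zPuigOf R] := inf_le_right.trans (norm_le_norm_zPuigOf R)
  have I : ∀ v ∈ M ⊓ N[R], orderOf v = 2 → v ∈ N[zPuigOf S] := fun v hv o => by
    by_cases od : Odd (Nat.card ↥(M ⊓ N[R] ⊓ C[zPuigOf R]))
    · rw [puig2 RS h2 fun A hA c nA => st1 _ A (zPuigOf_le R) nY od hA c nA]
      exact nY hv
    · obtain ⟨s, hs, os⟩ := exists_inv (Nat.not_odd_iff_even.1 od)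
      obtain ⟨x, hx, rfl⟩ := cj f1 w hs.1 hv os o
      exact cent_le_norm _ (cent_anti h1 ((mem_normalizer_iff.1 (le_norm_cent nY hx) s).1 hs.2))
  have SY : S ≤ N[zPuigOf S] := le_normalizer.trans (norm_le_norm_zPuigOf S)
  obtain ⟨s, hs, s', hs', o, o', ne, cm, sc⟩ := f1.four
  have hb : n * s * n⁻¹ ∈ N[zPuigOf S] := I _ (mul_mem (mul_mem hn hs) (inv_mem hn)) (ord2_conj o n)
  have eb : (n * s * n⁻¹) • g • a = g • a := by rw [← en, mul_smul, inv_smul_smul, mul_smul, sc]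
  obtain ⟨⟨x, hx⟩, ex'⟩ := w.home (I s hs o) o sc hb (ord2_conj o n) eb
  replace ex' : x • a = g • a := ex'
  refine ⟨⟨TI.norm_ne w.ac m.fa (zPuigOf_ne_bot hp pS (ne_bot_of_le (hM a) (Ma.trans RS)))
    ((zPuigOf_le S).trans ex.2.1), fun l => ex.1 (ex' ▸ (l hx).symm), ⟨s, I s hs o, s', I s' hs' o', o, o', ne, cm, sc⟩,
    S, 1, one_mem _, x, hx, pS, SY, by rwa [one_smul, ex']⟩, Ma.trans RS, x, hx, ex'⟩

/-- the reduction of `PUp` to its last step -/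
theorem red (m : Mc G Ω) (hp : p.Prime) (hM : ∀ c : Ω, Mp G p c ≠ ⊥) (two : Two G Ω p)
    (ex : ∃ (M : Subgroup G) (c : Ω), Fm p M c ∧ M ⊓ Mp G p c ≠ ⊥) (st : STB G Ω p) :
    ∃ (S : Subgroup G) (a : Ω) (g : G), IsPiHallOf {p} S ⊤ ∧ Fm p N[zPuigOf S] a ∧ g ∈ N[zPuigOf S] ∧ a ≠ g • a ∧
      S ≤ stabilizer G a ∧ S ≤ stabilizer G (g • a) := by
  obtain ⟨M0, c0, f0, h0⟩ := ex
  obtain ⟨⟨S1, M1, c, f1, h1, p1, l1⟩, mx⟩ := @Finite.exists_max {S : Subgroup G // ∃ (M : Subgroup G) (c : Ω),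
    Fm p M c ∧ M ⊓ Mp G p c ≠ ⊥ ∧ IsPGroup p S ∧ S ≤ M} ℕ _ ⟨⟨⊥, M0, c0, f0, h0, IsPGroup.of_bot, bot_le⟩⟩ _
    fun X => Nat.card X.1
  obtain ⟨M, co, le⟩ := exists_coatom_ge f1.ne
  have f : Fm p M c := by
    obtain ⟨s, hs, s', hs', r⟩ := f1.four
    obtain ⟨T, g1, k1, g2, k2, pT, TM, e⟩ := f1.ex
    exact ⟨co.1, fun e => f1.nle (le.trans e), ⟨s, le hs, s', le hs', r⟩, T, g1, le k1, g2, le k2, pT, TM.trans le, e⟩
  have h : M ⊓ Mp G p c ≠ ⊥ := ne_bot_of_le h1 (inf_le_inf_right _ le)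
  obtain ⟨T, g1, k1, g2, k2, pT, TM, e⟩ := f.ex
  obtain ⟨S, hS, TS⟩ := exists_syl_ge hp pT TM
  have pS := syl_isPGroup hp hS
  have c1 : Nat.card S1 ≤ Nat.card S := Nat.le_of_dvd Nat.card_pos (syl_card_dvd hp hS p1 (l1.trans le))
  have eS : Ex2 S (g1 • c) ((g2 * g1⁻¹) • g1 • c) := by
    rw [mul_smul, inv_smul_smul]
    obtain ⟨a, b, ne, ha, hb⟩ := two.1 S pS
    refine ⟨e.1, ?_, ?_, fun d hd => e.2.2.2 d (TS.trans hd)⟩ <;>
      rcases e.2.2.2 a (TS.trans ha) with rfl | rfl <;> rcases e.2.2.2 b (TS.trans hb) with rfl | rfl <;>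
      first | exact ha | exact hb | exact absurd rfl ne
  have h' : M ⊓ Mp G p (g1 • c) ≠ ⊥ := by
    rw [Mp, ← NA.eqvP, ← conj_eq_self_of_mem k1, ← conj_inf, Ne, conj_eq_bot_iff]
    exact h
  obtain ⟨f2, Ma, n, hn, en⟩ := push m hp hM st co (move f k1) h' hS (mul_mem k2 (inv_mem k1)) eS
  have SY : N[S] ≤ N[zPuigOf S] := norm_le_norm_zPuigOf S
  obtain ⟨S2, h2, l2⟩ := exists_syl_ge hp pS (le_normalizer.trans SY)
  have e2 : S = S2 := eq_of_le_of_card_ge l2 ((mx ⟨S2, _, _, f2, ne_bot_of_le (hM _)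
    (le_inf (Ma.trans (le_normalizer.trans SY)) le_rfl), syl_isPGroup hp h2, h2.le⟩).trans c1)
  exact ⟨S, g1 • c, n, syl_top_of_norm_le hp (e2 ▸ h2) SY, f2, hn, en ▸ eS.1, eS.2.1, en ▸ eS.2.2.1⟩

end Up

end Cfsg.Agent.SE
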